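/-
Zassenhaus' recognition of `PSL₂(q)`, `q` odd, from its action on the projective line.
-/
import Cfsg.Agent.Lib.Classical.SL2
import Cfsg.Agent.Lib.Classical.GroupAux
import Cfsg.Agent.Lib.G.Transfer

set_option autoImplicit false
set_option linter.unusedSectionVars false

open Cfsg Subgroup OnePoint Matrix
open scoped MatrixGroups

namespace CA.Zas

variable {G : Type*} [Group G] {F : Type*} [Field F] [MulAction G (OnePoint F)]

/-- `g` acts as the affine map `x ↦ k x + a`. -/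
def Aff (g : G) (k a : F) : Prop :=
  g • (∞ : OnePoint F) = ∞ ∧ ∀ x : F, g • (x : OnePoint F) = ((k * x + a : F) : OnePoint F)

theorem Aff.mul {g h : G} {k a l b : F} (hg : Aff g k a) (hh : Aff h l b) : Aff (g * h) (k * l) (k * b + a) :=
  ⟨by rw [mul_smul, hh.1, hg.1], fun x => by rw [mul_smul, hh.2, hg.2]; congr 1; ring⟩

theorem aff_one : Aff (1 : G) (1 : F) 0 := ⟨one_smul _ _, fun x => by simp⟩

theorem Aff.pow {g : G} {k : F} (hg : Aff g k 0) (n : ℕ) : Aff (g ^ n) (k ^ n) 0 := by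
  induction n with
  | zero => simpa using aff_one
  | succ n ih => simpa [pow_succ] using ih.mul hg

variable (G F) in
/-- The hypotheses: a faithful action on the projective line, the stabilizer of `∞` being the group of the maps
`x ↦ c² x + a`. -/
structure ZAct : Prop where
  faith : ∀ g : G, (∀ x : OnePoint F, g • x = x) → g = 1
  aff : ∀ c : F, c ≠ 0 → ∀ a : F, ∃ g : G, Aff g (c ^ 2) a
  stab : ∀ g : G, g • (∞ : OnePoint F) = ∞ → ∃ c : F, c ≠ 0 ∧ ∃ a, Aff g (c ^ 2) a
  mov : ∃ t : G, t • (∞ : OnePoint F) ≠ ∞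

variable (F) in
/-- `t` interchanges `∞` and `0`. -/
def Swap (t : G) : Prop :=
  t • (∞ : OnePoint F) = ((0 : F) : OnePoint F) ∧ t • ((0 : F) : OnePoint F) = ∞

variable (G F) in
/-- The stabilizer of `∞` and `0`. -/
def KK : Subgroup G :=
  MulAction.stabilizer G (∞ : OnePoint F) ⊓ MulAction.stabilizer G ((0 : F) : OnePoint F)

theorem mem_KK {k : G} : k ∈ KK G F ↔
    k • (∞ : OnePoint F) = ∞ ∧ k • ((0 : F) : OnePoint F) = ((0 : F) : OnePoint F) := Iff.rfl

theorem Aff.mem_KK {g : G} {k : F} (h : Aff g k 0) : g ∈ KK G F := ⟨h.1, by simpa using h.2 0⟩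

theorem Swap.mul_mem {s t : G} (hs : Swap F s) (ht : Swap F t) : s * t ∈ KK G F :=
  mem_KK.2 ⟨by rw [mul_smul, ht.1, hs.2], by rw [mul_smul, ht.2, hs.1]⟩

theorem Swap.inv {s : G} (hs : Swap F s) : Swap F s⁻¹ :=
  ⟨inv_smul_eq_iff.2 hs.2.symm, inv_smul_eq_iff.2 hs.1.symm⟩

theorem Swap.mul_right {s k : G} (hs : Swap F s) (hk : k ∈ KK G F) : Swap F (s * k) :=
  ⟨by rw [mul_smul, (mem_KK.1 hk).1, hs.1], by rw [mul_smul, (mem_KK.1 hk).2, hs.2]⟩

theorem Swap.mul_left {s k : G} (hs : Swap F s) (hk : k ∈ KK G F) : Swap F (k * s) :=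
  ⟨by rw [mul_smul, hs.1, (mem_KK.1 hk).2], by rw [mul_smul, hs.2, (mem_KK.1 hk).1]⟩

theorem Swap.conj_mem {s k : G} (hs : Swap F s) (hk : k ∈ KK G F) : s * k * s⁻¹ ∈ KK G F :=
  (hs.mul_right hk).mul_mem hs.inv

namespace ZAct
variable (h : ZAct G F)
include h

theorem ext {g g' : G} (e : ∀ x : OnePoint F, g • x = g' • x) : g = g' := by
  rw [← inv_mul_eq_one]
  exact h.faith _ fun x => by rw [mul_smul, ← e, inv_smul_smul]

theorem aff_ext {g g' : G} {k a : F} (h1 : Aff g k a) (h2 : Aff g' k a) : g = g' :=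
  h.ext fun x => by
    induction x with
    | infty => rw [h1.1, h2.1]
    | coe x => rw [h1.2, h2.2]

theorem tr (a : F) : ∃ g : G, Aff g 1 a := by simpa using h.aff 1 one_ne_zero a

theorem of_KK {k : G} (hk : k ∈ KK G F) : ∃ c : F, c ≠ 0 ∧ Aff k (c ^ 2) 0 := by
  obtain ⟨c, hc, a, ha⟩ := h.stab k hk.1
  have := ha.2 0
  rw [(mem_KK.1 hk).2, OnePoint.coe_eq_coe] at this
  exact ⟨c, hc, by rwa [show a = 0 by simpa using this.symm] at ha⟩

theorem exists_swap : ∃ t : G, Swap F t := by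
  obtain ⟨t0, ht0⟩ := h.mov
  obtain ⟨b, hb⟩ := OnePoint.ne_infty_iff_exists.1 ht0
  obtain ⟨u, hu⟩ := h.tr (-b)
  have h1 : (u * t0) • (∞ : OnePoint F) = ((0 : F) : OnePoint F) := by
    rw [mul_smul, ← hb, hu.2]; simp
  have h2 : (u * t0)⁻¹ • (∞ : OnePoint F) ≠ ∞ := by
    rw [Ne, inv_smul_eq_iff, h1]; exact OnePoint.infty_ne_coe _
  obtain ⟨c, hc⟩ := OnePoint.ne_infty_iff_exists.1 h2
  obtain ⟨v, hv⟩ := h.tr c
  refine ⟨u * t0 * v, by rw [mul_smul, hv.1, h1], ?_⟩
  rw [mul_smul, hv.2, mul_zero, zero_add, hc, smul_inv_smul]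

theorem move1 (x : OnePoint F) : ∃ g : G, g • x = ∞ := by
  induction x with
  | infty => exact ⟨1, one_smul _ _⟩
  | coe x =>
    obtain ⟨t, ht⟩ := h.exists_swap
    obtain ⟨u, hu⟩ := h.tr (-x)
    exact ⟨t * u, by rw [mul_smul, hu.2]; simpa using ht.2⟩

theorem move2 {x y : OnePoint F} (hxy : x ≠ y) : ∃ g : G, g • x = ∞ ∧ g • y = ((0 : F) : OnePoint F) := by
  obtain ⟨g, hg⟩ := h.move1 x
  have : g • y ≠ ∞ := by rw [← hg]; exact fun e => hxy (MulAction.injective g e).symm
  obtain ⟨b, hb⟩ := OnePoint.ne_infty_iff_exists.1 this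
  obtain ⟨u, hu⟩ := h.tr (-b)
  exact ⟨u * g, by rw [mul_smul, hg, hu.1], by rw [mul_smul, ← hb, hu.2]; simp⟩

theorem three {s : G} {x y w : OnePoint F} (hxy : x ≠ y) (hxw : x ≠ w) (hyw : y ≠ w)
    (hx : s • x = x) (hy : s • y = y) (hw : s • w = w) : s = 1 := by
  obtain ⟨g, h1, h2⟩ := h.move2 hxy
  have e : ∀ v : OnePoint F, s • v = v → (g * s * g⁻¹) • g • v = g • v := fun v hv => by
    rw [mul_smul, mul_smul, inv_smul_smul, hv]
  obtain ⟨c, -, hc⟩ := h.of_KK (k := g * s * g⁻¹) (mem_KK.2 ⟨h1 ▸ e x hx, h2 ▸ e y hy⟩)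
  have h3 : g • w ≠ ∞ := by rw [← h1]; exact fun e => hxw (MulAction.injective g e).symm
  obtain ⟨b, hb⟩ := OnePoint.ne_infty_iff_exists.1 h3
  have h4 : b ≠ 0 := fun e0 => hyw (MulAction.injective g (by simp only; rw [h2, ← hb, e0]))
  have h5 := e w hw
  rw [← hb, hc.2, OnePoint.coe_eq_coe, add_zero, mul_eq_right₀ h4] at h5
  rw [h5] at hc
  simpa using h.aff_ext hc aff_one

theorem cyclic_KK [Finite G] : IsCyclic (KK G F) := by
  choose c hc hc' using fun k : KK G F => h.of_KK k.2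
  let f : KK G F →* F :=
    { toFun := fun k => c k ^ 2
      map_one' := by
        have := (hc' 1).2 1
        rw [OneMemClass.coe_one, one_smul, OnePoint.coe_eq_coe] at this
        simpa using this.symm
      map_mul' := fun a b => by
        have h1 := (hc' (a * b)).2 1
        rw [Subgroup.coe_mul, ((hc' a).mul (hc' b)).2, OnePoint.coe_eq_coe] at h1
        simpa using h1.symm }
  refine isCyclic_of_subgroup_isDomain f fun a b e => Subtype.ext (h.aff_ext (hc' a) ?_)
  have : c a ^ 2 = c b ^ 2 := e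
  rw [this]; exact hc' b

theorem good_even [Finite G] (h2 : (2 : F) ≠ 0) (hs : IsSquare (-1 : F)) {t : G} (ht : Swap F t) :
    ∀ k ∈ KK G F, t * k * (t * k) = 1 := by
  obtain ⟨i, hi⟩ := hs
  have hi0 : i ≠ 0 := fun e => by simp [e] at hi
  have neg : ∀ d : F, ∃ g : G, Aff g (-1) d := fun d => by
    have := h.aff i hi0 d
    rwa [pow_two, ← hi] at this
  have negsq : ∀ {g : G} {d : F}, Aff g (-1) d → g * g = 1 := fun hg =>
    h.aff_ext (by simpa using hg.mul hg) aff_one
  obtain ⟨z, hz⟩ := neg 0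
  have hz1 : z ≠ 1 := fun e => by
    have := hz.2 1
    rw [e, one_smul, OnePoint.coe_eq_coe] at this
    apply h2; linear_combination this
  have comm : ∀ s : G, Swap F s → s * z * s⁻¹ = z := fun s hs => by
    obtain ⟨c, -, hc⟩ := h.of_KK (hs.conj_mem hz.mem_KK)
    have e1 : s * z * s⁻¹ * (s * z * s⁻¹) = 1 := by
      calc _ = s * (z * z) * s⁻¹ := by group
        _ = 1 := by rw [negsq hz]; group
    have e2 := (hc.mul hc).2 1
    rw [e1, one_smul, OnePoint.coe_eq_coe] at e2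
    have e3 : c ^ 2 = 1 ∨ c ^ 2 = -1 := by
      rw [← mul_self_eq_one_iff]; linear_combination -e2
    rcases e3 with e3 | e3 <;> rw [e3] at hc
    · exact absurd (by simpa using h.aff_ext hc aff_one) hz1
    · exact h.aff_ext hc hz
  have ex : ∀ a : F, a ≠ 0 → ∃ s : G, Swap F s ∧ s * s = 1 ∧ s • (a : OnePoint F) = a := fun a ha => by
    obtain ⟨g, h1, h3⟩ := h.move2 (OnePoint.coe_ne_infty a)
    have h4 : g • ((0 : F) : OnePoint F) ≠ ∞ := by
      rw [← h1]; exact fun e => ha (OnePoint.coe_eq_coe.1 (MulAction.injective g e)).symm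
    obtain ⟨d, hd⟩ := OnePoint.ne_infty_iff_exists.1 h4
    obtain ⟨j, hj⟩ := neg d
    refine ⟨g⁻¹ * j * g, ⟨?_, ?_⟩, ?_, ?_⟩
    · rw [mul_smul, mul_smul, h3, hj.2, inv_smul_eq_iff, ← hd]; simp
    · rw [mul_smul, mul_smul, ← hd, hj.2, inv_smul_eq_iff, h3]; simp
    · calc _ = g⁻¹ * (j * j) * g := by group
        _ = 1 := by rw [negsq hj]; group
    · rw [mul_smul, mul_smul, h1, hj.1, inv_smul_eq_iff, h1]
  choose c hc hc' using fun k : KK G F => h.of_KK k.2
  choose s hs1 hs2 hs3 using fun k : KK G F => ex (c k) (hc k)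
  let Φ : KK G F → KK G F := fun k => ⟨t⁻¹ * s k, ht.inv.mul_mem (hs1 k)⟩
  have inj : Function.Injective Φ := fun a b e => by
    have e1 : s a = s b := mul_left_cancel (congrArg Subtype.val e)
    have e2 : s a • ((-c a : F) : OnePoint F) = ((-c a : F) : OnePoint F) := by
      have e3 : z • ((c a : F) : OnePoint F) = ((-c a : F) : OnePoint F) := by rw [hz.2]; simp
      rw [← e3, ← mul_smul, mul_inv_eq_iff_eq_mul.1 (comm _ (hs1 a)), mul_smul, hs3]
    have e4 : c a ^ 2 = c b ^ 2 := by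
      by_contra hne
      have hs0 : s a ≠ 1 := fun e5 => by
        have := (hs1 a).1
        rw [e5, one_smul] at this
        exact OnePoint.infty_ne_coe _ this
      refine hs0 (h.three (x := (c a : F)) (y := ((-c a : F) : OnePoint F)) (w := (c b : F)) ?_ ?_ ?_
        (hs3 a) e2 (e1 ▸ hs3 b))
      · rw [Ne, OnePoint.coe_eq_coe]
        exact fun e5 => hc a (by
          have : 2 * c a = 0 := by linear_combination e5
          exact (mul_eq_zero.1 this).resolve_left h2)
      · rw [Ne, OnePoint.coe_eq_coe]; exact fun e5 => hne (by rw [e5])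
      · rw [Ne, OnePoint.coe_eq_coe]; exact fun e5 => hne (by rw [← e5]; ring)
    exact Subtype.ext (h.aff_ext (hc' a) (e4 ▸ hc' b))
  intro k hk
  obtain ⟨a, ha⟩ := (Finite.injective_iff_surjective.1 inj) ⟨k, hk⟩
  have : t * k = s a := by rw [← show t⁻¹ * s a = k from congrArg Subtype.val ha]; group
  rw [this, hs2]

theorem good_odd [Finite G] [Fintype F] (hs : ¬ IsSquare (-1 : F)) (hG : commutator G = ⊤) :
    ∃ t : G, Swap F t ∧ ∀ k ∈ KK G F, t * k * (t * k) = 1 := by
  rw [FiniteField.isSquare_neg_one_iff, not_not] at hs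
  set n := Fintype.card F / 2 with hn
  have hno : Odd n := Nat.odd_iff.2 (by omega)
  have hK : ∀ k ∈ KK G F, k ^ n = 1 := fun k hk => by
    obtain ⟨c, hc, hc'⟩ := h.of_KK hk
    have e := hc'.pow n
    rw [← pow_mul, show 2 * n = Fintype.card F - 1 by omega, FiniteField.pow_card_sub_one_eq_one c hc] at e
    exact h.aff_ext e aff_one
  obtain ⟨t0, ht0⟩ := h.exists_swap
  obtain ⟨j, hj⟩ := id hno
  have ht : Swap F (t0 ^ n) := by
    rw [hj, pow_succ, pow_mul, pow_two]
    exact ht0.mul_left (pow_mem (ht0.mul_mem ht0) j)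
  have ht2 : t0 ^ n * t0 ^ n = 1 := by
    rw [← (Commute.refl t0).mul_pow]; exact hK _ (ht0.mul_mem ht0)
  set t := t0 ^ n
  have hti : t⁻¹ = t := inv_eq_of_mul_eq_one_right ht2
  have hcyc := h.cyclic_KK
  have hab := abelian_iff'.1 (abelian_of_cyclic hcyc)
  refine ⟨t, ht, fun k hk => ?_⟩
  by_contra hne
  have hc : t * k * (t * k) ∈ KK G F := (ht.mul_right hk).mul_mem (ht.mul_right hk)
  have hct : t * (t * k * (t * k)) = t * k * (t * k) * t := by
    have := hab _ hk _ (ht.conj_mem hk)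
    rw [hti] at this
    calc t * (t * k * (t * k)) = (t * t) * (k * (t * k * t)) * t⁻¹ := by group
      _ = _ := by rw [this, ht2, hti]; group
  obtain ⟨c0, hc0, hr⟩ := exists_prime_order_mem (A := zpowers (t * k * (t * k))) (by simpa using hne)
  have hc0K : c0 ∈ KK G F := zpowers_le_of_mem hc hc0
  have hc0t : c0 ∈ 𝐂[t] := zpowers_le_of_mem (mem_cent1_iff.2 hct.symm) hc0
  set r := orderOf c0
  have hr2 : r ≠ 2 := fun e => by
    have : r ∣ n := orderOf_dvd_of_pow_eq_one (hK _ hc0K)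
    rw [e] at this
    exact (Nat.not_even_iff_odd.2 hno) (even_iff_two_dvd.2 this)
  have hc01 : c0 ≠ 1 := fun e => hr.ne_one (by simp [r, e])
  obtain ⟨R, hR, hcR⟩ := exists_sylowIn_ge (p := r) (Q := zpowers c0) (M := KK G F)
    (piGrp_zpowers.2 ((piElt_of_orderOf_prime hr rfl).2 rfl)) (zpowers_le_of_mem hc0K)
  have hcR' : c0 ∈ R := hcR (mem_zpowers c0)
  have hRc : IsCyclic R := cyclic_of_le hcyc hR.le
  -- the normalizer of `R`
  have hN : ∀ g ∈ 𝐍(R), g ∈ KK G F ∨ g * t ∈ KK G F := fun g hg => by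
    have h1 : g⁻¹ * c0 * g ∈ KK G F := hR.le (conj_inv_mem_of_mem_normalizer hg hcR')
    have fx : ∀ v : OnePoint F, (g⁻¹ * c0 * g) • v = v →
        g • v = ∞ ∨ g • v = ((0 : F) : OnePoint F) := fun v hv => by
      by_contra hh
      push Not at hh
      refine hc01 (h.three (OnePoint.infty_ne_coe (0 : F)) hh.1.symm hh.2.symm hc0K.1 hc0K.2 ?_)
      rw [mul_smul, mul_smul, inv_smul_eq_iff] at hv
      exact hv
    have hne' : g • (∞ : OnePoint F) ≠ g • ((0 : F) : OnePoint F) := fun e =>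
      OnePoint.infty_ne_coe _ (MulAction.injective g e)
    rcases fx _ h1.1 with a1 | a1 <;> rcases fx _ h1.2 with a2 | a2
    · exact absurd (a1.trans a2.symm) hne'
    · exact Or.inl ⟨a1, a2⟩
    · exact Or.inr (Swap.mul_mem ⟨a1, a2⟩ ht)
    · exact absurd (a1.trans a2.symm) hne'
  have htK : t ∈ 𝐍(KK G F) := mem_normalizer_of_cj_le (cj_le_iff'.2 fun x hx => ht.conj_mem hx)
  have htR : zpowers t ≤ 𝐍(R) := norms_of_cyclic hcyc hR.le (zpowers_le_of_mem htK)
  have hto : orderOf t ∣ 2 := orderOf_dvd_of_pow_eq_one (by rw [pow_two, ht2])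
  have htC : t ∈ 𝐂(R) := by
    rcases cents_or_cent_eq_bot_of_cyclic hR.piGrp hRc htR (by
      rw [Nat.card_zpowers]
      refine Nat.Coprime.coprime_dvd_right hto ?_
      obtain ⟨m, hm⟩ := (piGrp_singleton_iff_card hr).1 hR.piGrp
      rw [hm]
      exact Nat.Coprime.pow_left _ ((Nat.coprime_primes hr Nat.prime_two).2 hr2)) with e | e
    · exact e (mem_zpowers t)
    · have : c0 ∈ R ⊓ 𝐂(zpowers t) := ⟨hcR', by rw [cent_zpowers]; exact hc0t⟩
      rw [e] at this
      exact absurd this hc01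
  have hKC : KK G F ≤ 𝐂(R) := cents_of_abelian (abelian_of_cyclic hcyc) hR.le le_rfl
  have hNC : 𝐍(R) ≤ 𝐂(R) := fun g hg => by
    rcases hN g hg with e | e
    · exact hKC e
    · simpa using mul_mem (hKC e) (inv_mem htC)
  have hH : SylowIn r R (KK G F ⊔ zpowers t) := by
    refine hR.of_not_dvd_relIndex le_sup_left hr fun hd => hr2 ?_
    rw [relIndex_sup_of_norm (zpowers_le_of_mem htK)] at hd
    have : r ∣ 2 := (hd.trans ((relIndex_dvd_card _ _).trans (Nat.card_zpowers t ▸ hto)))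
    exact (Nat.prime_dvd_prime_iff_eq hr Nat.prime_two).1 this
  have hT : SylowIn r R ⊤ := hH.of_norm_le_top fun g hg => by
    rcases hN g hg with e | e
    · exact mem_sup_left e
    · simpa using mul_mem (mem_sup_left e : _ ∈ KK G F ⊔ zpowers t)
        (inv_mem (mem_sup_right (mem_zpowers t)))
  have := hT.inf_der_eq_bot_of_cent (inf_le_right.trans hNC)
  rw [der_top, hG, inf_top_eq] at this
  exact hc01 (by rwa [this] at hcR')

theorem swap_form [Fintype F] (hodd : Fintype.card F % 2 = 1) {t : G} (ht : Swap F t)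
    (hg : ∀ k ∈ KK G F, t * k * (t * k) = 1) :
    ∃ δ : F, δ ≠ 0 ∧ ∀ x : F, x ≠ 0 → t • (x : OnePoint F) = ((-δ ^ 2 / x : F) : OnePoint F) := by
  classical
  have ht2 : t * t = 1 := by simpa using hg 1 (one_mem _)
  have tt : ∀ v : OnePoint F, t • t • v = v := fun v => by rw [← mul_smul, ht2, one_smul]
  have ex : ∀ x : F, x ≠ 0 → ∃ y : F, t • (x : OnePoint F) = y := fun x hx => by
    have : t • (x : OnePoint F) ≠ ∞ := by
      rw [← ht.2]; exact fun e => hx (OnePoint.coe_eq_coe.1 (MulAction.injective t e))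
    obtain ⟨y, hy⟩ := OnePoint.ne_infty_iff_exists.1 this
    exact ⟨y, hy.symm⟩
  choose! τ hτ using ex
  have τ0 : ∀ x, x ≠ 0 → τ x ≠ 0 := fun x hx e => by
    have := hτ x hx
    rw [e, ← ht.1] at this
    exact OnePoint.coe_ne_infty _ (MulAction.injective t this)
  have ττ : ∀ x, x ≠ 0 → τ (τ x) = x := fun x hx => by
    rw [← OnePoint.coe_eq_coe, ← hτ _ (τ0 x hx), ← hτ x hx, tt]
  have τs : ∀ c x, c ≠ 0 → x ≠ 0 → c ^ 2 * τ (c ^ 2 * x) = τ x := fun c x hc hx => by
    obtain ⟨k, hk⟩ := h.aff c hc 0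
    have e : k * (t * k) = t := by
      have := hg k hk.mem_KK
      calc k * (t * k) = (t * t)⁻¹ * t * (t * k * (t * k)) := by group
        _ = t := by rw [this, ht2]; group
    rw [← OnePoint.coe_eq_coe, ← hτ x hx]
    conv_rhs => rw [← e, mul_smul, mul_smul, hk.2, add_zero,
      hτ _ (mul_ne_zero (pow_ne_zero 2 hc) hx), hk.2, add_zero]
  -- the basic relation
  have rel : ∀ a : F, a ≠ 0 → ∃ c : F, c ≠ 0 ∧ c ^ 2 * τ (-a) + τ (-τ a) = 0 ∧
      ∀ y, y ≠ 0 → y + a ≠ 0 → c ^ 2 * τ y + τ (-τ a) ≠ 0 →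
        τ (y + a) - τ a = τ (c ^ 2 * τ y + τ (-τ a)) := fun a ha => by
    obtain ⟨u, hu⟩ := h.tr a
    obtain ⟨v, hv⟩ := h.tr (-τ a)
    obtain ⟨c, hc, d, hd⟩ := h.stab (t * v * t * u * t) (by
      simp only [mul_smul]
      rw [ht.1, hu.2, mul_zero, zero_add, hτ a ha, hv.2, one_mul, add_neg_cancel, ht.2])
    have hb := neg_ne_zero.2 (τ0 a ha)
    have e1 : d = τ (-τ a) := by
      have := hd.2 0
      simp only [mul_smul] at this
      rw [ht.2, hu.1, ht.1, hv.2, mul_zero, zero_add, hτ _ hb, OnePoint.coe_eq_coe] at this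
      simpa using this.symm
    subst e1
    refine ⟨c, hc, ?_, fun y hy hya hne => ?_⟩
    · have := hd.2 (τ (-a))
      simp only [mul_smul] at this
      rw [← hτ _ (neg_ne_zero.2 ha), tt, hu.2, one_mul, neg_add_cancel, ht.2, hv.1, ht.1,
        OnePoint.coe_eq_coe] at this
      exact this.symm
    · have := hd.2 (τ y)
      simp only [mul_smul] at this
      rw [← hτ _ hy, tt, hu.2, one_mul, hτ _ hya, hv.2, one_mul] at this
      have e2 := congrArg (t • ·) this
      rw [tt, hτ _ hne, OnePoint.coe_eq_coe] at e2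
      rw [← e2, sub_eq_add_neg]
  set C : F → F := fun x => x * τ x with hC
  have C0 : ∀ x, x ≠ 0 → C x ≠ 0 := fun x hx => mul_ne_zero hx (τ0 x hx)
  have Cs : ∀ c x, c ≠ 0 → x ≠ 0 → C (c ^ 2 * x) = C x := fun c x hc hx => by
    simp only [hC]; rw [← τs c x hc hx]; ring
  have Cτ : ∀ x, x ≠ 0 → C (τ x) = C x := fun x hx => by simp only [hC]; rw [ττ x hx]; ring
  have Ceq : ∀ x y, x ≠ 0 → y ≠ 0 → IsSquare (x * y) → C x = C y := fun x y hx hy ⟨s, hs⟩ => by
    have hs0 : s ≠ 0 := fun e => mul_ne_zero hx hy (by rw [hs, e, mul_zero])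
    rw [← Cs (s / y) y (div_ne_zero hs0 hy) hy]
    congr 1; field_simp; rw [hs]; ring
  have τC : ∀ x, x ≠ 0 → τ x = C x / x := fun x hx => by simp only [hC]; field_simp
  have hchar : ringChar F ≠ 2 := fun e => by
    have := (FiniteField.even_card_iff_char_two (F := F)).1 e
    omega
  have sqmul : ∀ x y : F, ¬ IsSquare x → ¬ IsSquare y → IsSquare (x * y) := fun x y hx hy => by
    have hx0 : x ≠ 0 := fun e => hx (e ▸ IsSquare.zero)
    have hy0 : y ≠ 0 := fun e => hy (e ▸ IsSquare.zero)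
    rw [← quadraticChar_neg_one_iff_not_isSquare] at hx hy
    rw [← quadraticChar_one_iff_isSquare (mul_ne_zero hx0 hy0), map_mul, hx, hy]; norm_num
  have const : ∀ x, x ≠ 0 → C x = C 1 := by
    by_cases hA : ∀ x, x ≠ 0 → IsSquare (C x)
    · -- `-1` is a square
      obtain ⟨c, hc, e1, -⟩ := rel 1 one_ne_zero
      have hm : IsSquare (-1 : F) := by
        obtain ⟨s1, hs1⟩ := hA 1 one_ne_zero
        obtain ⟨s2, hs2⟩ := hA (-1) (neg_ne_zero.2 one_ne_zero)
        obtain ⟨s3, hs3⟩ := hA (-τ 1) (neg_ne_zero.2 (τ0 1 one_ne_zero))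
        have n3 : s3 ≠ 0 := fun e => C0 _ (neg_ne_zero.2 (τ0 1 one_ne_zero)) (by rw [hs3, e, mul_zero])
        simp only [hC] at hs1 hs2 hs3
        refine ⟨c * s1 * s2 / s3, ?_⟩
        field_simp
        linear_combination (τ 1) * e1 + hs3 + c ^ 2 * (τ 1) * hs2 + c ^ 2 * s2 * s2 * hs1
      have Cneg : ∀ x, x ≠ 0 → C (-x) = C x := fun x hx => by
        obtain ⟨i, hi⟩ := hm
        exact Ceq _ _ (neg_ne_zero.2 hx) hx ⟨i * x, by linear_combination x * x * hi⟩
      intro x hx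
      by_cases hsq : IsSquare x
      · exact Ceq x 1 hx one_ne_zero (by simpa using hsq)
      obtain ⟨a, y, hay⟩ : ∃ a y : F, a ^ 2 + y ^ 2 = x := by
        obtain ⟨a, y, e⟩ := FiniteField.exists_root_sum_quadratic (R := F) (f := Polynomial.X ^ 2)
          (g := Polynomial.X ^ 2 - Polynomial.C x) (Polynomial.degree_X_pow 2)
          (Polynomial.degree_X_pow_sub_C (by norm_num) x) hodd
        exact ⟨a, y, by simp at e; linear_combination e⟩
      have ha : a ≠ 0 := fun e => hsq ⟨y, by rw [← hay, e]; ring⟩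
      have hy : y ≠ 0 := fun e => hsq ⟨a, by rw [← hay, e]; ring⟩
      have ha2 := pow_ne_zero 2 ha
      have hy2 := pow_ne_zero 2 hy
      have α0 := C0 1 one_ne_zero
      have Ca : C (a ^ 2) = C 1 := by simpa using Cs a 1 ha one_ne_zero
      have Cy : C (y ^ 2) = C 1 := by simpa using Cs y 1 hy one_ne_zero
      obtain ⟨c, hc, e1, e2⟩ := rel (a ^ 2) ha2
      have t1 : τ (a ^ 2) = C 1 / a ^ 2 := by rw [τC _ ha2, Ca]
      have t2 : τ (y ^ 2) = C 1 / y ^ 2 := by rw [τC _ hy2, Cy]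
      have t3 : τ (-a ^ 2) = - (C 1 / a ^ 2) := by
        rw [τC _ (neg_ne_zero.2 ha2), Cneg _ ha2, Ca, div_neg]
      have t4 : τ (-τ (a ^ 2)) = - a ^ 2 := by
        rw [τC _ (neg_ne_zero.2 (τ0 _ ha2)), Cneg _ (τ0 _ ha2), Cτ _ ha2, Ca, t1]; field_simp
      rw [t3, t4] at e1
      have hk : c ^ 2 = - (a ^ 2) ^ 2 / C 1 := by
        field_simp at e1 ⊢; linear_combination -e1
      have hs : c ^ 2 * τ (y ^ 2) + τ (-τ (a ^ 2)) = - ((a / y) ^ 2 * x) := by
        rw [hk, t2, t4, ← hay]; field_simp; ring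
      have hs0 : (a / y) ^ 2 * x ≠ 0 := mul_ne_zero (pow_ne_zero 2 (div_ne_zero ha hy)) hx
      have e3 := e2 (y ^ 2) hy2 (by rw [add_comm, hay]; exact hx) (by rw [hs]; exact neg_ne_zero.2 hs0)
      rw [hs, add_comm, hay, τC _ hx, t1, τC _ (neg_ne_zero.2 hs0), Cneg _ hs0,
        Cs _ _ (div_ne_zero ha hy) hx] at e3
      field_simp at e3
      apply mul_left_cancel₀ hx
      linear_combination e3 - C x * hay
    · push Not at hA
      obtain ⟨x0, hx0, hn⟩ := hA
      have cls : ∀ x, x ≠ 0 → C x = C x0 := fun x hx => by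
        by_cases hsq : IsSquare (x * x0)
        · exact Ceq _ _ hx hx0 hsq
        · rw [← Cτ x0 hx0]
          refine Ceq _ _ hx (τ0 _ hx0) ?_
          obtain ⟨s, hs⟩ := sqmul _ _ hsq hn
          refine ⟨s / x0, ?_⟩
          simp only [hC] at hs
          field_simp; linear_combination hs
      exact fun x hx => (cls x hx).trans (cls 1 one_ne_zero).symm
  obtain ⟨c, hc, e1, -⟩ := rel 1 one_ne_zero
  have α0 := C0 1 one_ne_zero
  have n1 : (-1 : F) ≠ 0 := neg_ne_zero.2 one_ne_zero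
  rw [τC _ n1, τC _ (neg_ne_zero.2 (τ0 1 one_ne_zero)), const _ n1,
    const _ (neg_ne_zero.2 (τ0 1 one_ne_zero)), τC 1 one_ne_zero] at e1
  refine ⟨c⁻¹, inv_ne_zero hc, fun x hx => ?_⟩
  rw [hτ x hx, τC x hx, const x hx]
  congr 2
  field_simp at e1 ⊢
  linear_combination -e1

end ZAct

section
variable [DecidableEq F]

/-- The action of `SL₂` on the projective line by Möbius transformations. -/
noncomputable def mob : SL(2, F) →* Equiv.Perm (OnePoint F) :=
  (MulAction.toPermHom (GL (Fin 2) F) (OnePoint F)).comp Matrix.SpecialLinearGroup.toGL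

theorem mob_infty (A : SL(2, F)) : mob A ∞ = if A 1 0 = 0 then ∞ else ((A 0 0 / A 1 0 : F) : OnePoint F) :=
  OnePoint.smul_infty_eq_ite _

theorem mob_coe (A : SL(2, F)) (x : F) : mob A x =
    if A 1 0 * x + A 1 1 = 0 then ∞ else (((A 0 0 * x + A 0 1) / (A 1 0 * x + A 1 1) : F) : OnePoint F) :=
  OnePoint.smul_some_eq_ite

theorem mob_mk2_infty (a b c d : F) (h : a * d - b * c = 1) :
    mob (SL2.mk2 a b c d h) ∞ = if c = 0 then ∞ else ((a / c : F) : OnePoint F) := mob_infty _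

theorem mob_mk2_coe (a b c d : F) (h : a * d - b * c = 1) (x : F) : mob (SL2.mk2 a b c d h) x =
    if c * x + d = 0 then ∞ else (((a * x + b) / (c * x + d) : F) : OnePoint F) := mob_coe _ _

theorem mob_ker : (mob (F := F)).ker = center SL(2, F) := by
  ext A
  rw [MonoidHom.mem_ker, Matrix.SpecialLinearGroup.mem_center_iff]
  have hd : A 0 0 * A 1 1 - A 0 1 * A 1 0 = 1 := by rw [← det_fin_two]; exact A.2
  constructor
  · intro h
    have h1 := mob_infty A
    have h2 := mob_coe A 0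
    have h3 := mob_coe A 1
    rw [h, Equiv.Perm.one_apply] at h1 h2 h3
    have e1 : A 1 0 = 0 := by
      by_contra e; rw [if_neg e] at h1; exact OnePoint.infty_ne_coe _ h1
    have e2 : A 1 1 ≠ 0 := fun e => by simp [e1, e] at hd
    simp only [e1, zero_mul, zero_add, if_neg e2, OnePoint.coe_eq_coe] at h2 h3
    have e3 : A 0 1 = 0 := by field_simp at h2; simpa using h2.symm
    have e4 : A 0 0 = A 1 1 := by field_simp at h3; linear_combination -h3 - e3
    refine ⟨A 1 1, by rw [Fintype.card_fin]; rw [e4, e3] at hd; linear_combination hd, ?_⟩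
    ext i j; fin_cases i <;> fin_cases j <;> simp [e1, e3, e4]
  · rintro ⟨r, hr, e⟩
    have e00 : A 0 0 = r := by have := congrFun (congrFun e 0) 0; simpa using this.symm
    have e01 : A 0 1 = 0 := by have := congrFun (congrFun e 0) 1; simpa using this.symm
    have e10 : A 1 0 = 0 := by have := congrFun (congrFun e 1) 0; simpa using this.symm
    have e11 : A 1 1 = r := by have := congrFun (congrFun e 1) 1; simpa using this.symm
    have r0 : r ≠ 0 := fun e => by simp [e] at hr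
    ext x
    induction x with
    | infty => simp [mob_infty, e10]
    | coe x => simp [mob_coe, e00, e01, e10, e11, r0]

theorem mob_aff {g : G} {c a : F} (hc : c ≠ 0) (h : Aff g (c ^ 2) a) :
    mob (SL2.mk2 c (a / c) 0 c⁻¹ (by simp [hc])) = MulAction.toPermHom G (OnePoint F) g := by
  ext x
  induction x with
  | infty => simp [mob_mk2_infty, h.1]
  | coe x =>
    simp only [mob_mk2_coe, MulAction.toPermHom_apply, MulAction.toPerm_apply, h.2,
      zero_mul, zero_add, inv_eq_zero, hc, if_false, OnePoint.coe_eq_coe]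
    field_simp

end

theorem ZAct.equiv [Finite G] [Fintype F] (h : ZAct G F) (hodd : Fintype.card F % 2 = 1)
    (hG : commutator G = ⊤) : Nonempty (G ≃* ProjectiveSpecialLinearGroup (Fin 2) F) := by
  classical
  have h2 : (2 : F) ≠ 0 := SL2.two_ne_zero_of_odd (Nat.odd_iff.2 hodd)
  obtain ⟨t, ht, hg⟩ : ∃ t : G, Swap F t ∧ ∀ k ∈ KK G F, t * k * (t * k) = 1 := by
    by_cases hs : IsSquare (-1 : F)
    · obtain ⟨t, ht⟩ := h.exists_swap
      exact ⟨t, ht, h.good_even h2 hs ht⟩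
    · exact h.good_odd hs hG
  obtain ⟨δ, hδ, hδt⟩ := h.swap_form hodd ht hg
  set φ := MulAction.toPermHom G (OnePoint F) with hφ
  have hinj : Function.Injective φ := fun a b e => h.ext fun x => congrFun (congrArg DFunLike.coe e) x
  set w : SL(2, F) := SL2.mk2 0 (-δ) δ⁻¹ 0 (by simp [hδ]) with hw
  have hwt : mob w = φ t := by
    ext x
    induction x with
    | infty => simp [mob_mk2_infty, hw, hδ, hφ, ht.1]
    | coe x =>
      by_cases hx : x = 0
      · simp [mob_mk2_coe, hw, hδ, hφ, ht.2, hx]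
      · simp only [mob_mk2_coe, hw, hφ, MulAction.toPermHom_apply, MulAction.toPerm_apply, hδt x hx,
          zero_mul, zero_add, add_zero, mul_eq_zero, inv_eq_zero, hδ, hx, or_self, if_false, OnePoint.coe_eq_coe]
        field_simp
  have st : ∀ g : G, g • (∞ : OnePoint F) = ∞ → φ g ∈ (mob (F := F)).range := fun g hg => by
    obtain ⟨c, hc, a, ha⟩ := h.stab g hg
    exact ⟨_, mob_aff hc ha⟩
  have heq : φ.range = (mob (F := F)).range := by
    apply le_antisymm
    · rintro _ ⟨g, rfl⟩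
      by_cases hg : g • (∞ : OnePoint F) = ∞
      · exact st g hg
      obtain ⟨b, hb⟩ := OnePoint.ne_infty_iff_exists.1 hg
      obtain ⟨u, hu⟩ := h.tr (-b)
      have h1 := st (t * u * g) (by rw [mul_smul, mul_smul, ← hb, hu.2]; simpa using ht.2)
      have h3 : φ g = (φ u)⁻¹ * (φ t)⁻¹ * φ (t * u * g) := by simp only [map_mul]; group
      rw [h3]
      exact mul_mem (mul_mem (inv_mem (st u hu.1)) (inv_mem ⟨w, hwt⟩)) h1
    · have hup : ∀ b : F, mob (SL2.up b) ∈ φ.range := fun b => by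
        obtain ⟨u, hu⟩ := h.aff 1 one_ne_zero b
        refine ⟨u, (mob_aff one_ne_zero hu).symm.trans (congrArg mob ?_)⟩
        apply Subtype.ext
        rw [SL2.up_coe, SL2.mk2_coe]; simp
      rintro _ ⟨A, rfl⟩
      refine Lin.transvection_induction (fun A => mob A ∈ φ.range) (fun i j hij c => ?_)
        (fun A B hA hB => by simp only [map_mul]; exact mul_mem hA hB) A
      fin_cases i <;> fin_cases j
      · exact absurd rfl hij
      · exact hup c
      · have : SL2.lo c * w = w * SL2.up (-c * δ ^ 2) := by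
          apply Subtype.ext
          rw [Matrix.SpecialLinearGroup.coe_mul, Matrix.SpecialLinearGroup.coe_mul, SL2.lo_coe, SL2.up_coe, hw, SL2.mk2_coe]
          ext i j; fin_cases i <;> fin_cases j <;> simp [Matrix.mul_apply, Fin.sum_univ_two]
          field_simp
        show mob (SL2.lo c) ∈ φ.range
        rw [eq_mul_inv_of_mul_eq this, map_mul, map_mul, map_inv, hwt]
        exact mul_mem (mul_mem ⟨t, rfl⟩ (hup _)) (inv_mem ⟨t, rfl⟩)
      · exact absurd rfl hij
  exact ⟨(MonoidHom.ofInjective hinj).trans ((MulEquiv.subgroupCongr heq).trans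
    (Cl.centerQuotOfKer mob.rangeRestrict mob.rangeRestrict_surjective
      (by rw [MonoidHom.ker_rangeRestrict, mob_ker])).symm)⟩

end CA.Zas
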