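/-
Recognition of `PSL₂(q)`, `q` odd, from a self-centralizing subgroup of order `q` with a normalizer of index `q + 1`.
-/
import Cfsg.Agent.Lib.Zas.Mob
import Cfsg.Agent.Lib.Classical.SmallIso

set_option autoImplicit false
set_option linter.unusedSectionVars false

open Cfsg Subgroup OnePoint Matrix CA
open scoped MatrixGroups

namespace CA.Zas

universe u

theorem card_orbit {G : Type*} [Group G] (R : Subgroup G) (d : G) :
    {y | ∃ r ∈ R, y = r * d * r⁻¹}.ncard = (𝐂[d]).relIndex R := by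
  have h := MulAction.index_stabilizer (R.map (ConjAct.toConjAct (G := G)).toMonoidHom) d
  have e1 : MulAction.orbit (R.map (ConjAct.toConjAct (G := G)).toMonoidHom) d =
      {y | ∃ r ∈ R, y = r * d * r⁻¹} := by
    ext y
    constructor
    · rintro ⟨⟨_, r, hr, rfl⟩, rfl⟩
      exact ⟨r, hr, rfl⟩
    · rintro ⟨r, hr, rfl⟩
      exact ⟨⟨_, r, hr, rfl⟩, rfl⟩
  rw [← e1, ← h, relIndex]
  refine (index_comap_of_surjective _ (f := (R.equivMapOfInjective _ ConjAct.toConjAct.injective).toMonoidHom)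
    (MulEquiv.surjective _)).symm.trans ?_
  congr 1
  ext r
  simp only [mem_comap, MulAction.mem_stabilizer_iff, mem_subgroupOf, mem_centralizer_singleton_iff]
  exact mul_inv_eq_iff_eq_mul

/-- An orbit of a nontrivial element of an invariant subgroup is smaller than the subgroup. -/
theorem relIndex_cent_lt {G : Type*} [Group G] [Finite G] {X B : Subgroup G} (hn : B ≤ 𝐍(X)) {u : G} (hu : u ∈ X)
    (h1 : u ≠ 1) : (𝐂[u]).relIndex B + 1 ≤ Nat.card X := by
  rw [← card_orbit, ← Set.ncard_insert_of_notMem (a := (1 : G)), ← SetLike.coe_sort_coe, Nat.card_coe_set_eq]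
  · refine Set.ncard_le_ncard ?_
    rintro y (rfl | ⟨r, hr, rfl⟩)
    · exact X.one_mem
    · exact conj_mem_of_mem_normalizer (hn hr) hu
  · rintro ⟨r, -, e⟩
    exact h1 (by simpa using e.symm)

/-- Schur's lemma: an abelian group acting irreducibly acts by scalars of a field. -/
theorem exists_field {G : Type u} [Group G] [Finite G] {Q B : Subgroup G} (hab : IsMulCommutative Q)
    (hn : B ≤ 𝐍(Q)) (hc : ⁅B, B⁆ ≤ 𝐂(Q)) (irr : ∀ X ≤ Q, B ≤ 𝐍(X) → X = ⊥ ∨ X = Q) (hne : Q ≠ ⊥) :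
    ∃ (F : Type u) (_ : Field F) (_ : Fintype F) (e : F → G) (ψ : G → F), Function.Injective e ∧
      (∀ x, e x ∈ Q) ∧ (∀ u ∈ Q, ∃ x, e x = u) ∧ (∀ x y, e (x + y) = e x * e y) ∧
      ∀ b ∈ B, ∀ x, b * e x * b⁻¹ = e (ψ b * x) := by
  classical
  letI : CommGroup Q := { (inferInstance : Group Q) with mul_comm := hab.is_comm.comm }
  let V := Additive Q
  let r0 : B → AddMonoid.End V := fun b => MonoidHom.toAdditive
    { toFun := fun u : Q => (⟨b * u * (b : G)⁻¹, conj_mem_of_mem_normalizer (hn b.2) u.2⟩ : Q)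
      map_one' := Subtype.ext (by simp)
      map_mul' := fun u v => Subtype.ext (by simp [mul_assoc]) }
  have r0v : ∀ (b : B) (v : V), ((r0 b v).toMul : G) = b * (v.toMul : G) * (b : G)⁻¹ := fun _ _ => rfl
  have ext : ∀ {v w : V}, (v.toMul : G) = (w.toMul : G) → v = w := fun h => Additive.toMul.injective (Subtype.ext h)
  have hcomm : ∀ a b : B, r0 a * r0 b = r0 b * r0 a := fun a b => AddMonoidHom.ext fun v => ext (by
    show ((r0 a (r0 b v)).toMul : G) = ((r0 b (r0 a v)).toMul : G)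
    simp only [r0v]
    have h := mem_cent_iff.1 (hc (commutator_mem_commutator (inv_mem a.2) (inv_mem b.2))) _ v.toMul.2
    rw [commutatorElement_def] at h
    simp only [inv_inv] at h
    calc _ = (b : G) * a * ((a : G)⁻¹ * (b : G)⁻¹ * a * b * v.toMul) * (b : G)⁻¹ * (a : G)⁻¹ := by group
      _ = _ := by rw [← h]; group)
  have irrV : ∀ S : AddSubgroup V, (∀ b : B, ∀ v ∈ S, r0 b v ∈ S) → S = ⊥ ∨ S = ⊤ := fun S hS => by
    let X : Subgroup G := (AddSubgroup.toSubgroup S).map Q.subtype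
    have hX : ∀ v : V, (v.toMul : G) ∈ X ↔ v ∈ S := fun v =>
      ⟨fun ⟨w, hw, e⟩ => by
        obtain rfl : w = v.toMul := Subtype.ext e
        exact hw, fun h => ⟨_, h, rfl⟩⟩
    rcases irr X (map_subtype_le _) (fun b hb => mem_normalizer_of_cj_le (cj_le_iff'.2 (by
      rintro _ ⟨w, hw, rfl⟩
      exact (hX (r0 ⟨b, hb⟩ (Additive.ofMul w))).2 (hS _ _ hw)))) with e | e
    · left
      rw [eq_bot_iff]
      intro v hv
      have := (hX v).2 hv
      rw [e, mem_bot] at this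
      exact ext this
    · right
      rw [eq_top_iff]
      intro v _
      exact (hX v).1 (e.ge v.toMul.2)
  obtain ⟨s, hs, hs1⟩ := exists_ne_one_mem' hne
  let v0 : V := Additive.ofMul ⟨s, hs⟩
  have hv0 : v0 ≠ 0 := fun e => hs1 (congrArg (fun v : V => (v.toMul : G)) e)
  let F := Subring.centralizer (Set.range r0)
  have memF : ∀ T, T ∈ F ↔ ∀ b : B, r0 b * T = T * r0 b := fun T => by
    rw [Subring.mem_centralizer_iff]
    exact ⟨fun h m => h _ ⟨m, rfl⟩, fun h _ ⟨m, e⟩ => e ▸ h m⟩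
  have hinj : ∀ T : F, T ≠ 0 → ∀ v, T.1 v = 0 → v = 0 := fun T hT v hv => by
    rcases irrV (AddMonoidHom.ker T.1) (fun m v hv => by
      have h := DFunLike.congr_fun ((memF _).1 T.2 m) v
      exact h.symm.trans ((congrArg (r0 m) (show T.1 v = 0 from hv)).trans (map_zero _))) with e | e
    · exact (AddSubgroup.mem_bot).1 (e.le hv)
    · exact absurd (Subtype.ext (AddMonoidHom.ext fun v => (show T.1 v = 0 from e.ge (AddSubgroup.mem_top v)))) hT
  haveI : Nontrivial F := ⟨1, 0, fun e => hv0 (congrArg (fun T : F => T.1 v0) e)⟩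
  haveI : NoZeroDivisors F := ⟨fun {A B} h => by
    by_contra hne
    push Not at hne
    exact hv0 (hinj B hne.2 _ (hinj A hne.1 _ (congrArg (fun T : F => T.1 v0) h)))⟩
  haveI : IsDomain F := NoZeroDivisors.to_isDomain F
  haveI : Finite (AddMonoid.End V) := Finite.of_injective _ (DFunLike.coe_injective (F := V →+ V))
  let ψ0 : B → F := fun m => ⟨r0 m, (memF _).2 fun n => hcomm n m⟩
  let ev : F →+ V := AddMonoidHom.mk' (fun T => T.1 v0) fun _ _ => rfl
  have ev_inj : Function.Injective ev := by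
    rw [injective_iff_map_eq_zero]
    intro T hT
    by_contra h
    exact hv0 (hinj T h _ hT)
  have ev_surj : Function.Surjective ev := by
    rw [← AddMonoidHom.range_eq_top]
    refine (irrV _ ?_).resolve_left fun e => hv0 ?_
    · rintro m _ ⟨T, rfl⟩
      exact ⟨ψ0 m * T, rfl⟩
    · have : v0 ∈ ev.range := ⟨1, rfl⟩
      rwa [e, AddSubgroup.mem_bot] at this
  letI : Field F := (Finite.isDomain_to_isField F).toField
  letI : Fintype F := Fintype.ofFinite F
  refine ⟨F, inferInstance, inferInstance, fun x => ((ev x).toMul : G),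
    fun b => if h : b ∈ B then ψ0 ⟨b, h⟩ else 1, fun x y h => ev_inj (ext h), fun x => (ev x).toMul.2,
    fun u hu => ?_, fun x y => by simp only [map_add]; rfl, fun b hb x => ?_⟩
  · obtain ⟨x, hx⟩ := ev_surj (Additive.ofMul ⟨u, hu⟩)
    exact ⟨x, by simp only [hx]; rfl⟩
  · simp only [hb, dite_true]
    rfl

/-- The hypotheses of the recognition theorem. -/
structure RHyp {G : Type*} [Group G] (Q : Subgroup G) : Prop where
  cent : ∀ u ∈ Q, u ≠ 1 → 𝐂[u] ≤ Q
  card : Nat.card Q = 2 * Q.relIndex 𝐍(Q) + 1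
  der : ⁅𝐍(Q), 𝐍(Q)⁆ ≤ Q
  index : 𝐍(Q).index = Nat.card Q + 1

namespace RHyp
variable {G : Type u} [Group G] [Finite G] {Q : Subgroup G} (h : RHyp Q)
include h

theorem ne_bot : Q ≠ ⊥ := by
  rw [← one_lt_card_iff_ne_bot', h.card]
  have := relIndex_pos' Q 𝐍(Q)
  omega

theorem cent_eq {u : G} (hu : u ∈ Q) (h1 : u ≠ 1) : 𝐂[u] = Q := by
  have h2 := relIndex_cent_lt (le_refl 𝐍(Q)) hu h1
  rw [← relIndex_mul_relIndex _ _ _ (h.cent u hu h1) le_normalizer] at h2
  have h3 := card_mul_relIndex (h.cent u hu h1)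
  have h4 := h.card
  have h5 := relIndex_pos' Q 𝐍(Q)
  have h6 := relIndex_pos' 𝐂[u] Q
  refine le_antisymm (h.cent u hu h1) (relIndex_eq_one.1 ?_)
  generalize (𝐂[u]).relIndex Q = k at *
  generalize Q.relIndex 𝐍(Q) = m at *
  have : k ≤ 2 := by nlinarith
  interval_cases k
  · rfl
  · omega

theorem abelian : IsMulCommutative Q := abelian_iff'.2 fun a ha b hb => by
  by_cases h1 : b = 1
  · simp [h1]
  · exact mem_cent1_iff.1 ((h.cent_eq hb h1).ge ha)

theorem irr (X : Subgroup G) (hX : X ≤ Q) (hn : 𝐍(Q) ≤ 𝐍(X)) : X = ⊥ ∨ X = Q := by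
  refine or_iff_not_imp_left.2 fun hne => ?_
  obtain ⟨u, hu, h1⟩ := exists_ne_one_mem' hne
  have h2 := relIndex_cent_lt hn hu h1
  rw [h.cent_eq (hX hu) h1] at h2
  have h3 := card_mul_relIndex hX
  have h4 := h.card
  have h6 := relIndex_pos' X Q
  refine le_antisymm hX (relIndex_eq_one.1 ?_)
  generalize X.relIndex Q = k at *
  by_contra hk
  have : 2 ≤ k := by omega
  nlinarith

theorem mem_of_conj_mem {u t : G} (hu : u ∈ Q) (h1 : u ≠ 1) (ht : t⁻¹ * u * t ∈ 𝐍(Q)) : t ∈ 𝐍(Q) := by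
  have hv : t⁻¹ * u * t ∈ Q := by
    have e1 : (t⁻¹ * u * t) ^ Nat.card Q = 1 := by
      have : u ^ Nat.card Q = 1 := orderOf_dvd_iff_pow_eq_one.1 (orderOf_dvd_card_of_mem hu)
      simpa [this] using conj_pow (a := t⁻¹) (b := u) (i := Nat.card Q)
    have e2 : (t⁻¹ * u * t) ^ Q.relIndex 𝐍(Q) ∈ Q :=
      mem_subgroupOf.1 (pow_index_mem (Q.subgroupOf 𝐍(Q)) ⟨_, ht⟩)
    rw [h.card, pow_succ, mul_comm 2, pow_mul, mul_eq_one_iff_inv_eq] at e1
    exact e1 ▸ inv_mem (pow_mem e2 2)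
  have hv1 : t⁻¹ * u * t⁻¹⁻¹ ≠ 1 := fun e => h1 (conj_eq_one_iff.1 e)
  rw [← inv_mem_iff, mem_normalizer_iff_cj]
  conv_lhs => rw [← h.cent_eq hu h1, cj_centralizer_singleton]
  exact h.cent_eq (by simpa using hv) hv1

theorem exists_equiv [IsSimpleGroup G] (hG : commutator G = ⊤) : ∃ (F : Type u) (_ : Field F) (_ : Fintype F),
    Fintype.card F = Nat.card Q ∧ Nonempty (G ≃* ProjectiveSpecialLinearGroup (Fin 2) F) := by
  classical
  obtain ⟨F, _, _, e, ψ, einj, emem, esurj, eadd, eact⟩ := exists_field h.abelian (le_refl _)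
    (h.der.trans (abelian_iff.1 h.abelian)) h.irr h.ne_bot
  have e0 : e 0 = 1 := by simpa using eadd 0 0
  have cF : Fintype.card F = Nat.card Q := by
    rw [← Nat.card_eq_fintype_card]
    exact Nat.card_congr (Equiv.ofBijective (fun x => (⟨e x, emem x⟩ : Q))
      ⟨fun x y e => einj (congrArg Subtype.val e), fun u => (esurj u u.2).imp fun x => Subtype.ext⟩)
  have hodd : Fintype.card F % 2 = 1 := by rw [cF, h.card]; omega
  refine ⟨F, inferInstance, inferInstance, cF, ?_⟩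
  set B := 𝐍(Q) with hB
  obtain ⟨t, ht⟩ : ∃ t, t ∉ B := by
    by_contra hc
    push Not at hc
    have := h.index
    rw [← hB, (eq_top_iff' B).2 hc, index_top] at this
    exact card_ne_zero' Q (by omega)
  have eB : ∀ x, e x ∈ B := fun x => le_normalizer (emem x)
  let φ : OnePoint F → G ⧸ B := fun x => x.elim ((1 : G) : G ⧸ B) fun x => ((e x * t : G) : G ⧸ B)
  have φne : ∀ x : F, φ x ≠ φ ∞ := fun x hx => ht (by
    have : (e x * t)⁻¹ * 1 ∈ B := QuotientGroup.eq.1 hx
    rw [mul_one, inv_mem_iff] at this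
    exact (mul_mem_cancel_left (eB x)).1 this)
  have φinj : Function.Injective φ := by
    intro x y hxy
    induction x using OnePoint.rec <;> induction y using OnePoint.rec
    · rfl
    · exact absurd hxy.symm (φne _)
    · exact absurd hxy (φne _)
    · rename_i x y
      have h1 : (e x * t)⁻¹ * (e y * t) ∈ B := QuotientGroup.eq.1 hxy
      by_contra hne
      refine ht (h.mem_of_conj_mem (mul_mem (inv_mem (emem x)) (emem y)) (fun h2 => hne ?_) (by
        simpa [mul_assoc] using h1))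
      rw [einj (inv_mul_eq_one.1 h2)]
  have φbij : Function.Bijective φ := by
    refine φinj.bijective_of_nat_card_le ?_
    show B.index ≤ Nat.card (Option F)
    rw [h.index, Finite.card_option, Nat.card_eq_fintype_card (α := F), cF]
  let Φ := Equiv.ofBijective φ φbij
  letI : MulAction G (OnePoint F) := Φ.mulAction G
  have smul_iff : ∀ (g : G) (x y : OnePoint F), g • x = y ↔ g • φ x = φ y := fun g x y => Φ.symm_apply_eq
  have hinf : ∀ g : G, g • (∞ : OnePoint F) = ∞ ↔ g ∈ B := fun g => by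
    rw [smul_iff]
    show ((g * 1 : G) : G ⧸ B) = ((1 : G) : G ⧸ B) ↔ _
    rw [QuotientGroup.eq]
    simp
  have haff : ∀ b ∈ B, ∃ a, Aff b (ψ b) a := fun b hb => by
    obtain ⟨a, ha⟩ : ∃ a : F, b • ((0 : F) : OnePoint F) = a := by
      cases hx : b • ((0 : F) : OnePoint F) using OnePoint.rec
      · rw [← (hinf b).2 hb, smul_left_cancel_iff] at hx
        exact absurd hx (coe_ne_infty _)
      · exact ⟨_, rfl⟩
    refine ⟨a, (hinf b).2 hb, fun x => ?_⟩
    rw [smul_iff] at ha ⊢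
    have h1 : (b * (e 0 * t))⁻¹ * (e a * t) ∈ B := QuotientGroup.eq.1 ha
    refine QuotientGroup.eq.2 ?_
    show (b * (e x * t))⁻¹ * (e (ψ b * x + a) * t) ∈ B
    rw [eadd, ← eact b hb]
    rw [e0] at h1
    convert h1 using 1
    group
  have ψ1 : ∀ b ∈ B, ψ b = 1 ↔ b ∈ Q := fun b hb => by
    have h1 : e 1 ≠ 1 := fun h1 => one_ne_zero (einj (h1.trans e0.symm))
    rw [← h.cent_eq (emem 1) h1, mem_cent1_iff, ← mul_inv_eq_iff_eq_mul, eact b hb, mul_one, einj.eq_iff]
  have ψmul : ∀ a ∈ B, ∀ b ∈ B, ψ (a * b) = ψ a * ψ b := fun a ha b hb => einj (by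
    rw [← eact a ha, ← mul_one (ψ b), ← eact b hb, ← mul_one (ψ (a * b)), ← eact _ (mul_mem ha hb)]
    group)
  let ψ' : B →* F :=
    { toFun := fun b => ψ b
      map_one' := (ψ1 1 (one_mem _)).2 (one_mem _)
      map_mul' := fun a b => ψmul a a.2 b b.2 }
  let χ : B →* Fˣ := ψ'.toHomUnits
  have χker : χ.ker = Q.subgroupOf B := by
    ext b
    rw [MonoidHom.mem_ker, mem_subgroupOf, ← ψ1 b b.2, Units.ext_iff]
    rfl
  have χcard : Nat.card χ.range = Q.relIndex B := by rw [← index_ker, χker]; rfl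
  have hchar : ringChar F ≠ 2 := fun h2 => by
    have := FiniteField.even_card_of_char_two h2
    omega
  have hm : Fintype.card F / 2 = Q.relIndex B := by rw [cF, h.card, ← hB]; omega
  have χsq : ∀ y : Fˣ, y ∈ χ.range ↔ IsSquare (y : F) := by
    have e1 : ∀ y : Fˣ, IsSquare (y : F) ↔ y ∈ rootsOfUnity (Q.relIndex B) F := fun y => by
      rw [FiniteField.isSquare_iff hchar y.ne_zero, hm, mem_rootsOfUnity']
    haveI : NeZero (Q.relIndex B) := ⟨relIndex_ne_zero' _ _⟩
    have e2 : χ.range = rootsOfUnity (Q.relIndex B) F := by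
      refine eq_of_le_of_card_le (fun y hy => ?_) (χcard ▸ card_rootsOfUnity F _)
      rw [mem_rootsOfUnity, ← χcard, ← orderOf_dvd_iff_pow_eq_one]
      exact orderOf_dvd_card_of_mem hy
    intro y
    rw [e1, e2]
  have htr : ∀ a, Aff (e a) (1 : F) a := fun a => ⟨(hinf _).2 (eB a), fun x => (smul_iff _ _ _).2 (by
    show ((e a * (e x * t) : G) : G ⧸ B) = ((e (1 * x + a) * t : G) : G ⧸ B)
    rw [one_mul, add_comm, eadd, mul_assoc])⟩
  refine ZAct.equiv ⟨fun g hg => ?_, fun c hc a => ?_, fun g hg => ?_, t, fun h1 => ht ((hinf t).1 h1)⟩ hodd hG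
  · rcases (inferInstance : (MulAction.toPermHom G (OnePoint F)).ker.Normal).eq_bot_or_eq_top with e1 | e1
    · exact mem_bot.1 (e1.le (Equiv.ext hg))
    · exact absurd ((hinf t).1 (DFunLike.congr_fun (MonoidHom.mem_ker.1 (e1.ge (mem_top t))) ∞)) ht
  · obtain ⟨b, hb⟩ := (χsq (Units.mk0 c hc ^ 2)).2 ⟨c, by simp [pow_two]⟩
    have hb' : ψ b = c ^ 2 := congrArg Units.val hb
    obtain ⟨a0, h0⟩ := haff b b.2
    exact ⟨e (a - a0) * b, by simpa [hb'] using (htr (a - a0)).mul h0⟩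
  · have hb := (hinf g).1 hg
    obtain ⟨c, hc⟩ := (χsq (χ ⟨g, hb⟩)).1 ⟨_, rfl⟩
    have hc' : ψ g = c ^ 2 := by rw [pow_two]; exact hc
    obtain ⟨a, ha⟩ := haff g hb
    refine ⟨c, fun h0 => (χ ⟨g, hb⟩).ne_zero (by rw [hc, h0, mul_zero]), a, hc' ▸ ha⟩

theorem equiv [IsSimpleGroup G] (hG : commutator G = ⊤) {F : Type*} [Field F] [Fintype F]
    (hF : Fintype.card F = Nat.card Q) : Nonempty (G ≃* ProjectiveSpecialLinearGroup (Fin 2) F) := by
  obtain ⟨K, _, _, hK, ⟨e⟩⟩ := h.exists_equiv hG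
  exact ⟨e.trans (Small.pslCongr (FiniteField.ringEquivOfCardEq (hK.trans hF.symm)))⟩

theorem exists_equiv0 [IsSimpleGroup G] (hG : commutator G = ⊤) : ∃ (F : Type) (_ : Field F) (_ : Fintype F),
    Odd (Fintype.card F) ∧ Nonempty (G ≃* ProjectiveSpecialLinearGroup (Fin 2) F) := by
  obtain ⟨K, _, _, hK, -⟩ := h.exists_equiv hG
  obtain ⟨p, hp, n, hn⟩ := FiniteField.card' K
  haveI := Fact.mk hn.1
  letI : Fintype (GaloisField p n) := Fintype.ofFinite _
  have hc : Fintype.card (GaloisField p n) = Nat.card Q := by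
    rw [← Nat.card_eq_fintype_card, GaloisField.card p n n.ne_zero, ← hK, hn.2]
  exact ⟨GaloisField p n, inferInstance, inferInstance, by rw [hc, h.card]; exact odd_two_mul_add_one _, h.equiv hG hc⟩

end RHyp

end CA.Zas
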