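/-
Burnside's theorem on classes of prime power size, and Frobenius' criterion in perfect groups.
-/
import Cfsg.Agent.Lib.Char.Integral
import Cfsg.Agent.Lib.Zas.Recog

set_option autoImplicit false
set_option linter.unusedSectionVars false

open Cfsg Subgroup CA CA.Ch
open scoped ComplexConjugate

namespace CA.Zas

variable {G : Type*} [Group G] [Finite G]

theorem norm_eq_of_aint {χ : G → ℂ} (h : IsIrr χ) {g : G} (h0 : χ g ≠ 0) (ha : AInt (χ g / χ 1)) :
    ‖χ g‖ = ‖χ 1‖ := by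
  classical
  have ho := orderOf_pos g
  haveI : NeZero (orderOf g) := ⟨ho.ne'⟩
  have h1 := h.ne_zero_one
  let α : (ZMod (orderOf g))ˣ → ℂ := fun k => χ (g ^ (k : ZMod (orderOf g)).val) / χ 1
  have hσ : ∀ k, ∃ σ : ℂ ≃+* ℂ, α k = σ (χ g / χ 1) := fun k => by
    obtain ⟨σ, hσ⟩ := exists_ringEquiv_pow ho (ZMod.val_coe_unit_coprime k)
    refine ⟨σ, ?_⟩
    rw [map_div₀]
    exact congrArg₂ (· / ·) (h.isVC.ringHom_apply σ.toRingHom hσ).symm (h.isVC.ringHom_one σ.toRingHom).symm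
  have hle : ∀ k, ‖α k‖ ≤ 1 := fun k => by
    rw [norm_div, div_le_one (norm_pos_iff.2 h1)]
    exact h.isChar.norm_le _
  have hN : AInt (∏ k, α k) := IsIntegral.prod _ fun k _ => by
    obtain ⟨σ, e⟩ := hσ k
    rw [e]
    exact ha.ringHom σ.toRingHom
  obtain ⟨n, hn⟩ := hN.int_of_fixed fun σ => by
    obtain ⟨j, hj, hσ⟩ := exists_pow_of_ringHom σ.toRingHom ho
    rw [map_prod]
    refine Finset.prod_equiv (Equiv.mulRight (ZMod.unitOfCoprime j hj)) (by simp) fun k _ => ?_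
    simp only [α, map_div₀]
    refine congrArg₂ (· / ·) ((h.isVC.ringHom_apply σ.toRingHom (k := j) fun z hz => hσ z ?_).trans ?_)
      (h.isVC.ringHom_one σ.toRingHom)
    · obtain ⟨c, hc⟩ := orderOf_pow_dvd (x := g) (k : ZMod (orderOf g)).val
      rw [hc, pow_mul, hz, one_pow]
    · congr 1
      rw [← pow_mul, pow_eq_pow_iff_modEq]
      simp only [Equiv.coe_mulRight, Units.val_mul, ZMod.coe_unitOfCoprime, ZMod.val_mul, ZMod.val_natCast]
      exact ((Nat.mod_modEq _ _).trans ((Nat.mod_modEq _ _).mul_left _)).symm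
  have hn0 : n ≠ 0 := by
    rintro rfl
    obtain ⟨k, -, hk⟩ := Finset.prod_eq_zero_iff.1 (hn.trans Int.cast_zero)
    obtain ⟨σ, e⟩ := hσ k
    rw [e, map_eq_zero_iff σ σ.injective] at hk
    exact div_ne_zero h0 h1 hk
  have h2 : 1 ≤ ‖∏ k, α k‖ := by
    rw [hn, Complex.norm_intCast]
    exact_mod_cast Int.one_le_abs hn0
  have h3 : ‖∏ k, α k‖ ≤ ‖α 1‖ := by
    rw [norm_prod, ← Finset.mul_prod_erase _ _ (Finset.mem_univ 1)]
    exact mul_le_of_le_one_right (norm_nonneg _) (Finset.prod_le_one (fun _ _ => norm_nonneg _) fun k _ => hle k)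
  have h4 : α 1 = χ g / χ 1 := by
    simp only [α, Units.val_one]
    congr 2
    rw [← pow_one g, ← pow_mul, pow_eq_pow_iff_modEq, pow_one, ZMod.val_one_eq_one_mod, one_mul]
    exact Nat.mod_modEq _ _
  have h5 := le_antisymm (hle 1) (h2.trans h3)
  rwa [h4, norm_div, div_eq_one_iff_eq (norm_ne_zero_iff.2 h1)] at h5

theorem card_isConj (g : G) : Nat.card {x // IsConj g x} = (𝐂[g]).index := by
  rw [← relIndex_top_right, ← card_orbit, ← Nat.card_coe_set_eq]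
  exact Nat.card_congr (Equiv.subtypeEquivRight fun x => by simp [isConj_iff, eq_comm])

/-- Burnside: no class of a nonabelian simple group has prime power size. -/
theorem burnside_class [IsSimpleGroup G] (hG : commutator G = ⊤) {g : G} (hg : g ≠ 1) {p k : ℕ} (hp : p.Prime) :
    (𝐂[g]).index ≠ p ^ k := fun hk => by
  classical
  have key : ∀ χ ∈ (irr G).erase 1, AInt (χ 1 * χ g / p) := fun χ hχ => by
    obtain ⟨h1, hχ⟩ := Finset.mem_erase.1 hχ
    replace hχ := mem_irr.1 hχ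
    obtain ⟨d, hd0, hd⟩ := hχ.nat
    have hp0 : (p : ℂ) ≠ 0 := by exact_mod_cast hp.ne_zero
    by_cases hpd : p ∣ d
    · obtain ⟨e, rfl⟩ := hpd
      rw [hd, Nat.cast_mul, mul_assoc, mul_div_cancel_left₀ _ hp0]
      exact (aint_natCast e).mul (hχ.isChar.aint g)
    by_cases h0 : χ g = 0
    · simpa [h0] using isIntegral_zero
    exfalso
    have hc := hχ.aint_class g
    rw [card_isConj, hk] at hc
    obtain ⟨a, b, hab⟩ := Nat.isCoprime_iff_coprime.2 (((Nat.Prime.coprime_iff_not_dvd hp).2 hpd).pow_left k)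
    have hab' : (a : ℂ) * (p ^ k : ℕ) + b * d = 1 := by exact_mod_cast hab
    have hn := norm_eq_of_aint hχ h0 (by
      have := ((aint_intCast a).mul hc).add ((aint_intCast b).mul (hχ.isChar.aint g))
      convert this using 1
      have := hχ.ne_zero_one
      rw [hd] at this ⊢
      field_simp
      linear_combination (-1) * hab')
    have hψ := hχ.isChar.mul hχ.isChar.star
    have e : ∀ x, (χ * star χ) x = ((‖χ x‖ ^ 2 : ℝ) : ℂ) := fun x => by
      simp [Complex.mul_conj, Complex.normSq_eq_norm_sq]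
    have hker : cfker (χ * star χ) = ⊤ := hψ.isCF.cfker_normal.eq_bot_or_eq_top.resolve_left
      (ne_bot_of_mem (hψ.mem_cfker.2 (by rw [e, e, hn])) hg)
    haveI := Fintype.ofFinite G
    have h2 := hχ.ip_self
    rw [ip_def] at h2
    have h3 : ∀ x, χ x * conj (χ x) = χ 1 * χ 1 := fun x =>
      (cfker_apply (hker.ge (mem_top x))).trans (by simp [hχ.isChar.star_one])
    simp only [h3, Finset.sum_const, Finset.card_univ, nsmul_eq_mul, Fintype.card_eq_nat_card] at h2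
    rw [← mul_assoc, inv_mul_cancel₀ (Ch.card_ne_zero' G), one_mul, hd] at h2
    have h4 : d = 1 := by
      have : d * d = 1 := by exact_mod_cast h2
      exact Nat.eq_one_of_mul_eq_one_right this
    obtain ⟨l, rfl⟩ := hχ.isChar.exists_lin (by simp [hd, h4])
    exact hχ.cfker_ne_top h1 (top_le_iff.1 (hG ▸ commutator_le_cfker_lin l))
  have h1 := isChar_reg.isCF.expand_apply g
  rw [reg_ne hg, ← Finset.add_sum_erase _ _ (mem_irr.2 isIrr_one)] at h1
  have h2 : ∀ χ ∈ irr G, ⟪reg G, χ⟫ = χ 1 := fun χ hχ => by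
    rw [← ip_conj, ip_reg, (mem_irr.1 hχ).isChar.star_one]
  rw [h2 _ (mem_irr.2 isIrr_one), Finset.sum_congr rfl fun χ hχ => by rw [h2 χ (Finset.mem_of_mem_erase hχ)]] at h1
  have h3 := IsIntegral.sum _ key
  rw [← Finset.sum_div, show ∑ χ ∈ (irr G).erase 1, χ 1 * χ g = ((-1 : ℤ) : ℂ) by
    simp only [Pi.one_apply, mul_one] at h1
    push_cast
    linear_combination -h1] at h3
  have h4 := AInt.dvd_of_div (b := p) (by exact_mod_cast hp.ne_zero) (by exact_mod_cast h3)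
  exact hp.one_lt.ne' (by exact_mod_cast Int.natCast_dvd.1 h4 |> Nat.dvd_one.1)

variable {p : ℕ} {P Q : Subgroup G}

theorem frob_cj (hp : p.Prime)
    (h : ∀ X : Subgroup G, PiGrp {p} X → X ≠ ⊥ → ∀ S, SylowIn p S 𝐍(X) → 𝐂(X) ⊔ S = 𝐍(X)) (n : ℕ) :
    ∀ P Q : Subgroup G, SylowIn p P ⊤ → SylowIn p Q ⊤ → P ⊓ Q ≠ ⊥ → Nat.card P ≤ Nat.card ↥(P ⊓ Q) + n →
      ∃ c ∈ 𝐂(P ⊓ Q), cj c P = Q := by
  haveI := Fact.mk hp
  induction n with
  | zero =>
    intro P Q hP hQ _ hc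
    have e := eq_of_le_of_card_le (inf_le_left : P ⊓ Q ≤ P) hc
    refine ⟨1, one_mem _, (cj_one P).trans (eq_of_le_of_card_eq (e.ge.trans inf_le_right) ?_)⟩
    rw [hP.card_eq_pow hp, hQ.card_eq_pow hp]
  | succ n ih =>
    intro P Q hP hQ hne hc
    have hcard : Nat.card P = Nat.card Q := by rw [hP.card_eq_pow hp, hQ.card_eq_pow hp]
    by_cases hPQ : P = Q
    · exact ⟨1, one_mem _, (cj_one P).trans hPQ⟩
    set D := P ⊓ Q with hD
    have hP' : D < P ⊓ 𝐍(D) := lt_inf_normalizer_pgroup (hP.isPGroup hp) (inf_lt_left.2 fun e =>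
      hPQ (eq_of_le_of_card_eq e hcard))
    have hQ' : D < Q ⊓ 𝐍(D) := lt_inf_normalizer_pgroup (hQ.isPGroup hp) (inf_lt_right.2 fun e =>
      hPQ (eq_of_le_of_card_eq e hcard.symm).symm)
    obtain ⟨S, hS, hPS⟩ := exists_sylowIn_ge (Q := P ⊓ 𝐍(D)) (hP.piGrp.of_le inf_le_left) inf_le_right
    obtain ⟨T, hT, hQT⟩ := exists_sylowIn_ge (Q := Q ⊓ 𝐍(D)) (hQ.piGrp.of_le inf_le_left) inf_le_right
    obtain ⟨g, hg, rfl⟩ := hS.exists_cj hT
    rw [← h D (hP.piGrp.of_le inf_le_left) hne S hS,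
      mem_sup_of_norm_right (hS.le.trans (normalizer_le_normalizer_centralizer D))] at hg
    obtain ⟨c, hc, s, hs, rfl⟩ := hg
    rw [cj_mul, cj_eq_of_mem hs] at hQT
    obtain ⟨R, hR, hSR⟩ := exists_sylowIn_ge hS.piGrp le_top
    have h1 : D < P ⊓ R := hP'.trans_le (le_inf inf_le_left (hPS.trans hSR))
    have h2 : D < cj c R ⊓ Q := hQ'.trans_le (le_inf (hQT.trans (cj_mono c hSR)) inf_le_left)
    have hR' : SylowIn p (cj c R) ⊤ := hR.cj_of_mem (mem_top c)
    obtain ⟨c1, hc1, e1⟩ := ih P R hP hR (ne_bot_of_gt h1) (by have := card_lt_of_lt' h1; omega)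
    obtain ⟨c2, hc2, e2⟩ := ih _ Q hR' hQ (ne_bot_of_gt h2) (by
      have := card_lt_of_lt' h2
      rw [hR'.card_eq_pow hp, ← hP.card_eq_pow hp]
      omega)
    exact ⟨c2 * c * c1, mul_mem (mul_mem (cent_mono h2.le hc2) hc) (cent_mono h1.le hc1), by
      rw [cj_mul, cj_mul, e1, e2]⟩

/-- Frobenius' criterion in a perfect group. -/
theorem frobenius_perfect (hG : commutator G = ⊤) (hp : p.Prime) (hd : p ∣ Nat.card G) :
    ∃ (X Q : Subgroup G) (q : ℕ), PiGrp {p} X ∧ X ≠ ⊥ ∧ q.Prime ∧ q ≠ p ∧ PiGrp {q} Q ∧ Q ≤ 𝐍(X) ∧ ¬ Q ≤ 𝐂(X) := by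
  haveI := Fact.mk hp
  by_contra hne
  push Not at hne
  have h : ∀ X : Subgroup G, PiGrp {p} X → X ≠ ⊥ → ∀ S, SylowIn p S 𝐍(X) → 𝐂(X) ⊔ S = 𝐍(X) := fun X hX h1 S hS =>
    le_antisymm (sup_le (centralizer_le_normalizer _) hS.le) (le_of_forall_sylowIn_le fun q hq _ => by
      by_cases e : q = p
      · exact ⟨S, e ▸ hS, le_sup_right⟩
      · obtain ⟨Q, hQ⟩ := exists_sylowIn q 𝐍(X)
        exact ⟨Q, hQ, (hne X Q q hX h1 hq e hQ.piGrp hQ.le).trans le_sup_left⟩)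
  obtain ⟨P, hP⟩ := exists_sylowIn p (⊤ : Subgroup G)
  have hP1 := hP.ne_bot hp (by simpa using hd)
  have := hP.inf_der_le_of_fusion (L := P) fun x hx u _ hu => by
    by_cases h1 : x = 1
    · exact ⟨1, one_mem _, by simp [h1]⟩
    have hQ : SylowIn p (cj u⁻¹ P) ⊤ := hP.cj_of_mem (mem_top _)
    have hx' : x ∈ P ⊓ cj u⁻¹ P := ⟨hx, mem_cj_inv.2 hu⟩
    obtain ⟨c, hc, e⟩ := frob_cj hp h _ P _ hP hQ (ne_bot_of_mem hx' h1) (Nat.le_add_left _ _)
    have hn : u * c ∈ 𝐍(P) := mem_normalizer_iff_cj.2 (by rw [cj_mul, e, cj_cj_inv])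
    rw [← h P hP.piGrp hP1 P (hP.of_le le_normalizer le_top),
      mem_sup_of_norm_left (centralizer_le_normalizer _)] at hn
    obtain ⟨a, ha, b, hb, e⟩ := hn
    refine ⟨b, hb, ?_⟩
    rw [← conj_eq_of_mem_cent ha (P.mul_mem (P.mul_mem hb hx) (P.inv_mem hb))]
    conv_rhs => rw [← conj_eq_of_mem_cent hc hx']
    calc _ = a * b * x * (a * b)⁻¹ := by group
      _ = _ := by rw [e]; group
  rw [der_top, hG, inf_top_eq] at this
  exact (der_lt_pgroup (hP.isPGroup hp) hP1).not_ge this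

end CA.Zas
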