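/-
Counting tools for simple groups of small order: fixed points on cosets, parity, Sylow numbers.
-/
import Cfsg.Agent.Lib.Zas.Burn
import Cfsg.Agent.Lib.BG.BG4

set_option autoImplicit false
set_option linter.unusedSectionVars false

open Cfsg Subgroup CA Equiv

namespace CA.Zas

theorem perm_parity {α : Type*} [Fintype α] [DecidableEq α] (σ : Perm α) : σ ^ 8 = 1 →
    ∃ a b c : ℕ, Perm.sign σ = (-1) ^ (a + b + c) ∧ σ.support.card = 2 * a + 4 * b + 8 * c ∧
      (σ ^ 2).support.card = 4 * b + 8 * c ∧ (σ ^ 4).support.card = 8 * c := by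
  induction σ using Perm.cycle_induction_on with
  | base_one => exact fun _ => ⟨0, 0, 0, by simp⟩
  | base_cycles σ hσ =>
    intro h
    have e : ∀ n, (σ ^ n).support.card = if σ.support.card ∣ n then 0 else σ.support.card := fun n => by
      split_ifs with h1
      · rw [← hσ.orderOf, orderOf_dvd_iff_pow_eq_one] at h1
        simp [h1]
      · rw [hσ.support_pow_eq_iff.2 (hσ.orderOf ▸ h1)]
    rw [e, e, hσ.sign]
    have h1 := hσ.orderOf ▸ orderOf_dvd_of_pow_eq_one h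
    have h2 := hσ.two_le_card_support
    have h3 := Nat.le_of_dvd (by norm_num) h1
    generalize σ.support.card = k at *
    interval_cases k <;> try omega
    · exact ⟨1, 0, 0, by decide⟩
    · exact ⟨0, 1, 0, by decide⟩
    · exact ⟨0, 0, 1, by decide⟩
  | induction_disjoint σ τ hd _ h1 h2 =>
    intro h
    rw [hd.commute.mul_pow, (hd.pow_disjoint_pow 8 8).mul_eq_one_iff] at h
    obtain ⟨a, b, c, e1, e2, e3, e4⟩ := h1 h.1
    obtain ⟨a', b', c', f1, f2, f3, f4⟩ := h2 h.2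
    refine ⟨a + a', b + b', c + c', ?_, ?_, ?_, ?_⟩
    · rw [map_mul, e1, f1, ← pow_add]; congr 1; ring
    · rw [hd.card_support_mul]; omega
    · rw [hd.commute.mul_pow, (hd.pow_disjoint_pow 2 2).card_support_mul]; omega
    · rw [hd.commute.mul_pow, (hd.pow_disjoint_pow 4 4).card_support_mul]; omega

theorem card_modEq_one_of_orbits {A Ω : Type*} [Group A] [MulAction A Ω] [Finite Ω] (ω : Ω) (k : ℕ)
    (h0 : ∀ a : A, a • ω = ω) (h : ∀ x, x ≠ ω → k ∣ (MulAction.stabilizer A x).index) : Nat.card Ω ≡ 1 [MOD k] := by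
  classical
  haveI := Fintype.ofFinite (MulAction.orbitRel.Quotient A Ω)
  rw [Nat.card_congr (MulAction.selfEquivSigmaOrbits A Ω), Nat.card_sigma,
    ← Finset.add_sum_erase _ _ (Finset.mem_univ (Quotient.mk'' ω))]
  have e : ∀ x : Ω, MulAction.orbitRel A Ω x ω → x = ω := fun x ⟨a, ha⟩ => ha.symm.trans (h0 a)
  have e1 : Nat.card (MulAction.orbit A (Quotient.out (Quotient.mk'' ω : MulAction.orbitRel.Quotient A Ω))) = 1 := by
    rw [e _ (Quotient.mk_out' ω), Nat.card_eq_one_iff_unique]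
    exact ⟨⟨fun x y => Subtype.ext ((e _ x.2).trans (e _ y.2).symm)⟩, ⟨_, MulAction.mem_orbit_self ω⟩⟩
  rw [e1]
  refine (Nat.ModEq.refl 1).add (Nat.modEq_zero_iff_dvd.2 (Finset.dvd_sum fun q hq => ?_))
  rw [Nat.card_coe_set_eq, ← MulAction.index_stabilizer]
  exact h _ fun e2 => (Finset.mem_erase.1 hq).1 (by rw [← e2, Quotient.out_eq'])

variable {G : Type*} [Group G] [Finite G] {H K L M P Q R X : Subgroup G} {x y g : G} {p : ℕ}

/-- The number of cosets of `H` fixed by `x`. -/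
noncomputable def fix (H : Subgroup G) (x : G) : ℕ := {c : G ⧸ H | x • c = c}.ncard

theorem smul_mk_iff (H : Subgroup G) (y g : G) : y • (g : G ⧸ H) = (g : G ⧸ H) ↔ g⁻¹ * y * g ∈ H := by
  rw [MulAction.Quotient.smul_coe, eq_comm, QuotientGroup.eq, smul_eq_mul, mul_assoc]

theorem smul_mk_iff' (H : Subgroup G) (y g : G) : y • (g : G ⧸ H) = (g : G ⧸ H) ↔ y ∈ cj g H :=
  (smul_mk_iff H y g).trans mem_cj.symm

theorem mk_eq_one_iff : (g : G ⧸ H) = ((1 : G) : G ⧸ H) ↔ g ∈ H := by rw [QuotientGroup.eq]; simp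

theorem fix_add [Fintype (G ⧸ H)] [DecidableEq (G ⧸ H)] (x : G) :
    fix H x + (MulAction.toPermHom G (G ⧸ H) x).support.card = H.index := by
  rw [fix, index, Nat.card_eq_fintype_card, ← Finset.card_compl_add_card (MulAction.toPermHom G (G ⧸ H) x).support,
    Nat.add_right_cancel_iff, ← Set.ncard_coe_finset]
  congr 1
  ext c
  simp

theorem fix_one (H : Subgroup G) : fix H 1 = H.index := by simp [fix, index]

theorem fix_pos (hx : x ∈ H) : 0 < fix H x :=
  (Set.ncard_pos).2 ⟨((1 : G) : G ⧸ H), (smul_mk_iff H x 1).2 (by simpa using hx)⟩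

theorem exists_of_fix_pos (h : 0 < fix H x) : ∃ g, g⁻¹ * x * g ∈ H := by
  obtain ⟨c, hc⟩ := (Set.ncard_pos).1 h
  obtain ⟨g, rfl⟩ := QuotientGroup.mk_surjective c
  exact ⟨g, (smul_mk_iff H x g).1 hc⟩

theorem fix_parity (hG : commutator G = ⊤) (H : Subgroup G) (hx : x ^ 8 = 1) :
    ∃ a b c : ℕ, (a + b + c) % 2 = 0 ∧ fix H x + (2 * a + 4 * b + 8 * c) = H.index ∧
      fix H (x ^ 2) + (4 * b + 8 * c) = H.index ∧ fix H (x ^ 4) + 8 * c = H.index := by
  classical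
  haveI := Fintype.ofFinite (G ⧸ H)
  let φ := MulAction.toPermHom G (G ⧸ H)
  obtain ⟨a, b, c, e1, e2, e3, e4⟩ := perm_parity (φ x) (by rw [← map_pow, hx, map_one])
  have h1 : Perm.sign (φ x) = 1 := Abelianization.commutator_subset_ker (Perm.sign.comp φ) (hG ▸ mem_top x)
  refine ⟨a, b, c, ?_, by rw [← e2, fix_add], by rw [← e3, ← map_pow, fix_add], by rw [← e4, ← map_pow, fix_add]⟩
  by_contra h5
  rw [h1, (Nat.odd_iff.2 (by omega)).neg_one_pow] at e1
  exact absurd e1 (by decide)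

theorem fix_four (hG : commutator G = ⊤) (H : Subgroup G) (hx : x ^ 2 = 1) : fix H x ≡ H.index [MOD 4] := by
  obtain ⟨a, b, c, e1, e2, e3, -⟩ := fix_parity hG H (x := x) (by rw [show 8 = 2 * 4 from rfl, pow_mul, hx, one_pow])
  rw [hx, fix_one] at e3
  unfold Nat.ModEq
  omega

theorem fix_modEq (hp : p.Prime) (H : Subgroup G) (hx : x ^ p = 1) : fix H x ≡ H.index [MOD p] := by
  haveI := Fact.mk hp
  have h1 : IsPGroup p (zpowers x) := (piGrp_zpowers.2 (piElt_of_pow_eq_one ((piNum_prime (π := {p}) hp).2 rfl) hx)).isPGroup hp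
  refine Eq.trans ?_ (h1.card_modEq_card_fixedPoints (G ⧸ H)).symm
  rw [fix, Nat.card_coe_set_eq]
  congr 2
  ext c
  exact ⟨fun h ⟨_, k, rfl⟩ => MulAction.fixedBy_subset_fixedBy_zpow _ x k h, fun h => h ⟨x, mem_zpowers x⟩⟩

theorem fix_modEq_one (hp : p.Prime) (hR : PiGrp {p} R) (hx : x ∈ 𝐂(R)) (hRH : R ≤ H) (hu : ∀ g, R ≤ cj g H → g ∈ H) :
    fix H x ≡ 1 [MOD p] := by
  haveI := Fact.mk hp
  let S : SubMulAction R (G ⧸ H) :=
    { carrier := {c | x • c = c}
      smul_mem' := fun r c hc => by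
        show x • (r : G) • c = (r : G) • c
        rw [← mul_smul, mem_cent_iff'.1 hx r r.2, mul_smul, hc] }
  have hxH : x ∈ H := hu x (cj_eq_of_mem_centralizer hx ▸ cj_mono x hRH)
  refine ((hR.isPGroup hp).card_modEq_card_fixedPoints S).trans ?_
  rw [Nat.card_eq_one_iff_exists.2 ⟨⟨⟨((1 : G) : G ⧸ H), (smul_mk_iff H x 1).2 (by simpa using hxH)⟩, fun r =>
    Subtype.ext ((smul_mk_iff H r 1).2 (by simpa using hRH r.2))⟩, ?_⟩]
  rintro ⟨⟨c, hc⟩, hf⟩
  obtain ⟨g, rfl⟩ := QuotientGroup.mk_surjective c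
  exact Subtype.ext (Subtype.ext (mk_eq_one_iff.2 (hu g fun r hr =>
    (smul_mk_iff' H r g).1 (congrArg Subtype.val (hf ⟨r, hr⟩)))))

theorem fix_mul_card (h : ∀ g, g⁻¹ * x * g ∈ H ↔ g ∈ M) : fix H x * Nat.card H = Nat.card M := by
  rw [fix, ← Nat.card_coe_set_eq, mul_comm, ← QuotientGroup.card_preimage_mk]
  exact Nat.card_congr (Equiv.subtypeEquivRight fun g => (smul_mk_iff H x g).trans (h g))

/-- The number of fixed cosets of an involution, if `H` has no other involution. -/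
theorem fix_mul_card_cent (hx : x ≠ 1) (h2 : x ^ 2 = 1) (hH : x ∈ H) (hu : ∀ y ∈ H, y ^ 2 = 1 → y ≠ 1 → y = x) :
    fix H x * Nat.card H = Nat.card 𝐂[x] :=
  fix_mul_card fun g => ⟨fun h => mem_cent1_iff.2 (by
    have := hu _ h (by simpa [h2] using conj_pow (a := g⁻¹) (b := x) (i := 2))
      fun e => hx (conj_eq_one_iff.1 (by simpa using e : g⁻¹ * x * g⁻¹⁻¹ = 1))
    conv_lhs => rw [← this]
    group), fun h => by rwa [mul_assoc, ← mem_cent1_iff.1 h, inv_mul_cancel_left]⟩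

theorem fix_le_two (hQH : Q ≤ H) (hn : H ≤ 𝐍(Q)) (hi : H.index = Nat.card Q + 1)
    (hs : ∀ u ∈ Q, u ≠ 1 → ∀ g, u ∈ cj g H → g ∈ H) (hx : x ∈ H) (hc : Q ⊓ 𝐂[x] = ⊥) : fix H x ≤ 2 := by
  by_cases h1 : ∃ g, g ∉ H ∧ x ∈ cj g H
  swap
  · push Not at h1
    refine (Set.ncard_le_ncard (t := {((1 : G) : G ⧸ H)}) fun c hc => ?_).trans (by simp)
    obtain ⟨g, rfl⟩ := QuotientGroup.mk_surjective c
    by_contra h2
    exact h1 g (fun h3 => h2 (mk_eq_one_iff.2 h3)) ((smul_mk_iff' H x g).1 hc)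
  obtain ⟨g, hg, hxg⟩ := h1
  have hst : ∀ u ∈ Q, ∀ v ∈ Q, u • (g : G ⧸ H) = v • (g : G ⧸ H) → u = v := fun u hu v hv e => by
    by_contra hne
    exact hg (hs _ (mul_mem (inv_mem hv) hu) (fun e => hne (inv_mul_eq_one.1 e).symm) g
      ((smul_mk_iff' H _ g).1 (by rw [mul_smul, e, inv_smul_smul])))
  let φ : Option Q → G ⧸ H := fun o => o.elim ((1 : G) : G ⧸ H) fun u => (u : G) • (g : G ⧸ H)
  have hφ : ∀ u : Q, φ (some u) ≠ φ none := fun u e =>
    hg ((mul_mem_cancel_left (hQH u.2)).1 (mk_eq_one_iff.1 e))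
  have hinj : Function.Injective φ := by
    rintro (_ | u) (_ | v) e
    · rfl
    · exact absurd e.symm (hφ _)
    · exact absurd e (hφ _)
    · rw [Subtype.ext (hst u u.2 v v.2 e)]
  have hsurj := (hinj.bijective_of_nat_card_le (by rw [Finite.card_option]; exact hi.le)).2
  refine (Set.ncard_le_ncard (t := {((1 : G) : G ⧸ H), (g : G ⧸ H)}) fun c hc' => ?_).trans
    ((Set.ncard_insert_le _ _).trans (by simp))
  obtain ⟨_ | u, rfl⟩ := hsurj c
  · exact Or.inl rfl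
  · right
    have h2 := hst _ (conj_mem_of_mem_normalizer (hn hx) u.2) u u.2 (by
      rw [mul_smul, mul_smul, inv_smul_eq_iff.2 ((smul_mk_iff' H x g).2 hxg).symm]
      exact hc')
    have h3 : (u : G) = 1 := mem_bot.1 (hc.le ⟨u.2, mem_cent1_iff.2 (mul_inv_eq_iff_eq_mul.1 h2).symm⟩)
    show (u : G) • (g : G ⧸ H) = _
    rw [h3, one_smul]

/-- Sylow's third theorem. -/
theorem sylow_count (hp : p.Prime) (hP : SylowIn p P M) : 𝐍(P).relIndex M ≡ 1 [MOD p] := by
  haveI := Fact.mk hp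
  obtain ⟨S, hS⟩ := hP.exists_sylow'
  have := card_sylow_modEq_one p M
  rwa [S.card_eq_index_normalizer, ← S.coe_coe, hS, ← subgroupOf_normalizer_eq hP.le] at this

theorem sylow_count_top (hp : p.Prime) (hP : SylowIn p P ⊤) : 𝐍(P).index ≡ 1 [MOD p] := by
  simpa using sylow_count hp hP

theorem eq_cj_of_le (hP : SylowIn p P ⊤) (h : P ≤ cj g 𝐍(P)) : g ∈ 𝐍(P) :=
  mem_normalizer_of_le_cj (SylowIn.le_of_norm' (hP.cj_of_mem (mem_top g)) hP.piGrp le_top (cj_normalizer g P ▸ h))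

theorem mem_cj_sylow (hP : SylowIn p P ⊤) (hx : PiElt {p} x) (h : x ∈ cj g 𝐍(P)) : x ∈ cj g P :=
  SylowIn.le_of_norm' (hP.cj_of_mem (mem_top g)) (piGrp_zpowers.2 hx) le_top (zpowers_le.2 (cj_normalizer g P ▸ h))
    (mem_zpowers x)

/-- Two Sylow subgroups meeting in a subgroup of index `p`. -/
theorem exists_inf_index (hp : p.Prime) (hP : SylowIn p P ⊤) (h : ¬ 𝐍(P).index ≡ 1 [MOD p ^ 2]) :
    ∃ g, g ∉ 𝐍(P) ∧ Nat.card P = Nat.card ↥(P ⊓ cj g P) * p := by
  haveI := Fact.mk hp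
  by_contra hne
  push Not at hne
  refine h (card_modEq_one_of_orbits (A := P) ((1 : G) : G ⧸ 𝐍(P)) _
    (fun a => (smul_mk_iff _ (a : G) 1).2 (by simpa using le_normalizer a.2)) fun c hc => ?_)
  obtain ⟨g, rfl⟩ := QuotientGroup.mk_surjective c
  have hg : g ∉ 𝐍(P) := fun h => hc (mk_eq_one_iff.2 h)
  have e : (MulAction.stabilizer P (g : G ⧸ 𝐍(P))).index = (cj g P).relIndex P := by
    rw [relIndex]
    congr 1
    ext a
    exact (smul_mk_iff' _ (a : G) g).trans ⟨mem_cj_sylow hP (hP.piGrp.piElt a.2), fun h => cj_mono g le_normalizer h⟩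
  obtain ⟨k, hk⟩ := IsPGroup.relIndex_eq_pow (hP.isPGroup hp) (cj g P)
  rw [e, hk]
  refine pow_dvd_pow p (not_lt.1 fun hk2 => ?_)
  interval_cases k
  · exact hg (mem_normalizer_of_le_cj (relIndex_eq_one.1 hk))
  · exact hne g hg (by rw [← card_inf_mul_relIndex (cj g P) P, hk, pow_one, inf_comm])

section Simple
variable [IsSimpleGroup G]

theorem norm_ne_top (h1 : X ≠ ⊥) (h2 : X ≠ ⊤) : 𝐍(X) ≠ ⊤ := fun h =>
  (normalizer_eq_top_iff.1 h).eq_bot_or_eq_top.elim h1 h2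

theorem toPerm_injective (hH : H ≠ ⊤) : Function.Injective (MulAction.toPermHom G (G ⧸ H)) := by
  rw [← MonoidHom.ker_eq_bot_iff, ← normalCore_eq_ker]
  exact H.normalCore_normal.eq_bot_or_eq_top.resolve_right fun e => hH (top_le_iff.1 (e.ge.trans H.normalCore_le))

theorem fix_lt (hH : H ≠ ⊤) (hx : x ≠ 1) : fix H x < H.index := by
  classical
  haveI := Fintype.ofFinite (G ⧸ H)
  rw [← fix_add x, lt_add_iff_pos_right, Finset.card_pos, Finset.nonempty_iff_ne_empty, ne_eq,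
    Perm.support_eq_empty_iff, map_eq_one_iff _ (toPerm_injective hH)]
  exact hx

theorem dvd_factorial (hG : commutator G = ⊤) (hH : H ≠ ⊤) : 2 * Nat.card G ∣ H.index.factorial := by
  classical
  haveI := Fintype.ofFinite (G ⧸ H)
  haveI : Nontrivial (G ⧸ H) := Finite.one_lt_card_iff_nontrivial.1 (one_lt_index_of_ne_top hH)
  rw [index, ← Nat.card_perm, ← two_mul_nat_card_alternatingGroup]
  refine Nat.mul_dvd_mul_left 2 (card_dvd_of_injective ((MulAction.toPermHom G (G ⧸ H)).codRestrict _ fun g => ?_)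
    ((MonoidHom.injective_codRestrict _ _ _).2 (toPerm_injective hH)))
  exact Abelianization.commutator_subset_ker (Perm.sign.comp (MulAction.toPermHom G (G ⧸ H))) (hG ▸ mem_top g)

theorem cent1_ne_top (hG : commutator G = ⊤) (hx : x ≠ 1) : 𝐂[x] ≠ ⊤ := fun h =>
  burnside_class hG hx (k := 0) Nat.prime_two (by rw [h, index_top, pow_zero])

theorem not_dvd_pow (hG : commutator G = ⊤) (hx : x ≠ 1) (hp : p.Prime) (k : ℕ) : ¬ (𝐂[x]).index ∣ p ^ k := fun h => by
  obtain ⟨j, -, hj⟩ := (Nat.dvd_prime_pow hp).1 h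
  exact burnside_class hG hx hp hj

end Simple

theorem eight_dvd (hG : commutator G = ⊤) (h8 : 8 ∣ Nat.card G) (hx : orderOf x = 2) : 8 ∣ Nat.card 𝐂[x] := by
  classical
  have h2 : x ^ 2 = 1 := hx ▸ pow_orderOf_eq_one x
  have h1 : x ≠ 1 := by rintro rfl; simp at hx
  have h3 := fix_mul_card_cent h1 h2 (mem_zpowers x) fun y hy _ hy1 => by
    obtain ⟨k, hk, rfl⟩ := Finset.mem_image.1 (mem_zpowers_iff_mem_range_orderOf.1 hy)
    rw [Finset.mem_range, hx] at hk
    interval_cases k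
    · simp at hy1
    · simp
  have h4 := fix_four hG (zpowers x) h2
  have h5 := (zpowers x).card_mul_index
  rw [Nat.card_zpowers, hx] at h3 h5
  unfold Nat.ModEq at h4
  omega

/-- Burnside's transfer theorem in a perfect group. -/
theorem not_norm_le_cent (hG : commutator G = ⊤) (hP : SylowIn p P ⊤) (h1 : P ≠ ⊥) : ¬ 𝐍(P) ≤ 𝐂(P) := fun h =>
  h1 (by simpa [der_top, hG] using hP.inf_der_eq_bot_of_cent (by simpa using h))

theorem exists_prime_of_abelian (hG : commutator G = ⊤) (hp : p.Prime) (hP : SylowIn p P ⊤) (h1 : P ≠ ⊥)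
    (hc : IsMulCommutative P) {a : ℕ} (ha : Nat.card P = p ^ a) :
    ∃ q k, q.Prime ∧ q ∣ P.relIndex 𝐍(P) ∧ 0 < k ∧ k ≤ a ∧ q ∣ p ^ k - 1 := by
  haveI := Fact.mk hp
  by_contra hne
  push Not at hne
  refine not_norm_le_cent hG hP h1 (le_of_forall_sylowIn_le fun q hq hd => ?_)
  by_cases e : q = p
  · exact ⟨P, e ▸ hP.of_le le_normalizer le_top, abelian_iff.1 hc⟩
  obtain ⟨Q, hQ⟩ := exists_sylowIn q 𝐍(P)
  refine ⟨Q, hQ, by_contra fun h => ?_⟩
  obtain ⟨k, h0, hk, hd'⟩ := exists_dvd_pow_sub_one_of_not_cents hq e hQ.piGrp ha hQ.le h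
  rw [← card_mul_relIndex (le_normalizer (H := P)), ha] at hd
  exact hne q k hq (((Nat.coprime_primes hq hp).2 e).pow_right a |>.dvd_of_dvd_mul_left hd) h0 hk hd'

end CA.Zas
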