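/-
The arithmetical conditions on the order of a simple group and its Sylow numbers.
-/
import Cfsg.Agent.Lib.Zas.Fix

set_option autoImplicit false
set_option linter.unusedSectionVars false

open Cfsg Subgroup CA Equiv

namespace CA.Zas

def fac : ℕ → ℕ → ℕ → ℕ
  | _, 0, acc => acc
  | m, k + 1, acc => fac m k (acc * (k + 1) % m)

def idx (n k : ℕ) : Bool := fac (2 * n) k 1 % (2 * n) == 0

def npp (k : ℕ) : Bool := [2, 3, 5, 7, 11, 13, 17].all fun l => l ^ 10 % k != 0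

def anyLt (f : ℕ → Bool) : ℕ → Bool
  | 0 => false
  | k + 1 => f k || anyLt f k

def good1 (p d r : ℕ) : Bool := anyLt (fun c => r % c == 0 && r / c != 1 && (p - 1) % (r / c) == 0 &&
  ([3, 5, 7].all fun s => c % s != 0 || anyLt (fun f => f % p == 1 && f % s == d % s) d) &&
  (c % 2 != 0 || anyLt (fun f => f % p == 1 && f % 4 == d % 4) d) &&
  (d != p + 1 || c == 1 && (r % 2 != 0 || p % 4 == 1))) (r + 1)

def good2 (n p a m : ℕ) : Bool := anyLt (fun k => m % k == 0 && idx n (m / k) && (a != 2 || npp (m / k)) &&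
  anyLt (fun s => k % s == 0 && 1 < s && s % p == 1) (k + 1)) (m + 1)

def good (n p a d : ℕ) : Bool := n / p ^ a % d == 0 && d % p == 1 && idx n d && npp (n / p ^ a) &&
  (a != 2 || Nat.gcd (n / p ^ a / d) (p ^ 2 - 1) != 1) && (a != 1 || good1 p d (n / p ^ a / d)) &&
  (a < 2 || d % p ^ 2 == 1 || good2 n p a (n / p ^ a))

def bad (n p : ℕ) : Bool := 2 ≤ p && p < 1093 && !(anyLt (fun j => 2 ≤ j && j < p && p % j == 0) 34) &&
  anyLt (fun a => 0 < a && n % p ^ a == 0 && n % p ^ (a + 1) != 0 && !(anyLt (good n p a) (n / p ^ a + 1))) 11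

def chk : ℕ → List ℕ → Bool
  | _, [] => true
  | n, p :: l => ([0, 1, 60, 168, 360, 504, 660, 720, 756, 1008, 1040, 1080, 1092].contains n || bad n p) && chk (n + 1) l

def wit : List ℕ := [
  0, 0, 2, 3, 2, 5, 3, 7, 2, 3, 5, 11, 2, 13, 7, 5, 2, 17, 3, 19, 5, 7, 11, 23, 2, 5, 13, 3, 7, 29, 5, 31, 2, 11, 17,
  7, 3, 37, 19, 13, 2, 41, 7, 43, 11, 3, 23, 47, 2, 7, 5, 17, 13, 53, 3, 11, 2, 19, 29, 59, 0, 61, 31, 3, 2, 13, 11,
  67, 17, 23, 7, 71, 3, 73, 37, 5, 19, 11, 13, 79, 2, 3, 41, 83, 7, 17, 43, 29, 11, 89, 3, 13, 23, 31, 47, 19, 2, 97,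
  7, 11, 5, 101, 17, 103, 13, 7, 53, 107, 3, 109, 11, 37, 2, 113, 19, 23, 29, 13, 59, 17, 2, 11, 61, 41, 31, 5, 3,
  127, 2, 43, 13, 131, 11, 19, 67, 3, 17, 137, 23, 139, 7, 47, 71, 13, 2, 29, 73, 7, 37, 149, 5, 151, 19, 17, 11, 31,
  13, 157, 79, 53, 2, 23, 3, 163, 41, 11, 83, 167, 0, 13, 17, 19, 43, 173, 29, 5, 2, 59, 89, 179, 5, 181, 13, 61, 23,
  37, 31, 17, 47, 3, 19, 191, 2, 193, 97, 13, 7, 197, 11, 199, 5, 67, 101, 29, 17, 41, 103, 23, 2, 19, 3, 211, 53,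
  71, 107, 43, 3, 31, 109, 73, 11, 17, 37, 223, 2, 5, 113, 227, 19, 229, 23, 11, 29, 233, 13, 47, 59, 79, 17, 239, 2,
  241, 11, 3, 61, 7, 41, 19, 31, 83, 5, 251, 3, 23, 127, 17, 2, 257, 43, 37, 13, 29, 131, 263, 11, 53, 19, 89, 67,
  269, 5, 271, 17, 13, 137, 5, 23, 277, 139, 31, 7, 281, 47, 283, 71, 19, 13, 41, 2, 17, 29, 97, 73, 293, 7, 59, 37,
  3, 149, 23, 5, 43, 151, 101, 19, 61, 17, 307, 11, 103, 31, 311, 13, 313, 157, 3, 79, 317, 53, 29, 2, 107, 23, 19,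
  3, 5, 163, 109, 41, 47, 11, 331, 83, 37, 167, 67, 7, 337, 13, 113, 17, 31, 19, 7, 43, 23, 173, 347, 29, 349, 5, 3,
  2, 353, 59, 71, 89, 17, 179, 359, 0, 19, 181, 11, 7, 73, 61, 367, 23, 41, 37, 53, 31, 373, 17, 5, 47, 29, 3, 379,
  19, 127, 191, 383, 2, 11, 193, 43, 97, 389, 13, 23, 7, 131, 197, 79, 11, 397, 199, 19, 5, 401, 67, 31, 101, 3, 29,
  37, 17, 409, 41, 137, 103, 59, 23, 83, 2, 139, 19, 419, 7, 421, 211, 47, 53, 5, 71, 61, 107, 13, 43, 431, 3, 433,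
  31, 29, 109, 23, 73, 439, 11, 7, 17, 443, 37, 89, 223, 149, 2, 449, 5, 41, 113, 151, 227, 13, 19, 457, 229, 3, 23,
  461, 11, 463, 29, 31, 233, 467, 13, 67, 47, 157, 59, 43, 79, 5, 17, 53, 239, 479, 2, 37, 241, 23, 11, 97, 3, 487,
  61, 163, 7, 491, 41, 29, 19, 11, 31, 71, 83, 499, 5, 167, 251, 503, 0, 101, 23, 13, 127, 509, 17, 73, 2, 19, 257,
  103, 43, 47, 37, 173, 13, 521, 29, 523, 131, 5, 263, 31, 11, 23, 53, 59, 19, 41, 89, 107, 67, 179, 269, 7, 5, 541,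
  271, 181, 2, 109, 7, 547, 137, 61, 5, 29, 23, 79, 277, 37, 139, 557, 31, 43, 2, 17, 281, 563, 47, 113, 283, 3, 71,
  569, 19, 571, 13, 191, 41, 5, 2, 577, 17, 193, 29, 83, 97, 53, 73, 13, 293, 587, 7, 31, 59, 197, 37, 593, 3, 17,
  149, 199, 23, 599, 5, 601, 43, 67, 151, 11, 101, 607, 2, 29, 61, 47, 3, 613, 307, 41, 11, 617, 103, 619, 31, 3,
  311, 89, 13, 5, 313, 19, 157, 37, 2, 631, 79, 211, 317, 127, 53, 7, 29, 71, 2, 641, 107, 643, 23, 43, 19, 647, 3,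
  59, 5, 31, 163, 653, 109, 131, 41, 73, 47, 659, 0, 661, 331, 17, 83, 19, 37, 29, 167, 223, 67, 61, 7, 673, 337, 3,
  13, 677, 113, 97, 17, 227, 31, 683, 19, 137, 7, 229, 43, 53, 23, 691, 173, 11, 347, 139, 29, 41, 349, 233, 5, 701,
  3, 37, 2, 47, 353, 101, 59, 709, 71, 79, 89, 31, 17, 13, 179, 239, 359, 719, 0, 103, 19, 241, 181, 29, 11, 727, 7,
  3, 73, 43, 61, 733, 367, 7, 2, 67, 41, 739, 37, 19, 53, 743, 31, 149, 373, 83, 17, 107, 5, 751, 47, 251, 29, 151,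
  0, 757, 379, 23, 19, 761, 127, 109, 191, 17, 383, 59, 2, 769, 11, 257, 193, 773, 43, 31, 97, 37, 389, 41, 13, 71,
  23, 29, 7, 157, 131, 787, 197, 263, 79, 113, 11, 61, 397, 53, 199, 797, 19, 47, 2, 89, 401, 73, 67, 23, 31, 269,
  101, 809, 2, 811, 29, 271, 37, 163, 17, 43, 409, 13, 41, 821, 137, 823, 103, 5, 59, 827, 23, 829, 83, 277, 2, 7,
  139, 167, 19, 31, 419, 839, 7, 29, 421, 281, 211, 13, 47, 11, 53, 283, 5, 37, 71, 853, 61, 19, 107, 857, 13, 859,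
  43, 41, 431, 863, 2, 173, 433, 17, 31, 79, 29, 67, 109, 97, 23, 5, 73, 877, 439, 293, 11, 881, 7, 883, 17, 59, 443,
  887, 37, 127, 89, 3, 223, 47, 149, 179, 2, 23, 449, 31, 5, 53, 41, 43, 113, 181, 151, 907, 227, 101, 13, 911, 19,
  83, 457, 61, 229, 131, 3, 919, 23, 307, 461, 71, 11, 37, 463, 103, 29, 929, 31, 7, 233, 311, 467, 17, 13, 937, 67,
  313, 47, 941, 157, 41, 59, 3, 43, 947, 79, 73, 5, 317, 17, 953, 53, 191, 239, 29, 479, 137, 2, 31, 37, 107, 241,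
  193, 23, 967, 11, 19, 97, 971, 3, 139, 487, 5, 61, 977, 163, 89, 7, 109, 491, 983, 41, 197, 29, 47, 19, 43, 5, 991,
  2, 331, 71, 199, 83, 997, 499, 37, 5, 13, 167, 59, 251, 67, 503, 53, 0, 1009, 101, 337, 23, 1013, 13, 29, 127, 113,
  509, 1019, 17, 1021, 73, 31, 2, 41, 19, 79, 257, 7, 103, 1031, 43, 1033, 47, 23, 37, 61, 173, 1039, 0, 347, 521,
  149, 29, 19, 523, 349, 131, 1049, 5, 1051, 263, 3, 31, 211, 11, 151, 23, 353, 53, 1061, 59, 1063, 19, 71, 41, 97,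
  89, 1069, 107, 17, 67, 37, 179, 43, 269, 359, 7, 83, 0, 47, 541, 19, 271, 31, 181, 1087, 2, 11, 109, 1091, 0]

theorem bad_all : chk 0 wit = true := by
  decide +kernel

theorem wl : wit.length = 1093 := by decide +kernel

theorem fac_modEq (m k acc : ℕ) : fac m k acc ≡ acc * k.factorial [MOD m] := by
  induction k generalizing acc with
  | zero => simp [fac, Nat.ModEq]
  | succ k ih =>
    rw [fac, Nat.factorial_succ, ← mul_assoc]
    exact (ih _).trans ((Nat.mod_modEq _ _).mul_right _)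

theorem idx_iff {n k : ℕ} : idx n k = true ↔ 2 * n ∣ k.factorial := by
  rw [idx, beq_iff_eq, fac_modEq, one_mul, Nat.dvd_iff_mod_eq_zero]

theorem anyLt_iff {f : ℕ → Bool} {n : ℕ} : anyLt f n = true ↔ ∃ k < n, f k = true := by
  induction n with
  | zero => simp [anyLt]
  | succ n ih => rw [anyLt, Bool.or_eq_true, ih, Nat.exists_lt_succ_right, or_comm]

theorem npp_of {k : ℕ} (h : ∀ l : ℕ, l.Prime → ¬ k ∣ l ^ 10) : npp k = true := by
  simp only [npp, List.all_eq_true, bne_iff_ne, ne_eq, ← Nat.dvd_iff_mod_eq_zero]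
  intro l hl
  refine h l ?_
  fin_cases hl <;> norm_num

theorem chk_spec (l : List ℕ) (n : ℕ) (h : chk n l = true) (i : ℕ) (hi : i < l.length) :
    n + i ∈ [0, 1, 60, 168, 360, 504, 660, 720, 756, 1008, 1040, 1080, 1092] ∨ ∃ p, bad (n + i) p = true := by
  induction l generalizing n i with
  | nil => simp at hi
  | cons p l ih =>
    rw [chk, Bool.and_eq_true, Bool.or_eq_true, List.contains_iff_mem] at h
    cases i with
    | zero => exact h.1.imp_right fun h => ⟨p, h⟩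
    | succ i => simpa only [add_assoc, add_comm 1 i] using ih (n + 1) h.2 i (by simpa using hi)

theorem mod_eq_one {a p : ℕ} (hp : 1 < p) (h : a ≡ 1 [MOD p]) : a % p = 1 := Eq.trans h (Nat.mod_eq_of_lt hp)

variable {G : Type*} [Group G] [Finite G] [IsSimpleGroup G] {H K L M P Q R X : Subgroup G} {x y g : G} {p a : ℕ}

theorem card_div_eq (ha : Nat.card P = p ^ a) : Nat.card G / p ^ a = P.index := by
  rw [← ha, ← P.card_mul_index, Nat.mul_div_cancel_left _ (card_pos' P)]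

theorem index_div_eq (h : P ≤ M) : P.index / M.index = P.relIndex M := by
  rw [← relIndex_mul_index h, Nat.mul_div_cancel _ (Nat.pos_of_ne_zero index_ne_zero_of_finite)]

theorem index_div_eq' (h : P ≤ M) : P.index / P.relIndex M = M.index := by
  rw [← relIndex_mul_index h, Nat.mul_div_cancel_left _ (relIndex_pos' _ _)]

theorem npp_sylow (hG : commutator G = ⊤) (hp : p.Prime) (hP : SylowIn p P ⊤) (h1 : P ≠ ⊥) {l : ℕ} (hl : l.Prime)
    (k : ℕ) : ¬ P.index ∣ l ^ k := fun h => by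
  haveI := Fact.mk hp
  obtain ⟨z, hz, hz1⟩ := exists_ne_one_mem' (center_ne_bot_pgroup (hP.isPGroup hp) h1)
  exact not_dvd_pow hG hz1 hl k ((index_dvd_of_le (mem_cent_iff_le_cent1.1 hz.2)).trans h)

theorem sylow_norm_ne_top (hG : commutator G = ⊤) (hp : p.Prime) (hP : SylowIn p P ⊤) (h1 : P ≠ ⊥) : 𝐍(P) ≠ ⊤ :=
  norm_ne_top h1 fun e => npp_sylow hG hp hP h1 hp 0 (by simp [e])

theorem fix_cent_sylow (hG : commutator G = ⊤) (hp : p.Prime) (hP : SylowIn p P ⊤) (h1 : P ≠ ⊥) (hx : x ∈ 𝐂(P))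
    (hx1 : x ≠ 1) : fix 𝐍(P) x < 𝐍(P).index ∧ fix 𝐍(P) x % p = 1 :=
  ⟨fix_lt (sylow_norm_ne_top hG hp hP h1) hx1, mod_eq_one hp.one_lt
    (fix_modEq_one hp hP.piGrp hx le_normalizer fun _ => eq_cj_of_le hP)⟩

theorem exists_cent_elt {s : ℕ} (hs : s.Prime) (h : P ≤ M) (hd : s ∣ P.relIndex M) : ∃ x ∈ M, x ≠ 1 ∧ x ^ s = 1 := by
  obtain ⟨x, hx, ho⟩ := exists_orderOf_eq_prime hs (hd.trans (Dvd.intro_left _ (card_mul_relIndex h)))
  exact ⟨x, hx, fun e => hs.one_lt.ne (by simpa [e] using ho), ho ▸ pow_orderOf_eq_one x⟩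

theorem cent_eq_of_succ (hG : commutator G = ⊤) (hp : p.Prime) (hP : SylowIn p P ⊤) (hc : Nat.card P = p)
    (hd : 𝐍(P).index = p + 1) : 𝐂(P) = P := by
  have hPC : P ≤ 𝐂(P) := abelian_iff.1 (abelian_of_cyclic (isCyclic_of_prime_card' (hc ▸ hp)))
  refine le_antisymm (relIndex_eq_one.1 (by_contra fun h => ?_)) hPC
  obtain ⟨s, hs, hsd⟩ := Nat.exists_prime_and_dvd h
  obtain ⟨x, hx, h1, h2⟩ := exists_cent_elt hs hPC hsd
  obtain ⟨h3, h4⟩ := fix_cent_sylow hG hp hP (ne_bot_of_prime_card (hc ▸ hp)) hx h1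
  have h5 := fix_modEq hs 𝐍(P) h2
  have h6 : fix 𝐍(P) x = 1 := by
    rcases (Nat.lt_succ_iff.1 (hd ▸ h3)).eq_or_lt with e | e
    · simp [e] at h4
    · rwa [Nat.mod_eq_of_lt e] at h4
  rw [h6, hd, Nat.modEq_iff_dvd' (by omega), Nat.add_sub_cancel, Nat.prime_dvd_prime_iff_eq hs hp] at h5
  exact SylowIn.not_dvd (hP.of_le hPC le_top) hp (h5 ▸ hsd)

theorem cent1_eq_of_prime (hp : (Nat.card P).Prime) (hx : x ∈ P) (h1 : x ≠ 1) : 𝐂[x] = 𝐂(P) := by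
  rw [eq_zpowers_of_prime_card hp hx h1, cent_zpowers]

theorem good1_of (hG : commutator G = ⊤) (hp : p.Prime) (hP : SylowIn p P ⊤) (hc : Nat.card P = p) :
    good1 p 𝐍(P).index (P.relIndex 𝐍(P)) = true := by
  have hPC : P ≤ 𝐂(P) := abelian_iff.1 (abelian_of_cyclic (isCyclic_of_prime_card' (hc ▸ hp)))
  have h1 : P ≠ ⊥ := ne_bot_of_prime_card (hc ▸ hp)
  have e := relIndex_mul_relIndex _ _ _ hPC (centralizer_le_normalizer _)
  have e' : P.relIndex 𝐍(P) / P.relIndex 𝐂(P) = 𝐂(P).relIndex 𝐍(P) := by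
    rw [← e, Nat.mul_div_cancel_left _ (relIndex_pos' _ _)]
  refine anyLt_iff.2 ⟨P.relIndex 𝐂(P), Nat.lt_succ_of_le (Nat.le_of_dvd (relIndex_pos' _ _) (Dvd.intro _ e)), ?_⟩
  simp only [Bool.and_eq_true, Bool.or_eq_true, beq_iff_eq, bne_iff_ne, ne_eq, List.all_eq_true, anyLt_iff,
    ← Nat.dvd_iff_mod_eq_zero, ← imp_iff_not_or, e']
  refine ⟨⟨⟨⟨⟨Dvd.intro _ e, fun h => not_norm_le_cent hG hP h1 (relIndex_eq_one.1 h)⟩,
    relIndex_cent_dvd_pred_of_prime hp hc le_rfl⟩, fun s hs hd => ?_⟩, fun hd => ?_⟩, fun hd => ?_⟩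
  · have hs' : s.Prime := by fin_cases hs <;> norm_num
    obtain ⟨x, hx, h2, h3⟩ := exists_cent_elt hs' hPC hd
    obtain ⟨h4, h5⟩ := fix_cent_sylow hG hp hP h1 hx h2
    exact ⟨_, h4, h5, fix_modEq hs' _ h3⟩
  · obtain ⟨x, hx, h2, h3⟩ := exists_cent_elt Nat.prime_two hPC hd
    obtain ⟨h4, h5⟩ := fix_cent_sylow hG hp hP h1 hx h2
    exact ⟨_, h4, h5, fix_four hG _ h3⟩
  · have hC := cent_eq_of_succ hG hp hP hc hd
    refine ⟨by rw [hC, relIndex_self], fun h2 => ?_⟩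
    have hp2 : p ≠ 2 := fun e => SylowIn.not_dvd (hP.of_le le_normalizer le_top) hp (e ▸ h2)
    have ho := hp.eq_two_or_odd.resolve_left hp2
    obtain ⟨x, hx, h3, h4⟩ := exists_cent_elt Nat.prime_two le_normalizer h2
    have h5 := fix_le_two le_normalizer le_rfl (hc ▸ hd) (fun u hu h g hg =>
      eq_cj_of_le hP ((eq_zpowers_of_prime_card (hc ▸ hp) hu h).le.trans (zpowers_le.2 hg))) hx (by
        rw [eq_bot_iff]
        rintro u ⟨hu, hux⟩
        by_contra h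
        have : x ∈ P := by rw [← hC, ← cent1_eq_of_prime (hc ▸ hp) hu h]; exact mem_cent1_comm.1 hux
        exact hp2 (hP.piGrp.mem Nat.prime_two (orderOf_eq_prime h4 h3 ▸ orderOf_dvd_card_of_mem this)).symm)
    have h6 := fix_four hG 𝐍(P) h4
    have h7 := fix_pos hx
    rw [hd, Nat.ModEq] at h6
    omega

theorem two_sylow (hp : p.Prime) (hP : SylowIn p P ⊤) (hg : g ∉ 𝐍(P)) (h1 : P ≤ M) (h2 : cj g P ≤ M) :
    𝐍(P).relIndex M ∣ P.relIndex M ∧ 1 < 𝐍(P).relIndex M ∧ 𝐍(P).relIndex M % p = 1 :=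
  ⟨relIndex_dvd_of_le_left _ le_normalizer, one_lt_relIndex fun h => hg (mem_normalizer_of_cj_le
    (hP.le_of_norm' (hP.piGrp.cj g) le_top (h2.trans h))),
    mod_eq_one hp.one_lt (sylow_count hp (hP.of_le h1 le_top))⟩

theorem good2_of (hG : commutator G = ⊤) (hp : p.Prime) (hP : SylowIn p P ⊤) (ha : Nat.card P = p ^ a) (h2 : 2 ≤ a)
    (hd : 𝐍(P).index % p ^ 2 ≠ 1) : good2 (Nat.card G) p a P.index = true := by
  haveI := Fact.mk hp
  obtain ⟨g, hg, hD⟩ := exists_inf_index hp hP fun h => hd (mod_eq_one (Nat.one_lt_pow two_ne_zero hp.one_lt) h)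
  have hD1 : P ⊓ cj g P ≠ ⊥ := fun e => by
    rw [e, card_bot, one_mul, ha] at hD
    exact absurd (Nat.pow_right_injective hp.two_le (hD.trans (pow_one p).symm)) (by omega)
  have key : ∀ M : Subgroup G, M ≠ ⊤ → P ≤ M → cj g P ≤ M → (a = 2 → npp M.index = true) →
      good2 (Nat.card G) p a P.index = true := fun M hM h1 h3 h4 => by
    obtain ⟨e1, e2, e3⟩ := two_sylow hp hP hg h1 h3
    have e4 := relIndex_dvd_index_of_le h1
    refine anyLt_iff.2 ⟨P.relIndex M, Nat.lt_succ_of_le (Nat.le_of_dvd (Nat.pos_of_ne_zero index_ne_zero_of_finite) e4), ?_⟩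
    simp only [Bool.and_eq_true, Bool.or_eq_true, beq_iff_eq, bne_iff_ne, ne_eq, anyLt_iff, decide_eq_true_eq,
      ← Nat.dvd_iff_mod_eq_zero, ← imp_iff_not_or, index_div_eq' h1, idx_iff]
    exact ⟨⟨⟨e4, dvd_factorial hG hM⟩, h4⟩, _, Nat.lt_succ_of_le (Nat.le_of_dvd (relIndex_pos' _ _) e1), ⟨e1, e2⟩, e3⟩
  by_cases ha2 : a = 2
  · obtain ⟨x, hx, h1⟩ := exists_ne_one_mem' hD1
    have hc := abelian_of_card_eq_prime_sq (ha2 ▸ ha)
    exact key 𝐂[x] (cent1_ne_top hG h1) (mem_cent_iff_le_cent1.1 (abelian_iff.1 hc hx.1))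
      (mem_cent_iff_le_cent1.1 (abelian_iff.1 ((abelian_cj g).2 hc) hx.2)) fun _ => npp_of fun l hl => not_dvd_pow hG h1 hl _
  · refine key 𝐍(P ⊓ cj g P) (norm_ne_top hD1 fun e => hg ?_) ?_ ?_ fun h => absurd h ha2
    · rw [top_le_iff.1 (e.ge.trans inf_le_left), normalizer_top']
      trivial
    · exact norm_of_relIndex_eq_prime (hP.isPGroup hp) inf_le_left (relIndex_eq_of_card_eq_mul inf_le_left hD)
    · exact norm_of_relIndex_eq_prime (isPGroup_cj (hP.isPGroup hp) g) inf_le_right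
        (relIndex_eq_of_card_eq_mul inf_le_right (by rw [card_cj, hD]))

theorem good_of (hG : commutator G = ⊤) (hp : p.Prime) (hP : SylowIn p P ⊤) (ha : Nat.card P = p ^ a) (h0 : 0 < a) :
    good (Nat.card G) p a 𝐍(P).index = true := by
  haveI := Fact.mk hp
  have h1 : P ≠ ⊥ := one_lt_card_iff_ne_bot'.1 (ha ▸ Nat.one_lt_pow h0.ne' hp.one_lt)
  simp only [good, Bool.and_eq_true, Bool.or_eq_true, beq_iff_eq, bne_iff_ne, ne_eq, decide_eq_true_eq,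
    ← Nat.dvd_iff_mod_eq_zero, ← imp_iff_not_or, card_div_eq ha, index_div_eq (le_normalizer (H := P)), idx_iff]
  refine ⟨⟨⟨⟨⟨⟨index_dvd_of_le le_normalizer, mod_eq_one hp.one_lt (sylow_count_top hp hP)⟩,
    dvd_factorial hG (sylow_norm_ne_top hG hp hP h1)⟩, npp_of fun l hl => npp_sylow hG hp hP h1 hl _⟩, fun h2 h => ?_⟩,
    fun h2 => good1_of hG hp hP (by rw [ha, h2, pow_one])⟩, ?_⟩
  · obtain ⟨q, k, hq, e1, e2, e3, e4⟩ := exists_prime_of_abelian hG hp hP h1 (abelian_of_card_eq_prime_sq (h2 ▸ ha)) ha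
    refine hq.one_lt.ne' (Nat.dvd_one.1 (h ▸ Nat.dvd_gcd e1 (e4.trans (Nat.pow_sub_one_dvd_pow_sub_one p ?_))))
    obtain rfl | rfl : k = 1 ∨ k = 2 := by omega
    all_goals simp
  · by_contra h
    push Not at h
    exact h.2 (good2_of hG hp hP ha h.1.1 h.1.2)

theorem exists_sylow_card (hp : p.Prime) (h1 : p ^ a ∣ Nat.card G) (h2 : ¬ p ^ (a + 1) ∣ Nat.card G) :
    ∃ P : Subgroup G, SylowIn p P ⊤ ∧ Nat.card P = p ^ a := by
  obtain ⟨P, hP⟩ := exists_sylowIn p (⊤ : Subgroup G)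
  refine ⟨P, hP, ?_⟩
  rw [hP.card_eq_pow hp, card_top]
  congr 1
  rw [hp.pow_dvd_iff_le_factorization Nat.card_pos.ne'] at h1 h2
  omega

theorem card_mem (hG : commutator G = ⊤) (h : Nat.card G ≤ 1092) :
    Nat.card G ∈ [60, 168, 360, 504, 660, 720, 756, 1008, 1040, 1080, 1092] := by
  have h1 : 1 < Nat.card G := Finite.one_lt_card
  rcases chk_spec wit 0 bad_all (Nat.card G) (by rw [wl]; omega) with h2 | ⟨p, h2⟩
  · rw [zero_add, List.mem_cons, List.mem_cons] at h2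
    exact (h2.resolve_left (by omega)).resolve_left (by omega)
  exfalso
  simp only [bad, zero_add, Bool.and_eq_true, Bool.not_eq_true', ← Bool.not_eq_true, anyLt_iff, decide_eq_true_eq,
    beq_iff_eq, bne_iff_ne, ne_eq, ← Nat.dvd_iff_mod_eq_zero] at h2
  obtain ⟨⟨⟨h2, h3⟩, h4⟩, a, -, ⟨⟨h5, h6⟩, h7⟩, h8⟩ := h2
  have hp : p.Prime := Nat.prime_def_le_sqrt.2 ⟨h2, fun m hm h hd => h4 ⟨m, by
    have := Nat.sqrt_lt'.2 (show p < 34 ^ 2 by omega)
    omega, ⟨hm, h.trans_lt (Nat.sqrt_lt_self h2)⟩, hd⟩⟩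
  obtain ⟨P, hP, ha⟩ := exists_sylow_card hp h6 h7
  exact h8 ⟨_, Nat.lt_succ_of_le (card_div_eq ha ▸ Nat.le_of_dvd (Nat.pos_of_ne_zero index_ne_zero_of_finite)
    (index_dvd_of_le le_normalizer)), good_of hG hp hP ha h5⟩

/-- The possible Sylow numbers. -/
theorem index_mem (hG : commutator G = ⊤) (hp : p.Prime) (hP : SylowIn p P ⊤) (ha : Nat.card P = p ^ a) (h0 : 0 < a)
    {n : ℕ} (hn : Nat.card G = n) {l : List ℕ} (h : anyLt (fun d => good n p a d && !l.contains d) (n + 1) = false) :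
    𝐍(P).index ∈ l := by
  by_contra hl
  refine Bool.not_eq_true _ ▸ h <| anyLt_iff.2 ⟨𝐍(P).index, Nat.lt_succ_of_le (hn ▸ Nat.le_of_dvd Nat.card_pos
    (index_dvd_card _)), ?_⟩
  simp [← hn, good_of hG hp hP ha h0, hl]

end CA.Zas
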