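/-
Simple groups of order 60, 168, 360, 660 and 1092.
-/
import Cfsg.Agent.Lib.Zas.Filter

set_option autoImplicit false
set_option linter.unusedSectionVars false

open Cfsg Subgroup CA Equiv Matrix

namespace CA.Zas

variable {G : Type*} [Group G] [Finite G] [IsSimpleGroup G] {H K L M P Q R X : Subgroup G} {x y g : G} {p a : ℕ}

theorem perfect_of_not_comm (h : ¬ IsMulCommutative G) : commutator G = ⊤ :=
  (inferInstance : (commutator G).Normal).eq_bot_or_eq_top.resolve_left fun e => h ⟨⟨fun a b =>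
    commutatorElement_eq_one_iff_mul_comm.1 (mem_bot.1 (e.le (commutator_mem_commutator (mem_top a) (mem_top b))))⟩⟩

theorem perfect_of_card (h : ¬ (Nat.card G).Prime) : commutator G = ⊤ :=
  perfect_of_not_comm fun hc => by
    letI : CommGroup G := { (inferInstance : Group G) with mul_comm := hc.is_comm.comm }
    exact h IsSimpleGroup.prime_card

theorem rhyp_prime (hG : commutator G = ⊤) (hp : p.Prime) (hP : SylowIn p P ⊤) (hc : Nat.card P = p)
    (hd : 𝐍(P).index = p + 1) (hn : 2 * Nat.card G = p * (p ^ 2 - 1)) : RHyp P := by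
  have hC := cent_eq_of_succ hG hp hP hc hd
  refine ⟨fun u hu h => ((cent1_eq_of_prime (hc ▸ hp) hu h).trans hC).le, ?_,
    (der_cents_of_norms_cyclic (isCyclic_of_prime_card' (hc ▸ hp)) le_rfl).trans hC.le, hc ▸ hd⟩
  rw [← 𝐍(P).card_mul_index, ← card_mul_relIndex (le_normalizer (H := P)), hc, hd] at hn
  obtain ⟨k, rfl⟩ : ∃ k, p = k + 1 := ⟨p - 1, by have := hp.pos; omega⟩
  rw [show (k + 1) ^ 2 - 1 = (k + 1 + 1) * k from Nat.sub_eq_of_eq_add (by ring)] at hn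
  rw [hc, Nat.add_right_cancel_iff]
  exact Nat.eq_of_mul_eq_mul_left (show 0 < (k + 1) * (k + 1 + 1) by positivity) (by linarith)

theorem psl_prime (hp : p ∈ [5, 7, 11, 13]) (hn : 2 * Nat.card G = p * (p ^ 2 - 1)) {F : Type*} [Field F] [Fintype F]
    (hF : Fintype.card F = p) : Nonempty (G ≃* ProjectiveSpecialLinearGroup (Fin 2) F) := by
  have key : ∀ n, Nat.card G = n → ¬ n.Prime → p.Prime → p ^ 1 ∣ n → ¬ p ^ (1 + 1) ∣ n →
      anyLt (fun d => good n p 1 d && !(List.contains [p + 1] d)) (n + 1) = false →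
      Nonempty (G ≃* ProjectiveSpecialLinearGroup (Fin 2) F) := fun n h h1 hp h2 h3 h4 => by
    have hG := perfect_of_card (h ▸ h1)
    obtain ⟨P, hP, hc⟩ := exists_sylow_card hp (h ▸ h2) (h ▸ h3)
    exact (rhyp_prime hG hp hP (by simpa using hc) (by simpa using index_mem hG hp hP hc one_pos h h4) hn).equiv hG
      (by simpa [hc] using hF)
  fin_cases hp
  · exact key 60 (by omega) (by norm_num) (by norm_num) (by norm_num) (by norm_num) (by decide +kernel)
  · exact key 168 (by omega) (by norm_num) (by norm_num) (by norm_num) (by norm_num) (by decide +kernel)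
  · exact key 660 (by omega) (by norm_num) (by norm_num) (by norm_num) (by norm_num) (by decide +kernel)
  · exact key 1092 (by omega) (by norm_num) (by norm_num) (by norm_num) (by norm_num) (by decide +kernel)

theorem le_of_dvd_factorial {n j k : ℕ} (h : n ∣ j.factorial) (hk : ∀ i < k, ¬ n ∣ i.factorial) : k ≤ j :=
  not_lt.1 fun hj => hk j hj h

theorem cent_odd_ten (hG : commutator G = ⊤) (hH : H.index = 10) (hx : x ∈ H) (h3 : PiElt {3} x)
    (hu : ∀ g, x ∈ cj g H → g ∈ H) : ¬ 2 ∣ Nat.card 𝐂[x] := fun h => by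
  obtain ⟨v, hv, ho⟩ := exists_orderOf_eq_prime Nat.prime_two h
  have h1 := fix_modEq_one Nat.prime_three (piGrp_zpowers.2 h3) (cent_zpowers x ▸ hv) (zpowers_le.2 hx)
    fun g hg => hu g (hg (mem_zpowers x))
  have h2 := fix_four hG H (ho ▸ pow_orderOf_eq_one v)
  have h4 := fix_lt (x := v) (H := H) (fun e => by simp [e] at hH) (fun e => by simp [e] at ho)
  unfold Nat.ModEq at h1 h2
  omega

theorem ti_ten (hG : commutator G = ⊤) (hn : Nat.card G = 360 ∨ Nat.card G = 720) (hP : SylowIn 3 P ⊤)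
    (hc : Nat.card P = 3 ^ 2) (hd : 𝐍(P).index = 10) (hx : x ∈ P) (h1 : x ≠ 1) (g : G) (hg : x ∈ cj g 𝐍(P)) :
    g ∈ 𝐍(P) := by
  haveI := Fact.mk Nat.prime_three
  by_contra hne
  have hab := abelian_of_card_eq_prime_sq hc
  have hD : x ∈ P ⊓ cj g P := ⟨hx, mem_cj_sylow hP (hP.piGrp.piElt hx) hg⟩
  set D := P ⊓ cj g P
  have h2 : P ≤ 𝐍(D) := norms_of_abelian hab inf_le_left le_rfl
  obtain ⟨-, e2, e3⟩ := two_sylow Nat.prime_three hP hne h2 (norms_of_abelian ((abelian_cj g).2 hab) inf_le_right le_rfl)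
  have h3 := dvd_factorial hG (norm_ne_top (ne_bot_of_mem hD h1) fun e => by
    have := card_le_of_le' (e.ge.trans (inf_le_left : D ≤ P))
    rw [card_top] at this
    omega)
  have h4 := card_mul_card_le (le_top : 𝐍(P) ≤ ⊤) (le_top : cj g 𝐍(P) ≤ ⊤)
  have h5 := card_mul_card_le (M := 𝐍(P) ⊓ 𝐍(D)) (le_inf le_normalizer h2) (B := 𝐍(P) ⊓ cj g 𝐍(P))
    (le_inf inf_le_left (norms_inf inf_le_left (inf_le_right.trans (cj_normalizer g P).le)))
  have h6 := card_lt_of_lt' (inf_lt_left.2 fun e => hne (eq_cj_of_le hP (e.trans inf_le_right)) :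
    P ⊓ (𝐍(P) ⊓ cj g 𝐍(P)) < P)
  have h7 := card_dvd_of_le' (inf_le_left : P ⊓ (𝐍(P) ⊓ cj g 𝐍(P)) ≤ P)
  have h8 := card_dvd_of_le' (le_inf le_normalizer h2 : P ≤ 𝐍(P) ⊓ 𝐍(D))
  have h9 := card_inf_mul_relIndex 𝐍(P) 𝐍(D)
  have h10 := 𝐍(D).card_mul_index
  have h11 := 𝐍(P).card_mul_index
  rw [card_cj, card_top] at h4
  rw [hc] at h5 h6 h7 h8
  have h12 : Nat.card ↥(P ⊓ (𝐍(P) ⊓ cj g 𝐍(P))) ≤ 3 := by
    obtain ⟨k, hk, e⟩ := (Nat.dvd_prime_pow Nat.prime_three).1 h7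
    interval_cases k <;> omega
  have h13 := h5.trans (Nat.mul_le_mul_right _ h12)
  rw [← h9, hd] at *
  generalize Nat.card ↥(𝐍(P) ⊓ 𝐍(D)) = a at *
  generalize 𝐍(P).relIndex 𝐍(D) = s at *
  generalize 𝐍(D).index = j at *
  have h14 : 4 ≤ s := by omega
  rcases hn with hn | hn <;> rw [hn] at h3 h4 h10 h11
  · have h15 := le_of_dvd_factorial h3 (k := 6) (by decide)
    rw [show Nat.card 𝐍(P) = 36 by omega] at h4
    have : 18 * 4 * 6 ≤ a * s * j := by gcongr; omega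
    omega
  · have h15 := le_of_dvd_factorial h3 (k := 7) (by decide)
    rw [show Nat.card 𝐍(P) = 72 by omega] at h4
    have : 27 * 4 * 7 ≤ a * s * j := by gcongr; omega
    omega

theorem cent_ten (hG : commutator G = ⊤) (hn : Nat.card G = 360 ∨ Nat.card G = 720) (hP : SylowIn 3 P ⊤)
    (hc : Nat.card P = 3 ^ 2) (hd : 𝐍(P).index = 10) (hx : x ∈ P) (h1 : x ≠ 1) : 𝐂[x] = P := by
  haveI := Fact.mk Nat.prime_three
  have h2 := ti_ten hG hn hP hc hd hx h1
  have h3 := cent_odd_ten hG hd (le_normalizer hx) (hP.piGrp.piElt hx) h2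
  have h4 : 𝐂[x] ≤ 𝐍(P) := fun g hg => h2 g (mem_cj.2 (by
    rw [mul_assoc, ← mem_cent1_iff.1 hg, inv_mul_cancel_left]
    exact le_normalizer hx))
  have h5 : P ≤ 𝐂[x] := mem_cent_iff_le_cent1.1 (abelian_iff.1 (abelian_of_card_eq_prime_sq hc) hx)
  have h6 := card_dvd_of_le' h4
  have h7 := 𝐍(P).card_mul_index
  have h8 : Nat.card 𝐂[x] ∣ 9 * 2 ^ 3 := h6.trans (by
    rw [hd] at h7
    rcases hn with hn | hn
    · rw [show Nat.card 𝐍(P) = 36 by omega]; norm_num
    · rw [show Nat.card 𝐍(P) = 72 by omega]; norm_num)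
  exact (eq_of_le_of_card_le h5 (hc ▸ Nat.le_of_dvd (by norm_num)
    ((((Nat.prime_two.coprime_iff_not_dvd.2 h3).symm.pow_right 3)).dvd_of_dvd_mul_right h8))).symm

theorem psl_nine (hn : Nat.card G = 360) {F : Type*} [Field F] [Fintype F] (hF : Fintype.card F = 9) :
    Nonempty (G ≃* ProjectiveSpecialLinearGroup (Fin 2) F) := by
  haveI := Fact.mk Nat.prime_two
  have hG := perfect_of_card (G := G) (by rw [hn]; norm_num)
  obtain ⟨P, hP, hc⟩ := exists_sylow_card (G := G) (a := 2) Nat.prime_three (by rw [hn]; norm_num) (by rw [hn]; norm_num)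
  have hd : 𝐍(P).index = 10 := by
    simpa using index_mem hG Nat.prime_three hP hc two_pos hn (l := [10]) (by decide +kernel)
  have h1 := 𝐍(P).card_mul_index
  have h2 := card_mul_relIndex (le_normalizer (H := P))
  have h3 : P.relIndex 𝐍(P) = 2 ^ 2 := by rw [hc] at h2; rw [hd] at h1; omega
  refine RHyp.equiv (Q := P) ⟨fun u hu h => (cent_ten hG (.inl hn) hP hc hd hu h).le, by rw [hc, h3]; rfl, ?_,
    by rw [hc, hd]; rfl⟩ hG (by rw [hF, hc]; rfl)
  exact (abelian_quo_iff le_rfl).1 (abelian_of_card_eq_prime_sq (p := 2) (by rw [card_quo le_rfl, h3]))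

theorem alt_five (hn : Nat.card G = 60) : Nonempty (G ≃* alternatingGroup (Fin 5)) := by
  haveI := Fact.mk Nat.prime_five
  obtain ⟨e⟩ := psl_prime (G := G) (p := 5) (F := ZMod 5) (by simp) (by rw [hn]; rfl) (by simp)
  obtain ⟨e'⟩ := psl_prime (G := alternatingGroup (Fin 5)) (p := 5) (F := ZMod 5) (by simp)
    (by rw [two_mul_nat_card_alternatingGroup, Nat.card_perm]; simp [Nat.factorial]) (by simp)
  exact ⟨e.trans e'.symm⟩

theorem card_alt_six : Nat.card (alternatingGroup (Fin 6)) = 360 := by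
  rw [nat_card_alternatingGroup]; simp [Nat.factorial]

theorem alt_six (hn : Nat.card G = 360) : Nonempty (G ≃* alternatingGroup (Fin 6)) := by
  haveI := Fact.mk Nat.prime_three
  haveI := alternatingGroup.isSimpleGroup (α := Fin 6) (by simp)
  letI : Fintype (GaloisField 3 2) := Fintype.ofFinite _
  have hF : Fintype.card (GaloisField 3 2) = 9 := by rw [← Nat.card_eq_fintype_card, GaloisField.card 3 2 two_ne_zero]; rfl
  obtain ⟨e⟩ := psl_nine hn hF
  obtain ⟨e'⟩ := psl_nine card_alt_six hF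
  exact ⟨e.trans e'.symm⟩

omit [IsSimpleGroup G] in
/-- The arithmetical form of Frobenius' criterion. -/
theorem frobenius_dvd (hG : commutator G = ⊤) (hp : p.Prime) (hd : p ∣ Nat.card G) :
    ∃ (X Q : Subgroup G) (q n k : ℕ), Nat.card X = p ^ n ∧ q.Prime ∧ q ≠ p ∧ PiGrp {q} Q ∧ Q ≤ 𝐍(X) ∧ ¬ Q ≤ 𝐂(X) ∧
      p ^ n * q ∣ Nat.card G ∧ 0 < k ∧ k ≤ n ∧ q ∣ p ^ k - 1 := by
  haveI := Fact.mk hp
  obtain ⟨X, Q, q, hX, -, hq, hqp, hQ, h1, h2⟩ := frobenius_perfect hG hp hd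
  obtain ⟨n, hn⟩ := (piGrp_singleton_iff_card hp).1 hX
  obtain ⟨k, h3, h4, h5⟩ := exists_dvd_pow_sub_one_of_not_cents hq hqp hQ hn h1 h2
  refine ⟨X, Q, q, n, k, hn, hq, hqp, hQ, h1, h2, ?_, h3, h4, h5⟩
  exact (((Nat.coprime_primes hp hq).2 hqp.symm).pow_left n).mul_dvd_of_dvd_of_dvd (hn ▸ card_subgroup_dvd_card X)
    ((hQ.dvd_card_of_ne_bot fun e => h2 (e ▸ bot_le)).trans (card_subgroup_dvd_card Q))

theorem dvd_of_even (hG : commutator G = ⊤) (h2 : 2 ∣ Nat.card G) :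
    12 ∣ Nat.card G ∨ 16 ∣ Nat.card G ∨ 56 ∣ Nat.card G := by
  obtain ⟨X, Q, q, n, k, -, hq, -, -, -, -, h1, h3, h4, h5⟩ := frobenius_dvd hG Nat.prime_two h2
  by_cases h6 : 4 ≤ n
  · exact .inr (.inl ((pow_dvd_pow 2 h6).trans ((Dvd.intro _ rfl).trans h1)))
  have h7 := (Nat.mul_dvd_mul_right (pow_dvd_pow 2 h4) q).trans h1
  have h8 : k ≤ 3 := by omega
  interval_cases k
  · exact absurd (Nat.dvd_one.1 h5) hq.one_lt.ne'
  · obtain rfl := (Nat.prime_dvd_prime_iff_eq hq Nat.prime_three).1 h5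
    exact .inl h7
  · obtain rfl := (Nat.prime_dvd_prime_iff_eq hq (by norm_num : Nat.Prime 7)).1 h5
    exact .inr (.inr h7)

end CA.Zas
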