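/-
The Brauer-Suzuki-Wall theorem, part 1: the configuration and the class function tools.
-/
import Cfsg.Agent.Lib.Zas.Small
import Cfsg.Agent.Lib.BS.Char3
import Cfsg.Agent.Lib.BG.Count
import Cfsg.Agent.Lib.G.Frob

set_option autoImplicit false
set_option linter.unusedSectionVars false

open Cfsg Subgroup CA CA.Ch
open scoped ComplexConjugate

namespace CA.Zas

section tools
variable {G : Type*} [Group G] [Finite G]

theorem exists_norm_ge {χ : G → ℂ} (h : IsVC χ) {g : G} (h0 : χ g ≠ 0) {c : ℕ} (hc : 0 < c) (ha : AInt (χ g / c)) :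
    ∃ j, j.Coprime (orderOf g) ∧ (c : ℝ) ≤ ‖χ (g ^ j)‖ := by
  classical
  have ho := orderOf_pos g
  haveI : NeZero (orderOf g) := ⟨ho.ne'⟩
  have h1 : (c : ℂ) ≠ 0 := by exact_mod_cast hc.ne'
  let α : (ZMod (orderOf g))ˣ → ℂ := fun k => χ (g ^ (k : ZMod (orderOf g)).val) / c
  have hσ : ∀ k, ∃ σ : ℂ ≃+* ℂ, α k = σ (χ g / c) := fun k => by
    obtain ⟨σ, hσ⟩ := exists_ringEquiv_pow ho (ZMod.val_coe_unit_coprime k)
    refine ⟨σ, ?_⟩
    rw [map_div₀, map_natCast]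
    exact congrArg (· / (c : ℂ)) (h.ringHom_apply σ.toRingHom hσ).symm
  by_contra hne
  push Not at hne
  have hle : ∀ k, ‖α k‖ < 1 := fun k => by
    rw [norm_div, div_lt_one (norm_pos_iff.2 h1), Complex.norm_natCast]
    exact hne _ (ZMod.val_coe_unit_coprime k)
  have hN : AInt (∏ k, α k) := IsIntegral.prod _ fun k _ => by
    obtain ⟨σ, e⟩ := hσ k
    rw [e]
    exact ha.ringHom σ.toRingHom
  obtain ⟨n, hn⟩ := hN.int_of_fixed fun σ => by
    obtain ⟨j, hj, hσ⟩ := exists_pow_of_ringHom σ.toRingHom ho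
    rw [map_prod]
    refine Finset.prod_equiv (Equiv.mulRight (ZMod.unitOfCoprime j hj)) (by simp) fun k _ => ?_
    simp only [α, map_div₀, map_natCast]
    refine congrArg (· / (c : ℂ)) ((h.ringHom_apply σ.toRingHom (k := j) fun z hz => hσ z ?_).trans ?_)
    · obtain ⟨c, hc⟩ := orderOf_pow_dvd (x := g) (k : ZMod (orderOf g)).val
      rw [hc, pow_mul, hz, one_pow]
    · congr 1
      rw [← pow_mul, pow_eq_pow_iff_modEq]
      simp only [Equiv.coe_mulRight, Units.val_mul, ZMod.coe_unitOfCoprime, ZMod.val_mul, ZMod.val_natCast]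
      exact ((Nat.mod_modEq _ _).trans ((Nat.mod_modEq _ _).mul_left _)).symm
  have hn0 : n ≠ 0 := by
    rintro rfl
    obtain ⟨k, -, hk⟩ := Finset.prod_eq_zero_iff.1 (hn.trans Int.cast_zero)
    obtain ⟨σ, e⟩ := hσ k
    rw [e, map_eq_zero_iff σ σ.injective] at hk
    exact div_ne_zero h0 h1 hk
  have h2 : 1 ≤ ‖∏ k, α k‖ := by
    rw [hn, Complex.norm_intCast]
    exact_mod_cast Int.one_le_abs hn0
  have h3 : ‖∏ k, α k‖ ≤ ‖α 1‖ := by
    rw [norm_prod, ← Finset.mul_prod_erase _ _ (Finset.mem_univ 1)]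
    exact mul_le_of_le_one_right (norm_nonneg _) (Finset.prod_le_one (fun _ _ => norm_nonneg _) fun k _ => (hle k).le)
  linarith [hle 1]

theorem aint_div {χ : G → ℂ} (h : IsSIrr χ) (g : G) {d : ℤ} (hd : χ 1 = d) {e w : ℤ} (he : IsCoprime w e) (he0 : e ≠ 0)
    (hw : (𝐂[g]).index * e = w * d) : AInt (χ g / e) := by
  have h1 : AInt (((𝐂[g]).index : ℂ) * χ g / χ 1) := by
    rw [← card_isConj]
    rcases h with h | h
    · exact h.aint_class g
    · simpa using h.aint_class g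
  obtain ⟨a, b, hab⟩ := he
  have := ((aint_intCast a).mul h1).add ((aint_intCast b).mul (h.isVC.aint g))
  convert this using 1
  have h2 := h.ne_zero_one
  have h3 : (e : ℂ) ≠ 0 := by exact_mod_cast he0
  have hab' : (a : ℂ) * w + b * e = 1 := by exact_mod_cast hab
  have hw' : ((𝐂[g]).index : ℂ) * e = w * d := by exact_mod_cast hw
  rw [hd] at h2 ⊢
  field_simp
  linear_combination (-χ g * d) * hab' - χ g * a * hw'

theorem column_bessel {ι : Type*} {f : ι → G → ℂ} {s : Finset ι} (h : ON f s) (hf : ∀ i ∈ s, IsCF (f i)) (g : G) :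
    ∑ i ∈ s, ‖f i g‖ ^ 2 ≤ Nat.card 𝐂[g] := by
  have h1 := h.bessel (∑ χ ∈ irr G, conj (χ g) • χ)
  have h2 : ON id ((irr G : Finset (G → ℂ)) : Set (G → ℂ)) := by
    simpa only [irr, Set.Finite.coe_toFinset] using on_irr
  have h3 := h2.nrm_sum fun χ => conj (χ g)
  simp only [id, RCLike.norm_conj, sum_norm_sq_irr] at h3
  rw [h3] at h1
  refine le_of_eq_of_le (Finset.sum_congr rfl fun i hi => ?_) h1
  rw [← ip_conj, RCLike.norm_conj, ip_sum_right, (hf i hi).expand_apply g]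
  simp [ip_smul_right, mul_comm]

theorem column_three {x y : G → ℂ} (hx : IsSIrr x) (hy : IsSIrr y) (x1 : ⟪x, 1⟫ = 0) (y1 : ⟪y, 1⟫ = 0)
    (xy : ⟪x, y⟫ = 0) (g : G) : 1 + ‖x g‖ ^ 2 + ‖y g‖ ^ 2 ≤ Nat.card 𝐂[g] := by
  have := column_bessel (f := ![1, x, y]) (s := Finset.univ) (on_of_ip fun i _ j _ => by
    fin_cases i <;> fin_cases j <;>
      simp [hx.ip_self, hy.ip_self, x1, y1, xy, ip_eq_zero_symm x1, ip_eq_zero_symm y1, ip_eq_zero_symm xy, ip_one_one])
    (fun i _ => by fin_cases i; exacts [isCF_one, hx.isCF, hy.isCF]) g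
  simpa [Fin.sum_univ_three] using this

theorem int_of_sq {χ : G → ℂ} (h : IsVC χ) {t : G} (ht : t * t = 1) : ∃ n : ℤ, χ t = n :=
  (h.aint t).int_of_fixed fun σ => by
    have := h.ringHom_apply σ.toRingHom (g := t) (k := 1) fun z hz => by
      obtain ⟨c, hc⟩ := orderOf_dvd_of_pow_eq_one ((pow_two t).trans ht)
      have : z ^ 2 = 1 := by rw [hc, pow_mul, hz, one_pow]
      rcases sq_eq_one_iff.1 this with rfl | rfl <;> simp
    simpa using this

theorem sirr_one_ne (hG : commutator G = ⊤) {χ : G → ℂ} (h : IsSIrr χ) (h1 : ⟪χ, 1⟫ = 0) : χ 1 ≠ 1 ∧ χ 1 ≠ -1 := by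
  have key : ∀ ψ : G → ℂ, IsIrr ψ → ⟪ψ, 1⟫ = 0 → ψ 1 ≠ 1 ∧ ψ 1 ≠ -1 := fun ψ hψ h1 => ⟨fun e => by
    obtain ⟨l, rfl⟩ := hψ.isChar.exists_lin e
    exact hψ.cfker_ne_top (fun e => by simp [e, ip_one_one] at h1) (top_le_iff.1 (hG ▸ commutator_le_cfker_lin l)),
    fun e => by
      obtain ⟨n, -, hn⟩ := hψ.nat
      rw [hn] at e
      have : (n : ℤ) = -1 := by exact_mod_cast e
      omega⟩
  rcases h with h | h
  · exact key χ h h1
  · have := key _ h (by rw [ip_neg_left, h1, neg_zero])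
    exact ⟨fun e => this.2 (by simp [e]), fun e => this.1 (by simp [e])⟩

/-- Counting the elements of the conjugates of a self-centralizing subgroup. -/
theorem ncard_of_cc {A : Subgroup G} (hA : ∀ w ∈ A, w ≠ 1 → 𝐂[w] = A) :
    {y : G | y ≠ 1 ∧ y ^ Nat.card A = 1}.ncard = (Nat.card A - 1) * 𝐍(A).index := by
  rw [← BG.ncard_sharp, ← BG.ncard_classSupport_of_TI (L := 𝐍(A))]
  · congr 1
    ext y
    constructor
    · rintro ⟨h1, h2⟩
      obtain ⟨p, hp, hd⟩ := Nat.exists_prime_and_dvd (mt orderOf_eq_one_iff.1 h1)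
      haveI := Fact.mk hp
      obtain ⟨w, hw, ho⟩ := exists_orderOf_eq_prime hp (hd.trans (orderOf_dvd_of_pow_eq_one h2))
      obtain ⟨P, hP, hwP⟩ := exists_sylowIn_ge (piGrp_zpowers.2 ((piElt_of_orderOf_prime (π := {p}) hp ho).2 rfl)) le_top
      have hw1 : w ≠ 1 := fun e => hp.one_lt.ne (by simpa [e] using ho)
      obtain ⟨z, hz, hz1⟩ := exists_ne_one_mem' (center_ne_bot_pgroup (hP.isPGroup hp) (ne_bot_of_mem (hwP (mem_zpowers w)) hw1))
      have hzA : z ∈ A := hA w hw hw1 ▸ cent_le_cent1 (hwP (mem_zpowers w)) hz.2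
      have hPA : P ≤ A := hA z hzA hz1 ▸ mem_cent_iff_le_cent1.1 hz.2
      have hv := orderOf_pow_orderOf_div (orderOf_pos y).ne' hd
      obtain ⟨g, -, hg⟩ := hP.exists_conj_mem (mem_top _) ((piElt_of_orderOf_prime hp hv).2 rfl)
      refine ⟨g * y * g⁻¹, BG.mem_sharp.2 ⟨?_, fun e => h1 (conj_eq_one_iff.1 e)⟩, g⁻¹, mem_top _, by group⟩
      rw [← hA _ (hPA hg) fun e => hp.one_lt.ne (by simpa [conj_eq_one_iff.1 e] using hv), ← cj_centralizer_singleton,
        conj_mem_cj, mem_cent1_iff]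
      exact (Commute.self_pow y _).eq
    · rintro ⟨a, ha, g, -, rfl⟩
      obtain ⟨h1, h2⟩ := BG.mem_sharp.1 ha
      exact ⟨fun e => h2 (conj_eq_one_iff.1 e), by
        rw [conj_pow, orderOf_dvd_iff_pow_eq_one.1 (orderOf_dvd_card_of_mem h1)]; simp⟩
  · intro g hg x hx
    obtain ⟨h1, h2⟩ := BG.mem_sharp.1 hx
    exact BG.mem_sharp.2 ⟨conj_mem_of_mem_normalizer hg h1, fun e => h2 (conj_eq_one_iff.1 e)⟩
  · intro g x hx hy
    obtain ⟨h1, h2⟩ := BG.mem_sharp.1 hx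
    obtain ⟨h3, h4⟩ := BG.mem_sharp.1 hy
    rw [mem_normalizer_iff_cj]
    conv_lhs => rw [← hA x h1 h2, cj_centralizer_singleton, hA _ h3 h4]

end tools

/-- The configuration of the Brauer-Suzuki-Wall theorem. -/
structure BSW {G : Type*} [Group G] (K : Subgroup G) (t s : G) : Prop where
  t2 : t * t = 1
  t1 : t ≠ 1
  tK : t ∈ K
  s2 : s * s = 1
  sK : s ∉ K
  inv : ∀ x ∈ K, s * x * s⁻¹ = x⁻¹
  uniq : ∀ x ∈ K, x * x = 1 → x ≠ 1 → x = t
  ti : ∀ x ∈ K, x ≠ 1 → ∀ g, g * x * g⁻¹ ∈ K → g ∈ K ∨ g * s ∈ K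
  cls : ∀ u, u * u = 1 → u ≠ 1 → IsConj t u

/-- Elements not conjugate to an element of `K`. -/
def OT {G : Type*} [Group G] (K : Subgroup G) (y : G) : Prop := ∀ g, g * y * g⁻¹ ∉ K

theorem OT.ne_one {G : Type*} [Group G] {K : Subgroup G} {y : G} (h : OT K y) : y ≠ 1 := fun e =>
  h 1 (by simp [e])

theorem ot_of_coprime {G : Type*} [Group G] [Finite G] {K : Subgroup G} {y : G} (h1 : y ≠ 1)
    (h : (orderOf y).Coprime (Nat.card K)) : OT K y := fun g hg =>
  h1 (orderOf_eq_one_iff.1 (h.eq_one_of_dvd (orderOf_conj' g y ▸ orderOf_dvd_card_of_mem hg)))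

/-- The involutions. -/
def invs (G : Type*) [Group G] [Fintype G] [DecidableEq G] : Finset G := Finset.univ.filter fun a => a * a = 1 ∧ a ≠ 1

theorem mem_invs {G : Type*} [Group G] [Fintype G] [DecidableEq G] {a : G} : a ∈ invs G ↔ a * a = 1 ∧ a ≠ 1 := by
  simp [invs]

/-- The number of factorizations as a product of two involutions. -/
def beta {G : Type*} [Group G] [Fintype G] [DecidableEq G] (y : G) : ℕ := ((invs G).filter fun a => a * y ∈ invs G).card

section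
variable {G : Type*} [Group G] [Fintype G] [DecidableEq G]

theorem conj_mem_invs {a g : G} : g * a * g⁻¹ ∈ invs G ↔ a ∈ invs G := by
  simp only [mem_invs, conj_mul, ne_eq, conj_eq_one_iff]

theorem isCF_beta : IsCF fun y : G => (beta y : ℂ) := fun y g => by
  simp only [beta, Nat.cast_inj]
  refine (Finset.card_bijective _ (MulAut.conj g).bijective fun a => ?_).symm
  simp only [Finset.mem_filter, MulAut.conj_apply, conj_mem_invs, conj_mul]

theorem sum_beta (φ : G → ℂ) : ∑ y, (beta y : ℂ) * φ y = ∑ b ∈ invs G, ∑ a ∈ invs G, φ (a * b) := by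
  simp only [beta, Finset.card_filter, Nat.cast_sum, Finset.sum_mul]
  rw [Finset.sum_comm, Finset.sum_comm (s := invs G) (t := invs G)]
  refine Finset.sum_congr rfl fun a ha => ?_
  rw [← Equiv.sum_comp (Equiv.mulLeft a)]
  simp [Inv.mul_mul_cancel (mem_invs.1 ha).1]

theorem beta_one : beta (1 : G) = (invs G).card := by simp [beta, Finset.filter_true_of_mem]

theorem beta_le (y : G) : beta y ≤ Nat.card 𝐂[y] := by
  rcases Finset.eq_empty_or_nonempty ((invs G).filter fun a => a * y ∈ invs G) with e | ⟨u, hu⟩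
  · simp [beta, e]
  have key : ∀ a ∈ (invs G).filter fun a => a * y ∈ invs G, a * y = y⁻¹ * a := fun a ha => by
    obtain ⟨h1, h2⟩ := Finset.mem_filter.1 ha
    rw [← Inv.inv_eq_self (mem_invs.1 h2).1, mul_inv_rev, Inv.inv_eq_self (mem_invs.1 h1).1]
  rw [← BG.ncard_coset u, beta, ← Set.ncard_coe_finset]
  refine Set.ncard_le_ncard fun a ha => mem_cent1_iff.2 ?_
  calc u⁻¹ * a * y = u⁻¹ * (y⁻¹ * u) * (u⁻¹ * a) := by rw [mul_assoc, key a ha]; group
    _ = _ := by rw [← key u hu]; group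

end

namespace BSW
variable {G : Type*} [Group G] [Finite G] {K : Subgroup G} {t s x y g : G} (h : BSW K t s)
include h

theorem comm {a b : G} (ha : a ∈ K) (hb : b ∈ K) : a * b = b * a := inv_injective (by
  rw [← h.inv _ (mul_mem ha hb), mul_inv_rev, ← h.inv a ha, ← h.inv b hb]; group)

theorem abelian : IsMulCommutative K := abelian_iff'.2 fun _ ha _ hb => h.comm ha hb

theorem sq_of (hg : g * s ∈ K) : g * g = 1 := by
  have := h.inv _ hg
  rw [mul_assoc, mul_inv_cancel_right, mul_inv_rev, Inv.inv_eq_self h.s2, mul_right_inj] at this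
  exact mul_eq_one_iff_eq_inv.2 this

theorem inv_of (hg : g * s ∈ K) (hx : x ∈ K) : g * x * g⁻¹ = x⁻¹ := by
  calc _ = g * s * (s * x * s⁻¹) * (g * s)⁻¹ := by
        simp [mul_assoc, Inv.mul_mul_cancel h.s2, Inv.inv_eq_self h.s2]
    _ = _ := by rw [h.inv x hx, h.comm hg (inv_mem hx), mul_inv_cancel_right]

theorem not_mem (hg : g * s ∈ K) : g ∉ K := fun h1 => h.sK ((mul_mem_cancel_left h1).1 hg)

theorem mem_cent : g ∈ 𝐂[t] ↔ g ∈ K ∨ g * s ∈ K :=
  ⟨fun hg => h.ti t h.tK h.t1 g (by rw [mem_cent1_iff.1 hg, mul_inv_cancel_right]; exact h.tK), fun hg =>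
    mem_cent1_iff.2 (hg.elim (fun hg => h.comm hg h.tK) fun hg => by
      rw [← mul_inv_eq_iff_eq_mul, h.inv_of hg h.tK, Inv.inv_eq_self h.t2])⟩

theorem le_cent : K ≤ 𝐂[t] := fun _ hg => h.mem_cent.2 (.inl hg)

theorem card_cent : Nat.card 𝐂[t] = Nat.card K * 2 := by
  rw [← card_mul_relIndex h.le_cent, relIndex_eq_two_iff.2 ⟨s, h.mem_cent.2 (.inr (h.s2 ▸ one_mem K)), fun b hb =>
    (h.mem_cent.1 hb).elim (fun h1 => .inr ⟨h1, fun h2 => h.not_mem h2 h1⟩) fun h1 => .inl ⟨h1, h.not_mem h1⟩⟩]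

theorem card_eq : Nat.card K * 2 * (𝐂[t]).index = Nat.card G := by rw [← h.card_cent, card_mul_index]

theorem two_dvd : 2 ∣ Nat.card K := Inv.orderOf_eq_two h.t2 h.t1 ▸ orderOf_dvd_card_of_mem h.tK

theorem not_ot_of_sq (hy : y * y = 1) : ¬ OT K y := fun hy' => by
  obtain ⟨g, hg⟩ := isConj_iff.1 (h.cls y hy hy'.ne_one).symm
  exact hy' g (hg ▸ h.tK)

theorem ot_cent (hx : OT K x) (hy : y ∈ 𝐂[x]) (h1 : y ≠ 1) : OT K y := fun g hg => by
  rcases h.ti _ hg (fun e => h1 (conj_eq_one_iff.1 e)) (g * x * g⁻¹) (by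
    rwa [conj_mul, ← mem_cent1_iff.1 hy, ← conj_mul, mul_inv_cancel_right]) with h2 | h2
  · exact hx g h2
  · exact h.not_ot_of_sq (conj_eq_one_iff.1 (conj_mul.symm.trans (h.sq_of h2))) hx

theorem ncard_invs : {u : G | u * u = 1 ∧ u ≠ 1}.ncard = (𝐂[t]).index := by
  rw [← card_isConj, ← Nat.card_coe_set_eq]
  refine Nat.card_congr (Equiv.subtypeEquivRight fun u => ⟨fun hu => h.cls u hu.1 hu.2, fun hu => ?_⟩)
  obtain ⟨g, rfl⟩ := isConj_iff.1 hu
  exact ⟨Inv.conj_mul_self h.t2 g, fun e => h.t1 (conj_eq_one_iff.1 e)⟩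

theorem ncard_coset : {u : G | u * s ∈ K}.ncard = Nat.card K := by
  rw [← BG.ncard_coe_subgroup]
  exact Set.ncard_preimage_of_injective_subset_range (mul_left_injective s)
    fun x _ => ⟨x * s⁻¹, by simp⟩

theorem index_modEq : (𝐂[t]).index ≡ 1 [MOD Nat.card K] := by
  obtain ⟨j, hj⟩ := card_dvd_ncard_of_conj (H := K) (S := {u : G | u * u = 1 ∧ u ∉ 𝐂[t]})
    (fun g hg u hu => ⟨Inv.conj_mul_self hu.1 g, fun h1 => hu.2
      ((mul_mem_cancel_left (h.le_cent hg)).1 ((mul_mem_cancel_right (inv_mem (h.le_cent hg))).1 h1))⟩)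
    fun g hg u hu e => by_contra fun h1 => hu.2 (h.mem_cent.2 (h.ti g hg h1 u (by rwa [← e, mul_inv_cancel_right])))
  have e : {u : G | u * u = 1 ∧ u ≠ 1} = insert t ({u : G | u * s ∈ K} ∪ {u : G | u * u = 1 ∧ u ∉ 𝐂[t]}) := by
    ext u
    constructor
    · rintro ⟨h1, h2⟩
      by_cases h3 : u ∈ 𝐂[t]
      · exact (h.mem_cent.1 h3).imp (fun h4 => h.uniq u h4 h1 h2) .inl
      · exact .inr (.inr ⟨h1, h3⟩)
    · rintro (rfl | h1 | h1)
      · exact ⟨h.t2, h.t1⟩
      · exact ⟨h.sq_of h1, fun e => h.not_mem h1 (e ▸ one_mem K)⟩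
      · exact ⟨h1.1, fun e => h1.2 (e ▸ one_mem _)⟩
  rw [← h.ncard_invs, e, Set.ncard_insert_of_notMem, Set.ncard_union_eq, h.ncard_coset, hj]
  · simp [Nat.ModEq, Nat.add_mod]
  · exact Set.disjoint_left.2 fun u h1 h2 => h2.2 (h.mem_cent.2 (.inr h1))
  · rintro (h1 | h1)
    · exact h.not_mem h1 h.tK
    · exact h1.2 (self_mem_cent1 t)

theorem coprime_index : (Nat.card K * 2).Coprime (𝐂[t]).index := by
  have h1 : (Nat.card K).Coprime (𝐂[t]).index := by
    rw [Nat.Coprime, Nat.gcd_comm, h.index_modEq.gcd_eq, Nat.gcd_one_left]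
  exact h1.mul_left (h1.coprime_dvd_left h.two_dvd)

theorem ot_card (hx : OT K x) : Nat.card 𝐂[x] ∣ (𝐂[t]).index := by
  refine Nat.Coprime.dvd_of_dvd_mul_left (coprime_iff_forall_prime.2 fun p hp hd hk => ?_)
    (h.card_eq ▸ card_subgroup_dvd_card _)
  obtain ⟨y, hy, ho⟩ := exists_orderOf_eq_prime hp hd
  have h1 := h.ot_cent hx hy fun e => hp.one_lt.ne (by simpa [e] using ho)
  by_cases h2 : p = 2
  · exact h.not_ot_of_sq (Inv.mul_self_of_orderOf (ho.trans h2)) h1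
  obtain ⟨P, hP⟩ := exists_sylowIn p K
  have hP' := hP.of_not_dvd_relIndex le_top hp fun h3 => by
    rw [relIndex_top_right, ← relIndex_mul_index h.le_cent, relIndex_eq_of_card_eq_mul h.le_cent h.card_cent] at h3
    rcases (Nat.Prime.dvd_mul hp).1 h3 with h3 | h3
    · exact h2 ((Nat.prime_dvd_prime_iff_eq hp Nat.prime_two).1 h3)
    · exact coprime_iff_forall_prime.1 h.coprime_index p hp hk h3
  obtain ⟨g, -, hg⟩ := hP'.exists_conj_mem (mem_top y) ((piElt_of_orderOf_prime hp ho).2 rfl)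
  exact h1 g (hP.le hg)

theorem ind_apply (φ : K → ℂ) {k : K} (hk : k ≠ 1) : ind K.subtype φ k = φ k + φ k⁻¹ := by
  classical
  let := Fintype.ofFinite G
  rw [ind_def']
  have key : ∀ x : G, ext0 K.subtype φ (x * k * x⁻¹) = (if x ∈ K then φ k else 0) + if x * s ∈ K then φ k⁻¹ else 0 := by
    intro x
    by_cases h1 : x ∈ K
    · rw [if_pos h1, if_neg fun h2 => h.not_mem h2 h1, add_zero,
        ext0_of_eq _ φ (h := k) (by rw [h.comm h1 k.2, mul_inv_cancel_right]; rfl)]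
    by_cases h2 : x * s ∈ K
    · rw [if_neg h1, if_pos h2, zero_add, ext0_of_eq _ φ (h := k⁻¹) (h.inv_of h2 k.2).symm]
    · rw [if_neg h1, if_neg h2, add_zero, ext0_subtype_not_mem]
      exact fun h3 => (h.ti k k.2 (by simpa using hk) x h3).elim h1 h2
  simp only [key, Finset.sum_add_distrib, Finset.sum_ite, Finset.sum_const, smul_zero, add_zero, nsmul_eq_mul]
  have c1 : ((Finset.univ.filter fun x : G => x ∈ K).card : ℂ) = Nat.card K := by
    rw [Nat.card_eq_fintype_card, Fintype.card_subtype]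
  have c2 : ((Finset.univ.filter fun x : G => x * s ∈ K).card : ℂ) = Nat.card K := by
    rw [← h.ncard_coset, ← Set.ncard_coe_finset]
    simp
  rw [c1, c2, ← mul_add, inv_mul_cancel_left₀ (Ch.card_ne_zero' _)]

omit h in
theorem ind_ot (φ : K → ℂ) (hy : OT K y) : ind K.subtype φ y = 0 :=
  ind_eq_zero _ fun x g e => absurd (e ▸ x.2) (hy g)

theorem ip_ind {φ : K → ℂ} (h1 : φ 1 = 0) (ψ : K → ℂ) :
    ⟪ind K.subtype φ, ind K.subtype ψ⟫ = ⟪φ, ψ⟫ + ⟪φ, fun x => ψ x⁻¹⟫ := by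
  rw [ip_ind_left _ _ (isCF_ind _ _), ← ip_add_right]
  exact ip_congr_support fun k hk => h.ind_apply ψ fun e => hk (e ▸ h1)

variable [Fintype G] [DecidableEq G]

theorem card_invs : (invs G).card = (𝐂[t]).index := by
  rw [← h.ncard_invs, ← Set.ncard_coe_finset]
  simp [invs]

theorem beta_eq (hx : x ∈ K) (h1 : x ≠ 1) : beta x = Nat.card K := by
  rw [← h.ncard_coset, beta, ← Set.ncard_coe_finset]
  congr 1
  ext a
  simp only [Finset.coe_filter, Set.mem_setOf_eq, mem_invs]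
  constructor
  · rintro ⟨⟨h2, h3⟩, h4, h5⟩
    have e : a * x * a⁻¹ = x⁻¹ := by rw [← Inv.inv_eq_self h4, mul_inv_rev, Inv.inv_eq_self h2, Inv.mul_cancel_right h2]
    refine (h.ti x hx h1 a (e ▸ inv_mem hx)).resolve_left fun h6 => h3 ?_
    have := h.uniq _ (mul_mem h6 hx) h4 h5
    rw [h.uniq a h6 h2 h3, mul_eq_left] at this
    exact absurd this h1
  · intro ha
    have e : a * x * s ∈ K := by
      rw [show a * x * s = a * s * (s⁻¹ * x * s⁻¹⁻¹) by group, Inv.inv_eq_self h.s2, h.inv x hx]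
      exact mul_mem ha (inv_mem hx)
    exact ⟨⟨h.sq_of ha, fun e => h.not_mem ha (e ▸ one_mem K)⟩, h.sq_of e, fun e' => h.not_mem e (e' ▸ one_mem K)⟩

open Classical in
theorem sum_cf {φ : G → ℂ} (hφ : IsCF φ) : ∑ y, φ y =
    φ 1 + (𝐂[t]).index * (∑ x : K, φ x - φ 1) + ∑ y with OT K y, φ y := by
  let e : K → ℂ := fun x => if x = 1 then 0 else 1
  have h1 := ip_ind_right K.subtype e hφ
  have h2 : ∀ y, φ y * conj (ind K.subtype e y) =
      2 * (φ y - (if y = 1 then φ y else 0) - if OT K y then φ y else 0) := fun y => by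
    by_cases h3 : y = 1
    · subst h3
      simp [ind_subtype_one, e, show ¬ OT K (1 : G) from fun h => h.ne_one rfl]
    by_cases h4 : OT K y
    · simp [ind_ot e h4, h3, h4]
    obtain ⟨g, hg⟩ := not_forall.1 h4
    have h5 : (⟨_, not_not.1 hg⟩ : K) ≠ 1 := fun e => h3 (conj_eq_one_iff.1 (congrArg Subtype.val e))
    rw [← (isCF_ind _ e).conj y g, h.ind_apply e h5]
    simp [e, h3, h4, h5]
    ring
  have h3 : ∀ x : K, (φ ∘ K.subtype) x * conj (e x) = φ x - if x = 1 then φ x else 0 := fun x => by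
    by_cases h3 : x = 1 <;> simp [e, h3]
  rw [ip_def, ip_def] at h1
  simp only [h2, h3, ← Finset.mul_sum, Finset.sum_sub_distrib, Finset.sum_ite_eq', Finset.mem_univ, if_true,
    ← Finset.sum_filter, ← h.card_eq, OneMemClass.coe_one] at h1
  have h4 := Ch.card_ne_zero' K
  have h5 : ((𝐂[t]).index : ℂ) ≠ 0 := by exact_mod_cast index_ne_zero_of_finite
  push_cast at h1
  field_simp at h1
  linear_combination h1

theorem sum_beta_sirr {χ : G → ℂ} (hχ : IsSIrr χ) :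
    ∑ y, (beta y : ℂ) * χ y = (𝐂[t]).index ^ 2 * (χ t ^ 2 / χ 1) := by
  have key : ∀ χ : G → ℂ, IsIrr χ → ∑ y, (beta y : ℂ) * χ y = (𝐂[t]).index ^ 2 * (χ t ^ 2 / χ 1) := fun χ hχ => by
    have h1 : ∑ a ∈ invs G, χ a = (𝐂[t]).index * χ t := by
      rw [Finset.sum_congr rfl fun a ha => (hχ.isCF.of_isConj (h.cls a (mem_invs.1 ha).1 (mem_invs.1 ha).2)).symm,
        Finset.sum_const, h.card_invs, nsmul_eq_mul]
    have h2 := fun b => hχ.central_mul (f := fun a => if a ∈ invs G then 1 else 0)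
      (fun a g => by simp only [conj_mem_invs]) b
    simp only [ite_mul, one_mul, zero_mul, Finset.sum_ite_mem, Finset.univ_inter, h1] at h2
    have h3 := hχ.ne_zero_one
    rw [sum_beta, ← mul_right_inj' h3, Finset.mul_sum]
    simp only [h2, ← Finset.mul_sum, h1]
    field_simp
  rcases hχ with hχ | hχ
  · exact key χ hχ
  · have := key _ hχ
    simp only [Pi.neg_apply, mul_neg, Finset.sum_neg_distrib, neg_sq, div_neg] at this
    exact neg_injective this

theorem sum_beta_ind {φ : K → ℂ} (h1 : φ 1 = 0) :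
    ∑ y, (beta y : ℂ) * ind K.subtype φ y = Nat.card G * (Nat.card K * ⟪φ, 1⟫) := by
  have h2 := ip_ind_left K.subtype φ isCF_beta
  rw [ip_congr_support (a := φ) (c := (Nat.card K : ℂ) • 1) fun k hk => by
    simp [h.beta_eq k.2 fun e => hk ((Subtype.ext e : k = 1) ▸ h1)], ip_smul_right, ip_def, map_natCast] at h2
  rw [← h2, mul_inv_cancel_left₀ (Ch.card_ne_zero' G)]
  simp [mul_comm]

end BSW

end CA.Zas
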