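/-
The Brauer-Suzuki-Wall theorem, part 2: the characters and the order of the group.
-/
import Cfsg.Agent.Lib.Zas.BSW1

set_option autoImplicit false
set_option linter.unusedSectionVars false

open Cfsg Subgroup CA CA.Ch
open scoped ComplexConjugate

namespace CA.Zas

theorem tri_bound {x y z : ℤ} (hx : 2 ≤ |x|) (hy : 2 ≤ |y|) (hz : 2 ≤ |z|) (h : x + y + z = -1) :
    (1 : ℝ) / 6 ≤ 1 + 1 / x + 1 / y + 1 / z := by
  have key : ∀ x : ℤ, 2 ≤ |x| → -1 / 2 ≤ (1 : ℝ) / x ∧ (x ≠ -2 → -1 / 3 ≤ (1 : ℝ) / x) := fun x hx => by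
    rcases le_abs.1 hx with h1 | h1
    · have : (0 : ℝ) < 1 / x := one_div_pos.2 (by exact_mod_cast (by omega : 0 < x))
      exact ⟨by linarith, fun _ => by linarith⟩
    · have h2 : (x : ℝ) ≤ -2 := by exact_mod_cast (by omega : x ≤ -2)
      refine ⟨by rw [le_div_iff_of_neg (by linarith)]; linarith, fun h3 => ?_⟩
      have h2 : (x : ℝ) ≤ -3 := by exact_mod_cast (by omega : x ≤ -3)
      rw [le_div_iff_of_neg (by linarith)]; linarith
  have aux : ∀ x y z : ℤ, 2 ≤ |x| → 2 ≤ |y| → 0 < z → x + y + z = -1 → (1 : ℝ) / 6 ≤ 1 + 1 / x + 1 / y + 1 / z :=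
    fun x y z hx hy hz h => by
      have : (0 : ℝ) < 1 / z := one_div_pos.2 (by exact_mod_cast hz)
      by_cases h1 : x = -2
      · by_cases h2 : y = -2
        · obtain rfl : z = 3 := by omega
          subst h1 h2
          norm_num
        · linarith [(key x hx).1, (key y hy).2 h2]
      · linarith [(key x hx).2 h1, (key y hy).1]
  by_cases h1 : 0 < z
  · exact aux x y z hx hy h1 h
  by_cases h2 : 0 < y
  · linarith [aux x z y hx hz h2 (by omega)]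
  · linarith [aux y z x hy hz (by rcases le_abs.1 hz, le_abs.1 hy with ⟨_ | _, _ | _⟩ <;> omega) (by omega)]

theorem arith_deg {k m a : ℤ} (hk : 0 < k) (hc : IsCoprime (k * 2) m) (h : m * (a - 1) ^ 2 = 2 * k ^ 2 * (a * (a + 1))) :
    ∃ δ : ℤ, δ * δ = 1 ∧ a = δ * (2 * k + δ) ∧ m = (2 * k + δ) * (k + δ) := by
  have h1 : k ^ 2 ∣ (a - 1) ^ 2 := (hc.of_mul_left_left.pow_left (m := 2)).dvd_of_dvd_mul_left ⟨2 * (a * (a + 1)), by
    rw [h]; ring⟩
  obtain ⟨n, hn⟩ := (Int.pow_dvd_pow_iff two_ne_zero).1 h1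
  obtain rfl : a = k * n + 1 := by omega
  have h2 : m * n ^ 2 = 2 * ((k * n + 1) * (k * n + 2)) :=
    mul_left_cancel₀ (pow_ne_zero 2 hk.ne') (by linear_combination h)
  obtain ⟨d, rfl⟩ : 2 ∣ n := Int.prime_two.dvd_of_dvd_pow (hc.of_mul_left_right.dvd_of_dvd_mul_left ⟨_, h2⟩)
  have h3 : m * d ^ 2 = (2 * k * d + 1) * (k * d + 1) := by linarith
  have h4 : d * d = 1 := by
    rcases Int.isUnit_iff.1 (isUnit_of_dvd_one (a := d) ⟨m * d - 2 * k ^ 2 * d - 3 * k, by linarith⟩) with rfl | rfl <;> rfl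
  exact ⟨d, h4, by linarith, by linear_combination h3 - m * h4 + (2 * k ^ 2 - 1) * h4⟩

namespace BSW
variable {G : Type*} [Group G] [Finite G] {K : Subgroup G} {t s x y g : G} (h : BSW K t s)

/-- The induced generalized characters. -/
noncomputable def th (K : Subgroup G) (μ : Du K) : G → ℂ := ind K.subtype (1 - μ.ch)

theorem th_vc (μ : Du K) : IsVC (th K μ) := (isVC_one.sub μ.isVC).induce _

theorem th_one (μ : Du K) : th K μ 1 = 0 := by simp [th, ind_subtype_one]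

theorem ip_sub_one {μ : Du K} (h1 : μ ≠ 1) : ⟪1 - μ.ch, 1⟫ = 1 := by
  rw [ip_sub_left, ip_one_one, Du.ip_ch_one, if_neg h1, sub_zero]

theorem th_ip_one {μ : Du K} (h1 : μ ≠ 1) : ⟪th K μ, 1⟫ = 1 := by
  rw [th, ip_ind_left _ _ isCF_one]
  exact ip_sub_one h1

include h

theorem th_t {μ : Du K} : th K μ t = 2 - 2 * μ.ch ⟨t, h.tK⟩ := by
  have := h.ind_apply (1 - μ.ch) (k := ⟨t, h.tK⟩) fun e => h.t1 (congrArg Subtype.val e)
  rw [show (⟨t, h.tK⟩ : K)⁻¹ = ⟨t, h.tK⟩ from Subtype.ext (Inv.inv_eq_self h.t2)] at this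
  rw [th, this]
  simp
  ring

theorem th_ip {μ ν : Du K} (h1 : μ ≠ 1) (h2 : ν ≠ 1) :
    ⟪th K μ, th K ν⟫ = 2 + (if μ = ν then 1 else 0) + if μ = ν⁻¹ then 1 else 0 := by
  have key : ∀ ν : Du K, ν ≠ 1 → ⟪1 - μ.ch, 1 - ν.ch⟫ = 1 + if μ = ν then 1 else 0 := fun ν h2 => by
    rw [ip_sub_right, ip_sub_one h1, ip_sub_left, Du.ip_ch, ← Du.ch_one, Du.ip_ch, if_neg h2.symm]
    ring
  have e : (fun x => (1 - ν.ch) x⁻¹) = 1 - (ν⁻¹).ch := by
    ext x
    simp [Du.ch_inv, ν.isVC.apply_inv]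
  rw [th, th, h.ip_ind (by simp), e, key ν h2, key _ (inv_ne_one.2 h2)]
  ring

theorem th_ip' {μ ν : Du K} (h1 : μ ≠ 1) (h2 : ν ≠ 1) :
    ⟪th K μ - 1, th K ν - 1⟫ = 1 + (if μ = ν then 1 else 0) + if μ = ν⁻¹ then 1 else 0 := by
  rw [ip_sub_right, ip_sub_left, ip_sub_left, h.th_ip h1 h2, th_ip_one h1, ip_one_one, ← ip_conj, th_ip_one h2]
  simp
  ring

theorem th_beta [Fintype G] [DecidableEq G] {μ : Du K} (h1 : μ ≠ 1) :
    ∑ y, (beta y : ℂ) * th K μ y = Nat.card G * Nat.card K := by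
  rw [th, h.sum_beta_ind (by simp), ip_sub_one h1, mul_one]

theorem exists_neg : ∃ μ : Du K, μ.ch ⟨t, h.tK⟩ = -1 := by
  haveI := h.abelian
  obtain ⟨μ, -, h1⟩ := Du.exists_ne_one (⊥ : Subgroup K) (g := ⟨t, h.tK⟩) fun e => h.t1 (congrArg Subtype.val (mem_bot.1 e))
  refine ⟨μ, (sq_eq_one_iff.1 ?_).resolve_left h1⟩
  rw [← Du.ch_apply_pow, show (⟨t, h.tK⟩ : K) ^ 2 = 1 from Subtype.ext ((pow_two t).trans h.t2), Du.ch_apply_one]

theorem card_four (hG : commutator G = ⊤) [IsSimpleGroup G] (h2 : Nat.card K = 2) : Nat.card G = 60 := by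
  classical
  let := Fintype.ofFinite G
  obtain ⟨μ, hμ⟩ := h.exists_neg
  have h1 : μ ≠ 1 := fun e => by norm_num [e] at hμ
  have h3 : μ = μ⁻¹ := eq_inv_of_mul_eq_one_left (by rw [← sq, ← h2, Du.pow_card])
  obtain ⟨x, y, z, T⟩ := BS.exists_tri (th_vc μ) (by rw [h.th_ip h1 h1, if_pos rfl, if_pos h3]; norm_num) (th_ip_one h1)
  have hb := column_bessel (f := ![1, x, y, z]) (s := Finset.univ) (on_of_ip fun i _ j _ => by
    fin_cases i <;> fin_cases j <;>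
      simp [T.hx.ip_self, T.hy.ip_self, T.hz.ip_self, T.x1, T.y1, T.z1, T.xy, T.xz, T.yz, ip_eq_zero_symm T.x1,
        ip_eq_zero_symm T.y1, ip_eq_zero_symm T.z1, ip_eq_zero_symm T.xy, ip_eq_zero_symm T.xz, ip_eq_zero_symm T.yz,
        ip_one_one])
    (fun i _ => by fin_cases i; exacts [isCF_one, T.hx.isCF, T.hy.isCF, T.hz.isCF]) t
  obtain ⟨a, ha⟩ := int_of_sq T.hx.isVC h.t2
  obtain ⟨b, hb'⟩ := int_of_sq T.hy.isVC h.t2
  obtain ⟨c, hc⟩ := int_of_sq T.hz.isVC h.t2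
  have e1 := h.th_t (μ := μ)
  have e2 := th_one μ
  have e3 := h.th_beta h1
  simp only [Fin.sum_univ_four, Matrix.cons_val, h.card_cent, h2, ha, hb', hc, Complex.norm_intCast, sq_abs, Pi.one_apply,
    norm_one] at hb
  rw [T.eq] at e1 e2 e3
  simp only [Pi.add_apply, Pi.one_apply, mul_add, Finset.sum_add_distrib, h.sum_beta_sirr T.hx, h.sum_beta_sirr T.hy,
    h.sum_beta_sirr T.hz, ha, hb', hc, hμ] at e1 e2 e3
  have e4 := h.sum_beta_sirr isIrr_one.isSIrr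
  simp only [Pi.one_apply] at e4
  rw [e4, ← h.card_eq, h2] at e3
  have e5 : a + b + c = 3 := by exact_mod_cast (by linear_combination e1 : (a + b + c : ℂ) = 3)
  have e6 : a ^ 2 + b ^ 2 + c ^ 2 ≤ 3 := by exact_mod_cast (by push_cast at hb; linarith : (a ^ 2 + b ^ 2 + c ^ 2 : ℝ) ≤ 3)
  obtain rfl : a = 1 := by nlinarith [sq_nonneg (a - 1), sq_nonneg (b - 1), sq_nonneg (c - 1)]
  obtain rfl : b = 1 := by nlinarith [sq_nonneg (b - 1), sq_nonneg (c - 1)]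
  obtain rfl : c = 1 := by omega
  have key : ∀ w : G → ℂ, IsSIrr w → ⟪w, 1⟫ = 0 → ∃ n : ℤ, w 1 = n ∧ 2 ≤ |n| := fun w hw h1 => by
    obtain ⟨n, hn⟩ := hw.isVC.int
    obtain ⟨h3, h4⟩ := sirr_one_ne hG hw h1
    have h5 := hw.ne_zero_one
    rw [hn] at h3 h4 h5
    exact ⟨n, hn, by norm_cast at h3 h4 h5; rcases abs_cases n with _ | _ <;> omega⟩
  obtain ⟨a, ha, a2⟩ := key x T.hx T.x1
  obtain ⟨b, hb, b2⟩ := key y T.hy T.y1
  obtain ⟨c, hc, c2⟩ := key z T.hz T.z1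
  rw [ha, hb, hc] at e2 e3
  have e7 := tri_bound a2 b2 c2 (by exact_mod_cast (by linear_combination e2 : (a + b + c : ℂ) = -1))
  have m0 : ((𝐂[t]).index : ℂ) ≠ 0 := by exact_mod_cast index_ne_zero_of_finite
  have e8 : ((𝐂[t]).index : ℝ) * (1 + 1 / a + 1 / b + 1 / c) = 8 := by
    have : ((𝐂[t]).index : ℂ) * (1 + 1 / a + 1 / b + 1 / c) = 8 := mul_left_cancel₀ m0 (by
      push_cast at e3; linear_combination e3)
    exact_mod_cast this
  have e9 : (𝐂[t]).index ≤ 48 := by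
    exact_mod_cast (by nlinarith [(Nat.cast_nonneg _ : (0 : ℝ) ≤ (𝐂[t]).index)] : ((𝐂[t]).index : ℝ) ≤ 48)
  have e10 := h.card_eq
  have e11 := h.index_modEq
  rw [h2] at e10 e11
  have := card_mem hG (by omega)
  simp only [List.mem_cons, List.not_mem_nil, Nat.ModEq, or_false] at this e11
  omega

end BSW

/-- The two characters of the Brauer-Suzuki-Wall theorem. -/
structure Dec {G : Type*} [Group G] [Finite G] (K : Subgroup G) (μ : Du K) (A Y : G → ℂ) : Prop where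
  ne : μ ≠ 1
  hA : IsSIrr A
  hY : IsSIrr Y
  A1 : ⟪A, 1⟫ = 0
  Y1 : ⟪Y, 1⟫ = 0
  AY : ⟪A, Y⟫ = 0
  eq : BSW.th K μ = 1 + A + Y

theorem Dec.symm {G : Type*} [Group G] [Finite G] {K : Subgroup G} {μ : Du K} {A Y : G → ℂ} (d : Dec K μ A Y) : Dec K μ Y A :=
  ⟨d.ne, d.hY, d.hA, d.Y1, d.A1, ip_eq_zero_symm d.AY, by rw [d.eq, add_right_comm]⟩

theorem Dec.one {G : Type*} [Group G] [Finite G] {K : Subgroup G} {μ : Du K} {A Y : G → ℂ} (d : Dec K μ A Y) :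
    Y 1 = -1 - A 1 := by
  have := BSW.th_one μ
  simp only [d.eq, Pi.add_apply, Pi.one_apply] at this
  linear_combination this

theorem Dec.ot {G : Type*} [Group G] [Finite G] {K : Subgroup G} {μ : Du K} {A Y : G → ℂ} (d : Dec K μ A Y) {x : G}
    (hx : OT K x) : Y x = -1 - A x := by
  have : BSW.th K μ x = 0 := BSW.ind_ot _ hx
  simp only [d.eq, Pi.add_apply, Pi.one_apply] at this
  linear_combination this

namespace BSW
variable {G : Type*} [Group G] [Finite G] {K : Subgroup G} {t s x y g : G} (h : BSW K t s) {μ ν : Du K} {A Y Z : G → ℂ}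
include h

theorem dec_of (h1 : μ ≠ 1) (h2 : μ ≠ μ⁻¹) (hA : IsSIrr A) (h3 : ⟪th K μ - 1, A⟫ = 1) : ∃ Y, Dec K μ A Y := by
  obtain ⟨Y, hY, h4, e⟩ := ((th_vc μ).sub isVC_one).norm_two_of (by
    rw [h.th_ip' h1 h1, if_pos rfl, if_neg h2]; norm_num) hA h3
  have h5 : ⟪th K μ - 1, 1⟫ = 0 := by rw [ip_sub_left, th_ip_one h1, ip_one_one, sub_self]
  have h6 := isIrr_one.isSIrr.ip_eq_zero_of_constt hA (by rw [h3]; simp) h5
  refine ⟨Y, h1, hA, hY, h6, ?_, h4, by rw [add_assoc, ← e]; simp⟩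
  rwa [e, ip_add_left, h6, zero_add] at h5

theorem dec_t (d : Dec K μ A Y) : A t + Y t = 1 - 2 * μ.ch ⟨t, h.tK⟩ := by
  have := h.th_t (μ := μ)
  simp only [d.eq, Pi.add_apply, Pi.one_apply] at this
  linear_combination this

theorem dec_beta (d : Dec K μ A Y) : (𝐂[t]).index * (1 + A t ^ 2 / A 1 + Y t ^ 2 / Y 1) = 2 * Nat.card K ^ 2 := by
  classical
  let := Fintype.ofFinite G
  have e3 := h.th_beta d.ne
  have e4 := h.sum_beta_sirr isIrr_one.isSIrr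
  simp only [d.eq, Pi.add_apply, mul_add, Finset.sum_add_distrib, h.sum_beta_sirr d.hA, h.sum_beta_sirr d.hY, e4,
    ← h.card_eq] at e3
  have m0 : ((𝐂[t]).index : ℂ) ≠ 0 := by exact_mod_cast index_ne_zero_of_finite
  refine mul_left_cancel₀ m0 ?_
  push_cast at e3
  simp only [Pi.one_apply] at e3
  linear_combination e3

theorem exists_dec (h2 : Nat.card K ≠ 2) : ∃ μ A Y, Dec K μ A Y ∧ A t = 1 ∧ Y t = 2 := by
  haveI := h.abelian
  obtain ⟨μ, hμ⟩ := h.exists_neg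
  have ne1 : ∀ μ : Du K, μ.ch ⟨t, h.tK⟩ = -1 → μ ≠ 1 := fun μ hμ e => by norm_num [e] at hμ
  have nr : ∀ (μ : Du K) (x : K), μ.ch (x * x) ≠ 1 → μ ≠ μ⁻¹ := fun μ x hx e => hx (by
    rw [Du.ch_apply_mul, ← Pi.mul_apply, ← Du.ch_mul, mul_eq_one_iff_eq_inv.2 e]; rfl)
  by_cases hx : ∀ x : K, x * x ∈ zpowers (⟨t, h.tK⟩ : K)
  · have z2 : Nat.card (zpowers (⟨t, h.tK⟩ : K)) = 2 := by
      rw [Nat.card_zpowers, ← orderOf_coe, Inv.orderOf_eq_two h.t2 h.t1]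
    have sq1 : ∀ x : K, x * x = 1 → x ∈ zpowers (⟨t, h.tK⟩ : K) := fun x e => by
      by_cases h1 : x = 1
      · exact h1 ▸ one_mem _
      · rw [show x = ⟨t, h.tK⟩ from Subtype.ext (h.uniq x x.2 (congrArg Subtype.val e) fun e => h1 (Subtype.ext e))]
        exact mem_zpowers _
    obtain ⟨x, hx'⟩ : ∃ x : K, x ∉ zpowers (⟨t, h.tK⟩ : K) := by
      by_contra! h1
      exact h2 (by rw [← z2, (eq_top_iff' _).2 h1, card_top])
    have x2 : x * x = ⟨t, h.tK⟩ := Subtype.ext (h.uniq _ (x * x).2 (by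
      rw [← coe_mul, ← sq, ← z2, orderOf_dvd_iff_pow_eq_one.1 (orderOf_dvd_card_of_mem (hx x)), coe_one])
      fun e => hx' (sq1 x (Subtype.ext e)))
    have k4 : Nat.card K ≤ 2 * 2 := by
      let f : K →* K := ⟨⟨fun x => x * x, mul_one 1⟩, fun a b => show a * b * (a * b) = a * a * (b * b) by
        rw [mul_assoc, mul_assoc, ← mul_assoc b, mul_comm' b a, mul_assoc]⟩
      rw [← f.ker.card_mul_index, index_ker, ← z2]
      exact Nat.mul_le_mul (card_le_of_le sq1) (card_le_of_le (by rintro _ ⟨x, rfl⟩; exact hx x))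
    have hμ' := nr μ x (by rw [x2, hμ]; norm_num)
    obtain ⟨A, hA, h3⟩ := ((th_vc μ).sub isVC_one).exists_sirr_one (fun e => by
      have := h.th_ip' (ne1 μ hμ) (ne1 μ hμ)
      norm_num [e, hμ'] at this) (by
      rw [nrm_eq_of_ip (r := 2) (by rw [h.th_ip' (ne1 μ hμ) (ne1 μ hμ), if_pos rfl, if_neg hμ']; norm_num)]; norm_num)
    obtain ⟨Y, d⟩ := h.dec_of (ne1 μ hμ) hμ' hA h3
    obtain ⟨a, ha⟩ := int_of_sq d.hA.isVC h.t2
    obtain ⟨b, hb⟩ := int_of_sq d.hY.isVC h.t2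
    have e1 := h.dec_t d
    have e2 := column_three d.hA d.hY d.A1 d.Y1 d.AY t
    simp only [ha, hb, hμ, h.card_cent, Complex.norm_intCast, sq_abs] at e1 e2
    have e3 : a + b = 3 := by exact_mod_cast (by linear_combination e1 : (a + b : ℂ) = 3)
    have e4 : 1 + a ^ 2 + b ^ 2 ≤ (Nat.card K * 2 : ℕ) := by exact_mod_cast e2
    have e6 : 1 + a ^ 2 + (3 - a) ^ 2 ≤ 8 := by rw [← e3, add_sub_cancel_left]; omega
    have e5 : 1 ≤ a ∧ a ≤ 2 := by constructor <;> nlinarith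
    rcases (by omega : a = 1 ∧ b = 2 ∨ b = 1 ∧ a = 2) with ⟨rfl, rfl⟩ | ⟨rfl, rfl⟩
    · exact ⟨μ, A, Y, d, by simpa using ha, by simpa using hb⟩
    · exact ⟨μ, Y, A, d.symm, by simpa using hb, by simpa using ha⟩
  push Not at hx
  obtain ⟨x, hx⟩ := hx
  obtain ⟨l, hl, hl'⟩ := Du.exists_ne_one _ hx
  have l1 := mem_ann.1 hl _ (mem_zpowers _)
  obtain ⟨μ, hμ, hμ'⟩ : ∃ μ : Du K, μ.ch ⟨t, h.tK⟩ = -1 ∧ μ ≠ μ⁻¹ := by
    by_cases e : μ.ch (x * x) = 1
    · exact ⟨μ * l, by rw [Du.ch_mul, Pi.mul_apply, hμ, l1, mul_one], nr _ x (by rwa [Du.ch_mul, Pi.mul_apply, e, one_mul])⟩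
    · exact ⟨μ, hμ, nr μ x e⟩
  have l2 := nr l x hl'
  have l3 : l ≠ 1 := fun e => l2 (by simp [e])
  have m1 := ne1 μ hμ
  have m2 : μ ≠ l := fun e => by norm_num [e, l1] at hμ
  have m3 : μ ≠ l⁻¹ := fun e => by norm_num [e, Du.ch_inv, l1] at hμ
  have i1 : ⟪th K μ - 1, th K l - 1⟫ = 1 := by simp [h.th_ip' m1 l3, m2, m3]
  obtain ⟨A, hA, h3⟩ := exists_common_two (fun b : Bool => th K (cond b μ l) - 1) (fun _ => True)
    (fun b => (th_vc _).sub isVC_one) (fun b _ => by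
      cases b
      · simp only [cond_false, h.th_ip' l3 l3, if_true, if_neg l2]; norm_num
      · simp only [cond_true, h.th_ip' m1 m1, if_true, if_neg hμ']; norm_num)
    (fun a b _ _ hab => by
      cases a <;> cases b <;> simp only [ne_eq, not_true] at hab
      · rw [← ip_conj]; exact (congrArg _ i1).trans (map_one _)
      · exact i1) ⟨true, trivial⟩ fun a b c _ _ _ _ _ _ => by cases a <;> cases b <;> cases c <;> simp
  obtain ⟨Y, d1⟩ := h.dec_of m1 hμ' hA (h3 true trivial)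
  obtain ⟨Z, d2⟩ := h.dec_of l3 l2 hA (h3 false trivial)
  have e1 := h.dec_beta d1
  have e2 := h.dec_t d1
  have e3 := h.dec_t d2
  have m0 : ((𝐂[t]).index : ℂ) ≠ 0 := by exact_mod_cast index_ne_zero_of_finite
  rw [← h.dec_beta d2, mul_right_inj' m0, add_right_inj, d2.one, ← d1.one, div_left_inj' d1.hY.ne_zero_one] at e1
  rw [hμ] at e2
  rw [l1] at e3
  have e4 : Y t = 2 := by linear_combination (e1 - (Y t + Z t) * (e2 - e3)) / 8 + (e2 - e3) / 2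
  exact ⟨μ, A, Y, d1, by linear_combination e2 - e4, e4⟩

end BSW

end CA.Zas
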