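/-
The Brauer-Suzuki-Wall theorem, part 3: counting.
-/
import Cfsg.Agent.Lib.Zas.BSW2

set_option autoImplicit false
set_option linter.unusedSectionVars false

open Cfsg Subgroup CA CA.Ch
open scoped ComplexConjugate

namespace CA.Zas

/-- The non-trivial solutions of `y ^ n = 1`. -/
def rts (G : Type*) [Group G] [Fintype G] [DecidableEq G] (n : ℕ) : Finset G := Finset.univ.filter fun y => y ≠ 1 ∧ y ^ n = 1

theorem mem_rts {G : Type*} [Group G] [Fintype G] [DecidableEq G] {n : ℕ} {y : G} : y ∈ rts G n ↔ y ≠ 1 ∧ y ^ n = 1 := by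
  simp [rts]

theorem card_rts {G : Type*} [Group G] [Fintype G] [DecidableEq G] (n : ℕ) :
    (rts G n).card = {y : G | y ≠ 1 ∧ y ^ n = 1}.ncard := by
  rw [← Set.ncard_coe_finset]
  simp [rts]

theorem lt_of_aint {G : Type*} [Group G] [Finite G] {A Y : G → ℂ} (hA : IsSIrr A) (hY : IsSIrr Y) (A1 : ⟪A, 1⟫ = 0)
    (Y1 : ⟪Y, 1⟫ = 0) (AY : ⟪A, Y⟫ = 0) {x : G} (h0 : A x ≠ 0) {a b : ℕ} (hc : a * b = Nat.card 𝐂[x])
    (ha : AInt (A x / a)) : a < b := by
  have a0 : 0 < a := Nat.pos_of_mul_pos_right (hc ▸ Nat.card_pos)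
  obtain ⟨j, hj, h1⟩ := exists_norm_ge hA.isVC h0 a0 ha
  have h2 := column_three hA hY A1 Y1 AY (x ^ j)
  have h3 : Nat.card 𝐂[x ^ j] ≤ a * b := hc ▸ card_le_of_le fun g hg => by
    obtain ⟨n, hn⟩ := mem_zpowers_pow_iff.2 hj
    rw [← hn]
    exact mem_cent1_iff.2 (Commute.zpow_right (mem_cent1_iff.1 hg) n)
  have h4 : (Nat.card 𝐂[x ^ j] : ℝ) ≤ a * b := by exact_mod_cast h3
  have h5 : (a : ℝ) * a < a * b := by nlinarith [sq_nonneg ‖Y (x ^ j)‖, (Nat.cast_nonneg a : (0 : ℝ) ≤ a)]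
  exact_mod_cast lt_of_mul_lt_mul_left h5 (Nat.cast_nonneg a)

/-- The numerical outcome of the character theory. -/
structure Cnt {G : Type*} [Group G] [Fintype G] [DecidableEq G] (K : Subgroup G) (t : G) (q l : ℕ) (δ : ℤ) : Prop where
  dd : δ * δ = 1
  hq : (q : ℤ) = 2 * Nat.card K + δ
  hl : (l : ℤ) = Nat.card K + δ
  cop : q.Coprime l
  idx : (𝐂[t]).index = q * l
  cq : ∀ x ∈ rts G q, Nat.card 𝐂[x] ∣ q
  cl : ∀ x ∈ rts G l, Nat.card 𝐂[x] ∣ l
  nq : (rts G q).card = 4 * Nat.card K * l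
  nl : ((rts G l).card : ℤ) = q * (δ + l * (Nat.card K - 1))
  pair : (q * l : ℤ) ^ 2 = q * l * (1 + Nat.card K * (Nat.card K - 1)) + (∑ y ∈ rts G q, beta y : ℕ) +
    (∑ y ∈ rts G l, beta y : ℕ)

namespace BSW
variable {G : Type*} [Group G] [Finite G] {K : Subgroup G} {t s x y g : G} (h : BSW K t s) {μ : Du K} {A Y : G → ℂ}
include h

theorem ot_cases (d : Dec K μ A Y) {q l : ℕ} {δ : ℤ} (dd : δ * δ = 1) (hA : A 1 = (δ * q : ℤ)) (hY : Y 1 = (-2 * δ * l : ℤ))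
    (hm : (𝐂[t]).index = q * l) (cop : q.Coprime l) (hx : OT K x) :
    A x = 0 ∧ Nat.card 𝐂[x] ∣ q ∨ A x = -1 ∧ Nat.card 𝐂[x] ∣ l := by
  obtain ⟨a, b, ⟨q', rfl⟩, ⟨l', rfl⟩, hc⟩ := Nat.dvd_mul.1 (hm ▸ h.ot_card hx)
  have c0 : 0 < a * b := hc ▸ Nat.card_pos
  have a0 := (Nat.pos_of_mul_pos_right c0).ne'
  have b0 := (Nat.pos_of_mul_pos_left c0).ne'
  have hi : (𝐂[x]).index = Nat.card K * 2 * (q' * l') := Nat.eq_of_mul_eq_mul_left c0 (by
    rw [hc, card_mul_index, ← h.card_eq, hm, ← hc]; ring)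
  have c1 := h.coprime_index
  rw [hm] at c1
  have hδ : IsUnit δ := IsUnit.of_mul_eq_one δ dd
  have i1 := aint_div d.hA x hA (e := a) (w := δ * (Nat.card K * 2 * l' : ℕ))
    ((isCoprime_mul_unit_left_left hδ _ _).2 (Nat.isCoprime_iff_coprime.2 (Nat.Coprime.mul_left
      (c1.coprime_dvd_right ⟨q' * (b * l'), by ring⟩) (cop.coprime_mul_right.coprime_mul_left_right.symm))))
    (by exact_mod_cast a0) (by rw [hi]; push_cast; linear_combination (-(Nat.card K : ℤ) * 2 * q' * l' * a) * dd)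
  have i2 := aint_div d.hY x hY (e := b) (w := -δ * (Nat.card K * q' : ℕ))
    ((isCoprime_mul_unit_left_left hδ.neg _ _).2 (Nat.isCoprime_iff_coprime.2 (Nat.Coprime.mul_left
      (c1.coprime_mul_right.coprime_dvd_right ⟨l' * (a * q'), by ring⟩) (cop.coprime_mul_left.coprime_mul_right_right))))
    (by exact_mod_cast b0) (by rw [hi]; push_cast; linear_combination (-(Nat.card K : ℤ) * 2 * q' * l' * b) * dd)
  have e := d.ot hx
  have key : ∀ {z : ℂ} {c : ℕ}, c ≠ 0 → z = -1 → AInt (z / (c : ℤ)) → c = 1 := fun {z c} c0 hz hi =>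
    Nat.dvd_one.1 (Int.natCast_dvd_natCast.1 (dvd_neg.1 (AInt.dvd_of_div (a := -1) (b := c) (by exact_mod_cast c0)
      (by rwa [hz, ← Int.cast_one, ← Int.cast_neg] at hi))))
  by_cases h1 : A x = 0
  · obtain rfl := key b0 (by simp [e, h1]) i2
    exact .inl ⟨h1, by simp [← hc]⟩
  by_cases h2 : Y x = 0
  · have h3 : A x = -1 := by linear_combination e - h2
    obtain rfl := key a0 h3 i1
    exact .inr ⟨h3, by simp [← hc]⟩
  exact absurd (lt_of_aint d.hA d.hY d.A1 d.Y1 d.AY h1 hc i1)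
    (lt_of_aint d.hY d.hA d.Y1 d.A1 d.symm.AY h2 ((mul_comm _ _).trans hc) i2).not_gt

theorem exists_cnt [Fintype G] [DecidableEq G] (h2 : Nat.card K ≠ 2) : ∃ q l δ, Cnt K t q l δ := by
  classical
  obtain ⟨μ, A, Y, d, hA, hY⟩ := h.exists_dec h2
  obtain ⟨a, ha⟩ := d.hA.isVC.int
  have e1 := h.dec_beta d
  have a0 := d.hA.ne_zero_one
  have y0 := d.hY.ne_zero_one
  rw [d.one, ha] at y0
  rw [hA, hY, d.one, ha] at e1
  rw [ha] at a0
  have k4 : 4 ≤ Nat.card K := by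
    have := h.two_dvd
    have := Nat.card_pos (α := K)
    omega
  obtain ⟨δ, dd, rfl, hm⟩ := arith_deg (k := Nat.card K) (m := (𝐂[t]).index) (a := a) (by omega)
    (by exact_mod_cast Nat.isCoprime_iff_coprime.2 h.coprime_index) (by
      field_simp at e1
      exact_mod_cast (by linear_combination -e1 :
        ((𝐂[t]).index : ℂ) * (a - 1) ^ 2 = 2 * Nat.card K ^ 2 * (a * (a + 1))))
  have d1 : δ = 1 ∨ δ = -1 := Int.eq_one_or_neg_one_of_mul_eq_one dd
  obtain ⟨q, hq⟩ := Int.eq_ofNat_of_zero_le (a := 2 * Nat.card K + δ) (by omega)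
  obtain ⟨l, hl⟩ := Int.eq_ofNat_of_zero_le (a := Nat.card K + δ) (by omega)
  have idx : (𝐂[t]).index = q * l := by exact_mod_cast hq ▸ hl ▸ hm
  have cop : q.Coprime l := Nat.isCoprime_iff_coprime.1 ⟨-δ, 2 * δ, by rw [← hq, ← hl]; linear_combination dd⟩
  have hY1 : Y 1 = (-2 * δ * l : ℤ) := by
    rw [d.one, ha, ← hl]
    exact_mod_cast (by linear_combination dd : -1 - δ * (2 * Nat.card K + δ) = -2 * δ * (Nat.card K + δ))
  rw [hq] at ha
  have hc := fun x => h.ot_cases (x := x) d dd ha hY1 idx cop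
  have pw : ∀ {x : G} {n}, Nat.card 𝐂[x] ∣ n → x ^ n = 1 := fun e =>
    orderOf_dvd_iff_pow_eq_one.1 ((orderOf_dvd_card_of_mem (self_mem_cent1 _)).trans e)
  have ot : ∀ n, n ∣ q * l → ∀ x ∈ rts G n, OT K x := fun n hn x hx => ot_of_coprime (mem_rts.1 hx).1
    (h.coprime_index.coprime_mul_right.symm.coprime_dvd_left
      ((orderOf_dvd_of_pow_eq_one (mem_rts.1 hx).2).trans (idx ▸ hn)))
  have hQ : ∀ x ∈ rts G q, A x = 0 ∧ Nat.card 𝐂[x] ∣ q := fun x hx => (hc x (ot q (by simp) x hx)).resolve_right fun e =>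
    (mem_rts.1 hx).1 (Inv.eq_one_of_pow_coprime (mem_rts.1 hx).2 (pw e.2) cop)
  have hL : ∀ x ∈ rts G l, A x = -1 ∧ Nat.card 𝐂[x] ∣ l := fun x hx => (hc x (ot l (by simp) x hx)).resolve_left fun e =>
    (mem_rts.1 hx).1 (Inv.eq_one_of_pow_coprime (pw e.2) (mem_rts.1 hx).2 cop)
  have sm : ∀ φ : G → ℂ, IsCF φ → ∑ y, φ y =
      φ 1 + q * l * (∑ x : K, φ x - φ 1) + (∑ y ∈ rts G q, φ y + ∑ y ∈ rts G l, φ y) := fun φ hφ => by
    rw [h.sum_cf hφ, idx, ← Finset.sum_union (Finset.disjoint_left.2 fun x h1 h2 =>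
      (mem_rts.1 h1).1 (Inv.eq_one_of_pow_coprime (mem_rts.1 h1).2 (mem_rts.1 h2).2 cop)), Nat.cast_mul]
    congr 2
    ext x
    simp only [Finset.mem_filter, Finset.mem_univ, true_and, Finset.mem_union]
    exact ⟨fun hx => (hc x hx).imp (fun e => mem_rts.2 ⟨hx.ne_one, pw e.2⟩) fun e => mem_rts.2 ⟨hx.ne_one, pw e.2⟩,
      fun hx => hx.elim (ot q (by simp) x) (ot l (by simp) x)⟩
  have s1 := sm 1 isCF_one
  have s2 := sm A d.hA.isCF
  have s3 := sm _ isCF_beta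
  obtain ⟨n, hn⟩ := (d.hA.isVC.comp K.subtype).ip_int isVC_one
  have s4 := h.sum_beta_sirr isIrr_one.isSIrr
  have s5 := d.A1
  simp only [ip_def, Pi.one_apply, map_one, mul_one, inv_mul_eq_iff_eq_mul₀ (Ch.card_ne_zero' _), Function.comp,
    coe_subtype, mul_zero, one_pow, div_one] at hn s4 s5
  rw [s5, hn, Finset.sum_congr rfl fun x hx => (hQ x hx).1, Finset.sum_congr rfl fun x hx => (hL x hx).1, ha] at s2
  have s6 : ∑ x : K, (beta (x : G) : ℂ) - beta (1 : G) = Nat.card K * (Nat.card K - 1) := by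
    rw [← Finset.add_sum_erase _ _ (Finset.mem_univ 1), Finset.sum_congr rfl fun x hx => by
      rw [h.beta_eq x.2 fun e => Finset.ne_of_mem_erase hx (Subtype.ext e)]]
    simp [Finset.card_erase_of_mem, Nat.cast_sub Fintype.card_pos, mul_comm]
  rw [s4, s6, beta_one, h.card_invs, idx] at s3
  simp only [Pi.one_apply, Finset.sum_const, Finset.card_univ, ← Nat.card_eq_fintype_card, ← h.card_eq, idx, nsmul_eq_mul,
    mul_one, mul_zero] at s1 s2
  have t1 : (Nat.card K * 2 * (q * l) : ℤ) = 1 + q * l * (Nat.card K - 1) + ((rts G q).card + (rts G l).card) := by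
    exact_mod_cast s1
  have t2 : ((rts G l).card : ℤ) = q * (δ + l * (Nat.card K * n - δ * q)) := by
    exact_mod_cast (by push_cast at s2; linear_combination s2 :
      ((rts G l).card : ℂ) = q * (δ + l * (Nat.card K * n - δ * q)))
  have t3 : ((rts G q).card : ℤ) = l * (q * (Nat.card K + 1 - (Nat.card K * n - δ * q)) - 2 * δ) := by
    linear_combination -t1 - t2 + δ * hq - 2 * δ * hl + dd
  have t4 : (Nat.card K * n - δ * q : ℤ) = Nat.card K * (n - 2 * δ) - 1 := by rw [← hq]; linear_combination -dd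
  rw [t4] at t2 t3
  have t5 : n - 2 * δ = 1 := by
    have u1 : 0 ≤ δ + l * (Nat.card K * (n - 2 * δ) - 1) := nonneg_of_mul_nonneg_right (t2 ▸ Nat.cast_nonneg _) (by omega)
    have u2 : 0 ≤ q * (Nat.card K + 1 - (Nat.card K * (n - 2 * δ) - 1)) - 2 * δ :=
      nonneg_of_mul_nonneg_right (t3 ▸ Nat.cast_nonneg _) (by omega)
    have u3 : 0 ≤ Nat.card K * (n - 2 * δ) - 1 := by nlinarith [(by omega : δ ≤ 1), (by omega : (2 : ℤ) ≤ l)]
    have u4 : 0 ≤ Nat.card K + 1 - (Nat.card K * (n - 2 * δ) - 1) := by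
      nlinarith [(by omega : -1 ≤ δ), (by omega : (3 : ℤ) ≤ q)]
    have u5 : (4 : ℤ) ≤ Nat.card K := by omega
    apply le_antisymm <;> nlinarith
  rw [t5] at t2 t3
  refine ⟨q, l, δ, dd, hq.symm, hl.symm, cop, idx, fun x hx => (hQ x hx).2, fun x hx => (hL x hx).2, ?_,
    by rw [t2, mul_one], ?_⟩
  · exact_mod_cast (by rw [t3, ← hq]; ring : ((rts G q).card : ℤ) = 4 * Nat.card K * l)
  · exact_mod_cast (by push_cast at s3 ⊢; linear_combination s3 : (q * l : ℂ) ^ 2 =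
      q * l * (1 + Nat.card K * (Nat.card K - 1)) + (∑ y ∈ rts G q, beta y : ℕ) + (∑ y ∈ rts G l, beta y : ℕ))

end BSW

end CA.Zas
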