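/-
The Brauer-Suzuki-Wall theorem, part 4: the Zassenhaus structure.
-/
import Cfsg.Agent.Lib.Zas.BSW3

set_option autoImplicit false
set_option linter.unusedSectionVars false

open Cfsg Subgroup CA CA.Ch

namespace CA.Zas

section tools
variable {G : Type*} [Group G] [Finite G] {A M : Subgroup G} {v : G} {p : ℕ}

theorem inv_of_fpf (hn : v ∈ 𝐍(A)) (v2 : v * v = 1) (hf : ∀ w ∈ A, v * w = w * v → w = 1) {w : G} (hw : w ∈ A) :
    v * w * v⁻¹ = w⁻¹ := by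
  let f : A → A := fun a => ⟨(a : G)⁻¹ * (v * a * v⁻¹), mul_mem (inv_mem a.2) (conj_mem_of_mem_normalizer hn a.2)⟩
  obtain ⟨a, ha⟩ := Finite.injective_iff_surjective.1 (show Function.Injective f from fun a b e => by
    have e1 : (a : G)⁻¹ * (v * a * v⁻¹) = (b : G)⁻¹ * (v * b * v⁻¹) := congrArg Subtype.val e
    refine (Subtype.ext (mul_inv_eq_one.1 (hf _ (mul_mem b.2 (inv_mem a.2)) ?_))).symm
    calc v * (b * (a : G)⁻¹) = b * ((b : G)⁻¹ * (v * b * v⁻¹)) * (v * (a : G)⁻¹) := by group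
      _ = _ := by rw [← e1]; group) ⟨w, hw⟩
  rw [← show (a : G)⁻¹ * (v * a * v⁻¹) = w from congrArg Subtype.val ha]
  calc v * ((a : G)⁻¹ * (v * a * v⁻¹)) * v⁻¹ = v * (a : G)⁻¹ * (v * a * (v * v)⁻¹) := by group
    _ = _ := by simp [v2, Inv.inv_eq_self v2, mul_assoc]

theorem comm_of_inv (hv : ∀ w ∈ A, v * w * v⁻¹ = w⁻¹) {a b : G} (ha : a ∈ A) (hb : b ∈ A) : a * b = b * a := inv_injective (by
  rw [← hv _ (mul_mem ha hb), mul_inv_rev, ← hv a ha, ← hv b hb]; group)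

theorem not_dvd_der (hp : p.Prime) (hi : ¬ p ∣ A.index) (hA : ∀ w ∈ A, w ≠ 1 → PiElt {p} w → 𝐂[w] = A)
    (hN : ∀ g ∈ 𝐍(A), g * g ∈ A) (hM : Odd (Nat.card M)) : ¬ p ∣ Nat.card ↥⁅M, M⁆ := by
  obtain ⟨T, hT⟩ := exists_sylowIn p M
  obtain ⟨S, hS⟩ := exists_sylowIn p A
  obtain ⟨g, -, hg⟩ := SylowIn.exists_cj_le (hS.of_not_dvd_relIndex le_top hp (by simpa using hi)) hT.piGrp le_top
  have h1 : T ⊓ ⁅M, M⁆ ≤ ⊥ := hT.inf_der_le fun x hx u hu hy => by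
    by_cases x1 : x = 1
    · simp [x1]
    have key : ∀ x ∈ T, x ≠ 1 → 𝐂[x] = cj g⁻¹ A := fun x hx x1 => by
      rw [← hA _ (hS.le (hg (conj_mem_cj.2 hx))) (fun e => x1 (conj_eq_one_iff.1 e))
        (hS.piGrp.piElt (hg (conj_mem_cj.2 hx))), cj_centralizer_singleton]
      simp [mul_assoc]
    have h2 : u ∈ 𝐍(cj g⁻¹ A) := by
      rw [mem_normalizer_iff_cj]
      conv_lhs => rw [← key x hx x1, cj_centralizer_singleton, key _ hy fun e => x1 (conj_eq_one_iff.1 e)]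
    rw [← cj_normalizer, mem_cj_inv] at h2
    have h3 : u * u ∈ 𝐂[x] := by
      rw [key x hx x1, mem_cj_inv, ← conj_mul]
      exact hN _ h2
    obtain ⟨n, hn⟩ := hM.of_dvd_nat (orderOf_dvd_card_of_mem hu)
    have h4 : u ∈ 𝐂[x] := by
      rw [← inv_mem_iff, inv_eq_of_mul_eq_one_left (show (u * u) ^ n * u = 1 by
        rw [← sq, ← pow_mul, ← pow_succ, ← hn, pow_orderOf_eq_one])]
      exact pow_mem h3 n
    simp [← mem_cent1_iff.1 h4]
  rw [← SylowIn.ne_bot_iff (hT.inf_normal (der_normalIn M)) hp, not_not]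
  exact le_bot_iff.1 h1

theorem sylow_ti (hp : p.Prime) (h : ∀ D : Subgroup G, PiGrp {p} D → D ≠ ⊥ → PiGrp {p} ⁅𝐍(D), 𝐍(D)⁆) (n : ℕ) :
    ∀ P Q : Subgroup G, SylowIn p P ⊤ → SylowIn p Q ⊤ → P ⊓ Q ≠ ⊥ → Nat.card P ≤ Nat.card ↥(P ⊓ Q) + n → P = Q := by
  haveI := Fact.mk hp
  induction n with
  | zero => exact fun P Q hP hQ _ hc => hP.eq_of_le_hall hQ (inf_eq_left.1 (eq_of_le_of_card_le inf_le_left hc))
  | succ n ih =>
    intro P Q hP hQ hne hc
    by_contra hPQ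
    set D := P ⊓ Q with hD
    have hP' : D < P ⊓ 𝐍(D) := lt_inf_normalizer_pgroup (hP.isPGroup hp) (inf_lt_left.2 fun e => hPQ (hP.eq_of_le_hall hQ e))
    have hQ' : D < Q ⊓ 𝐍(D) := lt_inf_normalizer_pgroup (hQ.isPGroup hp) (inf_lt_right.2 fun e =>
      hPQ (hQ.eq_of_le_hall hP e).symm)
    obtain ⟨R, hR, hSR⟩ := exists_sylowIn_ge (Q := ⁅𝐍(D), 𝐍(D)⁆ ⊔ P ⊓ 𝐍(D) ⊔ Q ⊓ 𝐍(D))
      (((h D (hP.piGrp.of_le inf_le_left) hne).sup (hP.piGrp.of_le inf_le_left)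
        (.inl (inf_le_right.trans (der_normalIn _).norm))).sup (hQ.piGrp.of_le inf_le_left)
        (.inl (inf_le_right.trans (norms_of_der_le le_sup_left (sup_le (der_le _) inf_le_right))))) le_top
    have h1 : D < P ⊓ R := hP'.trans_le (le_inf inf_le_left ((le_sup_of_le_left le_sup_right).trans hSR))
    have h2 : D < Q ⊓ R := hQ'.trans_le (le_inf inf_le_left (le_sup_right.trans hSR))
    exact hPQ ((ih P R hP hR (ne_bot_of_gt h1) (by have := card_lt_of_lt' h1; omega)).trans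
      (ih Q R hQ hR (ne_bot_of_gt h2) (by have := card_lt_of_lt' h2; have := hP.card_eq_card hQ; omega)).symm)

theorem card_class [Fintype G] [DecidableEq G] [DecidableRel (IsConj : G → G → Prop)] (x : G) :
    (Finset.univ.filter (IsConj x)).card = (𝐂[x]).index := by
  rw [← card_isConj, Nat.card_eq_fintype_card, Fintype.card_subtype]

theorem class_subset [Fintype G] [DecidableEq G] [DecidableRel (IsConj : G → G → Prop)] {x : G} {n : ℕ} (hx : x ∈ rts G n) :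
    Finset.univ.filter (IsConj x) ⊆ rts G n := fun y hy => by
  obtain ⟨g, rfl⟩ := isConj_iff.1 (Finset.mem_filter.1 hy).2
  exact mem_rts.2 ⟨fun e => (mem_rts.1 hx).1 (conj_eq_one_iff.1 e), by simp [(mem_rts.1 hx).2]⟩

theorem cc_of_abelian [Fintype G] [DecidableEq G] {n : ℕ} (hn : ∀ x ∈ rts G n, Nat.card 𝐂[x] ∣ n) (hA : Nat.card A = n)
    (hab : ∀ a ∈ A, ∀ b ∈ A, a * b = b * a) (w : G) (hw : w ∈ A) (h1 : w ≠ 1) : 𝐂[w] = A :=
  (eq_of_le_of_card_le (fun a ha => mem_cent1_iff.2 (hab a ha w hw)) (hA ▸ Nat.le_of_dvd (hA ▸ Nat.card_pos)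
    (hn w (mem_rts.2 ⟨h1, orderOf_dvd_iff_pow_eq_one.1 (hA ▸ orderOf_dvd_card_of_mem hw)⟩)))).symm

end tools

namespace BSW
variable {G : Type*} [Group G] [Finite G] {K A M : Subgroup G} {t s x y g v : G} (h : BSW K t s)
include h

theorem inverts (hA : ∀ w ∈ A, w ≠ 1 → OT K w) (v2 : v * v = 1) (v1 : v ≠ 1) (hn : v ∈ 𝐍(A)) (w : G) (hw : w ∈ A) :
    v * w * v⁻¹ = w⁻¹ :=
  inv_of_fpf hn v2 (fun w hw e => by_contra fun h1 => h.not_ot_of_sq v2 (h.ot_cent (hA w hw h1) (mem_cent1_iff.2 e) v1)) hw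

theorem der_of_real (hA : ∀ w ∈ A, w ≠ 1 → OT K w ∧ 𝐂[w] = A) (h1 : A ≠ ⊥) (ht : t ∈ 𝐍(A)) : ⁅𝐍(A), 𝐍(A)⁆ ≤ A := by
  obtain ⟨w, hw, w1⟩ := exists_ne_one_mem' h1
  have inv := fun v v2 v1 hn => h.inverts (v := v) (fun w hw w1 => (hA w hw w1).1) v2 v1 hn
  have mul : ∀ v, v * v = 1 → v ≠ 1 → v ∈ 𝐍(A) → v * t ∈ A := fun v v2 v1 hn => by
    rw [← (hA w hw w1).2, mem_cent1_iff, ← mul_inv_eq_iff_eq_mul,
      show v * t * w * (v * t)⁻¹ = v * (t * w * t⁻¹) * v⁻¹ by group, inv t h.t2 h.t1 ht w hw, inv v v2 v1 hn _ (inv_mem hw), inv_inv]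
  have key : ∀ n ∈ 𝐍(A), ∃ v ∈ K, ∀ a ∈ A, n * a * n⁻¹ = v * a * v⁻¹ := fun n hn => by
    have u2 := Inv.conj_mul_self h.t2 n
    have h2 := mul _ u2 (fun e => h.t1 (conj_eq_one_iff.1 e)) (mul_mem (mul_mem hn ht) (inv_mem hn))
    obtain ⟨j, hj⟩ := Inv.conj_of_odd u2 h.t2 ((Nat.coprime_two_left.1 (h.coprime_index.coprime_mul_left)).of_dvd_nat
      ((orderOf_dvd_card_of_mem h2).trans ((hA w hw w1).2 ▸ h.ot_card (hA w hw w1).1)))
    have h3 := zpow_mem h2 j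
    set a := (n * t * n⁻¹ * t) ^ j
    have h4 : a * n ∈ 𝐂[t] := mem_cent1_iff.2 (mul_inv_eq_iff_eq_mul.1 (.trans (by group) hj))
    have h5 := mul_mem (le_normalizer h3) hn
    refine ⟨a * n, (h.mem_cent.1 h4).resolve_right fun h6 => ?_, fun b hb => ?_⟩
    · have h7 := mul _ (h.sq_of h6) (fun e => h.not_mem h6 (e ▸ one_mem K)) h5
      refine h.not_ot_of_sq ?_ (hA _ h7 fun e => h.not_mem h6 (eq_inv_of_mul_eq_one_left e ▸ inv_mem h.tK)).1
      rw [mul_assoc, ← mul_assoc t, ← mem_cent1_iff.1 h4, mul_assoc _ t, h.t2, mul_one, h.sq_of h6]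
    · rw [show a * n * b * (a * n)⁻¹ = a * (n * b * n⁻¹) * a⁻¹ by group, comm_of_inv (inv t h.t2 h.t1 ht) h3
        (conj_mem_of_mem_normalizer hn hb), mul_inv_cancel_right]
  refine commutator_le.2 fun a ha b hb => ?_
  obtain ⟨u, hu, e1⟩ := key a ha
  obtain ⟨v, hv, e2⟩ := key b hb
  have e : ∀ w ∈ A, a * b * w * (a * b)⁻¹ = b * a * w * (b * a)⁻¹ := fun w hw =>
    calc _ = a * (b * w * b⁻¹) * a⁻¹ := by group
      _ = u * v * w * (u * v)⁻¹ := by rw [e1 _ (conj_mem_of_mem_normalizer hb hw), e2 w hw]; group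
      _ = b * (a * w * a⁻¹) * b⁻¹ := by rw [e2 _ (conj_mem_of_mem_normalizer ha hw), e1 w hw, h.comm hu hv]; group
      _ = _ := by group
  have := e _ (conj_mem_of_mem_normalizer (inv_mem (mul_mem hb ha)) hw)
  rw [← (hA w hw w1).2, mem_cent1_iff, ← mul_inv_eq_iff_eq_mul, commutatorElement_def]
  calc _ = a * b * ((b * a)⁻¹ * w * (b * a)⁻¹⁻¹) * (a * b)⁻¹ := by group
    _ = _ := by rw [this]; group

theorem cent_odd (hx : x ∈ K) (h1 : x * x ≠ 1) : 𝐂[x] = K :=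
  le_antisymm (fun g hg => (h.ti x hx (fun e => h1 (by simp [e])) g (by rwa [mem_cent1_iff.1 hg, mul_inv_cancel_right])).resolve_right
    fun h2 => h1 (mul_eq_one_iff_eq_inv.2 (by rw [← h.inv_of h2 hx, mem_cent1_iff.1 hg, mul_inv_cancel_right])))
    fun g hg => mem_cent1_iff.2 (h.comm hg hx)

theorem der_coprime (hM : Odd (Nat.card M)) {p : ℕ} (hp : p.Prime) (hd : p ∣ Nat.card K * 2) : ¬ p ∣ Nat.card ↥⁅M, M⁆ := by
  by_cases h2 : p = 2
  · exact fun e => hM.not_two_dvd_nat (h2 ▸ e.trans (card_dvd_of_le (der_le M)))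
  refine not_dvd_der hp (A := K) (fun h3 => ?_) (fun w hw w1 hw' => h.cent_odd hw fun e =>
    h2 (hw' 2 Nat.prime_two (Inv.orderOf_eq_two e w1).symm.dvd).symm)
    (fun g hg => (h.ti t h.tK h.t1 g (conj_mem_of_mem_normalizer hg h.tK)).elim (fun e => mul_mem e e)
      fun e => h.sq_of e ▸ one_mem K) hM
  rw [← relIndex_mul_index h.le_cent, relIndex_eq_of_card_eq_mul h.le_cent h.card_cent] at h3
  rcases (Nat.Prime.dvd_mul hp).1 h3 with h3 | h3
  · exact h2 ((Nat.prime_dvd_prime_iff_eq hp Nat.prime_two).1 h3)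
  · exact coprime_iff_forall_prime.1 h.coprime_index p hp hd h3

variable [Fintype G] [DecidableEq G] {q l n : ℕ} {δ : ℤ}

theorem ot_of_mem (hn : n ∣ (𝐂[t]).index) (hA : Nat.card A = n) (w : G) (hw : w ∈ A) (h1 : w ≠ 1) : OT K w :=
  ot_of_coprime h1 (h.coprime_index.coprime_mul_right.symm.coprime_dvd_left ((hA ▸ orderOf_dvd_card_of_mem hw).trans hn))

theorem real_cc (hn : n ∣ (𝐂[t]).index) (hc : ∀ x ∈ rts G n, Nat.card 𝐂[x] ∣ n) (hx : Nat.card 𝐂[x] = n) (hb : beta x ≠ 0) :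
    ∃ A : Subgroup G, Nat.card A = n ∧ (∀ w ∈ A, w ≠ 1 → 𝐂[w] = A) ∧ t ∈ 𝐍(A) := by
  obtain ⟨u, hu⟩ := Finset.card_ne_zero.1 hb
  simp only [Finset.mem_filter, mem_invs] at hu
  obtain ⟨g, rfl⟩ := isConj_iff.1 (h.cls u hu.1.1 hu.1.2)
  have e : g * t * g⁻¹ * x * (g * t * g⁻¹)⁻¹ = x⁻¹ := by
    rw [Inv.inv_eq_self hu.1.1, eq_inv_iff_mul_eq_one, mul_assoc, hu.2.1]
  have h1 : t ∈ 𝐍(cj g⁻¹ 𝐂[x]) := by
    rw [← cj_normalizer, mem_cj_inv, mem_normalizer_iff_cj, cj_centralizer_singleton, e]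
    ext
    simp only [mem_cent1_iff]
    exact Commute.inv_right_iff
  have h2 : Nat.card (cj g⁻¹ 𝐂[x]) = n := by rwa [card_cj]
  exact ⟨_, h2, cc_of_abelian hc h2 fun a ha b hb =>
    comm_of_inv (h.inverts (h.ot_of_mem hn h2) h.t2 h.t1 h1) ha hb, h1⟩

variable (c : Cnt K t q l δ) (h2 : Nat.card K ≠ 2)
include c h2

theorem nums : 4 ≤ Nat.card K ∧ (δ = 1 ∨ δ = -1) ∧ Odd q ∧ Nat.card G = Nat.card K * 2 * (q * l) := by
  have := h.two_dvd
  have := Nat.card_pos (α := K)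
  exact ⟨by omega, Int.eq_one_or_neg_one_of_mul_eq_one c.dd,
    (Nat.coprime_two_left.1 h.coprime_index.coprime_mul_left).of_dvd_nat (c.idx ▸ dvd_mul_right _ _), by rw [← c.idx, h.card_eq]⟩

theorem cent_q (hx : x ∈ rts G q) : Nat.card 𝐂[x] = q ∧ (𝐂[x]).index = 2 * Nat.card K * l := by
  classical
  obtain ⟨k4, d1, oq, hg⟩ := h.nums c h2
  obtain ⟨e, he⟩ := c.cq x hx
  have h1 := Finset.card_le_card (class_subset hx)
  have h3 : (𝐂[x]).index = 2 * Nat.card K * l * e := Nat.eq_of_mul_eq_mul_left (Nat.card_pos (α := 𝐂[x])) (by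
    rw [card_mul_index, hg]; conv_lhs => rw [he]
    ring)
  rw [card_class, c.nq, h3] at h1
  have h4 : e ≤ 2 := Nat.le_of_mul_le_mul_left (c := 2 * Nat.card K * l) (by linarith)
    (Nat.mul_pos (by omega) (by have := c.hl; omega))
  obtain rfl : e = 1 := by
    have := (oq.of_dvd_nat (he ▸ dvd_mul_left _ _ : e ∣ q)).pos
    have := Nat.odd_iff.1 (oq.of_dvd_nat (he ▸ dvd_mul_left _ _ : e ∣ q))
    omega
  exact ⟨by omega, by omega⟩

theorem rhyp_of (hA : Nat.card A = q) (hc : ∀ w ∈ A, w ≠ 1 → 𝐂[w] = A) (hd : ⁅𝐍(A), 𝐍(A)⁆ ≤ A) : RHyp A := by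
  obtain ⟨k4, d1, oq, hg⟩ := h.nums c h2
  have h1 := ncard_of_cc hc
  have := c.hq
  have := c.hl
  rw [hA, ← card_rts, c.nq] at h1
  have h3 : 𝐍(A).index = q + 1 := Nat.eq_of_mul_eq_mul_left (by omega : 0 < q - 1) (by
    rw [← h1]
    zify [(by omega : 1 ≤ q)]
    rw [c.hq, c.hl]
    linear_combination -c.dd)
  refine ⟨fun u hu u1 => (hc u hu u1).le, ?_, hd, hA ▸ h3⟩
  have h4 := (𝐍(A)).card_mul_index
  rw [← card_mul_relIndex (le_normalizer (H := A)), hA, h3, hg] at h4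
  rw [hA]
  refine Nat.eq_of_mul_eq_mul_left (Nat.mul_pos oq.pos q.succ_pos) ?_
  zify at h4 ⊢
  linear_combination -2 * h4 + (q + 2 * Nat.card K + δ) * q * c.hq - 4 * Nat.card K * q * c.hl + q * c.dd

theorem prime_pow {p r : ℕ} (hp : p.Prime) (hr : r.Prime) (h1 : p ∣ q) (h3 : r ∣ q) : r = p := by
  classical
  by_contra hne
  obtain ⟨k4, d1, oq, hg⟩ := h.nums c h2
  have mem : ∀ y : G, orderOf y ∣ q → orderOf y ≠ 1 → y ∈ rts G q := fun y h1 h2 =>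
    mem_rts.2 ⟨mt orderOf_eq_one_iff.2 h2, orderOf_dvd_iff_pow_eq_one.1 h1⟩
  obtain ⟨z, -, hz⟩ := exists_orderOf_eq_prime (A := (⊤ : Subgroup G)) hp (by
    rw [card_top, hg]; exact (h1.mul_right _).mul_left _)
  have z1 := mem z (hz ▸ h1) (hz ▸ hp.one_lt.ne')
  obtain ⟨y, hy, ho⟩ := exists_orderOf_eq_prime hr ((h.cent_q c h2 z1).1 ▸ h3)
  have cp := (Nat.coprime_primes hr hp).2 hne
  have o3 : orderOf (y * z) = r * p := by
    rw [Commute.orderOf_mul_eq_mul_orderOf_of_coprime (mem_cent1_iff.1 hy) (by rwa [ho, hz]), ho, hz]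
  have y1 := mem y (ho ▸ h3) (ho ▸ hr.one_lt.ne')
  have w1 := mem _ (o3 ▸ cp.mul_dvd_of_dvd_of_dvd h3 h1) (o3 ▸ fun e => hp.one_lt.ne' (Nat.eq_one_of_mul_eq_one_left e))
  have dj : ∀ a b : G, orderOf a ≠ orderOf b → Disjoint (Finset.univ.filter (IsConj a)) (Finset.univ.filter (IsConj b)) :=
    fun a b e => Finset.disjoint_left.2 fun x h1 h2 => e (by
      obtain ⟨g, rfl⟩ := isConj_iff.1 ((Finset.mem_filter.1 h1).2.trans (Finset.mem_filter.1 h2).2.symm)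
      rw [orderOf_conj'])
  have h4 := Finset.card_le_card (Finset.union_subset (Finset.union_subset (class_subset z1) (class_subset y1)) (class_subset w1))
  rw [Finset.card_union_of_disjoint (Finset.disjoint_union_left.2 ⟨dj _ _ (by
      rw [hz, o3]; exact fun e => hr.one_lt.ne' (Nat.eq_of_mul_eq_mul_right hp.pos (by omega))), dj _ _ (by
      rw [ho, o3]; exact fun e => hp.one_lt.ne' (Nat.eq_of_mul_eq_mul_left hr.pos (by omega)))⟩),
    Finset.card_union_of_disjoint (dj _ _ (by rw [hz, ho]; exact Ne.symm hne)), card_class, card_class, card_class,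
    (h.cent_q c h2 z1).2, (h.cent_q c h2 y1).2, (h.cent_q c h2 w1).2, c.nq] at h4
  have : 0 < Nat.card K * l := Nat.mul_pos (by omega) (by have := c.hl; omega)
  nlinarith

theorem exists_l (hb : ∀ x ∈ rts G q, beta x = 0) : ∃ L : Subgroup G, Nat.card L = l ∧ (∀ w ∈ L, w ≠ 1 → 𝐂[w] = L) ∧
    ∀ g ∈ 𝐍(L), g * g ∈ L := by
  obtain ⟨k4, d1, oq, hg⟩ := h.nums c h2
  have e1 := c.pair
  have e2 := c.nl
  have e3 := c.hq
  have e4 := c.hl
  have l0 : 0 < l := by omega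
  have le : ∀ y ∈ rts G l, beta y ≤ l := fun y hy => (beta_le y).trans (Nat.le_of_dvd l0 (c.cl y hy))
  have h1 := Finset.sum_le_sum le
  rw [Finset.sum_eq_zero hb] at e1
  rw [Finset.sum_const, smul_eq_mul] at h1
  have h3 : ((∑ y ∈ rts G l, beta y : ℕ) : ℤ) = q * l * (q * l - 1 - Nat.card K * (Nat.card K - 1)) := by
    push_cast at e1 ⊢; linear_combination -e1
  obtain rfl : δ = -1 := d1.resolve_left fun e => by
    subst e
    have h4 : q * l * (q * l - 1 - Nat.card K * (Nat.card K - 1) : ℤ) ≤ q * l * (1 + l * (Nat.card K - 1)) := by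
      zify at h1; push_cast at h3; nlinarith
    have := le_of_mul_le_mul_left h4 (mul_pos (by omega) (by omega))
    rw [e3, e4] at this
    nlinarith
  have h5 : ((rts G l).card : ℤ) = q * ((l - 1) * (l + 1)) := by rw [e2, e4]; ring
  obtain ⟨y, hy⟩ : (rts G l).Nonempty := Finset.card_pos.1 (by
    zify; rw [h5]; exact mul_pos (by omega) (mul_pos (by omega) (by omega)))
  have h6 := (Finset.sum_eq_sum_iff_of_le le).1 (by
    rw [Finset.sum_const, smul_eq_mul]; zify; push_cast at h3; rw [h3, h5, e3, e4]; ring) y hy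
  obtain ⟨L, hL, hc, -⟩ := h.real_cc (c.idx ▸ dvd_mul_left _ _) c.cl
    (le_antisymm (Nat.le_of_dvd l0 (c.cl y hy)) (h6 ▸ beta_le y)) (by omega)
  have h7 := ncard_of_cc hc
  rw [hL, ← card_rts] at h7
  have h8 : 𝐍(L).index = q * Nat.card K := Nat.eq_of_mul_eq_mul_left (by omega : 0 < l - 1) (by
    rw [← h7]; zify [(by omega : 1 ≤ l)]; rw [h5, e4]; ring)
  have h9 := (𝐍(L)).card_mul_index
  rw [← card_mul_relIndex (le_normalizer (H := L)), hL, h8, hg] at h9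
  have h10 : L.relIndex 𝐍(L) = 2 := Nat.eq_of_mul_eq_mul_left (Nat.mul_pos l0 (Nat.mul_pos oq.pos Nat.card_pos) :
    0 < l * (q * Nat.card K)) (by linarith)
  exact ⟨L, hL, hc, fun g hg => mul_self_mem_of_index_two h10 ⟨g, hg⟩⟩

theorem exists_rhyp : ∃ Q : Subgroup G, RHyp Q := by
  obtain ⟨k4, d1, oq, hg⟩ := h.nums c h2
  have q1 : q ≠ 1 := by have := c.hq; omega
  have qd : q ∣ (𝐂[t]).index := c.idx ▸ dvd_mul_right _ _
  by_cases hb : ∀ x ∈ rts G q, beta x = 0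
  swap
  · push Not at hb
    obtain ⟨x, hx, hb⟩ := hb
    obtain ⟨A, hA, hc, ht⟩ := h.real_cc qd c.cq (h.cent_q c h2 hx).1 hb
    exact ⟨A, h.rhyp_of c h2 hA hc (h.der_of_real (fun w hw w1 => ⟨h.ot_of_mem qd hA w hw w1, hc w hw w1⟩)
      (fun e => q1 (by simp [← hA, e])) ht)⟩
  obtain ⟨L, hL, hc, hN⟩ := h.exists_l c h2 hb
  obtain ⟨p, hp, hd⟩ := Nat.exists_prime_and_dvd q1
  have cq : (Nat.card K * 2).Coprime (q * l) := c.idx ▸ h.coprime_index
  have syl : ∀ P : Subgroup G, Nat.card P = q → SylowIn p P ⊤ := fun P hP => isPiHallOf_mk le_top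
    (fun r hr e => h.prime_pow c h2 hp hr hd (hP ▸ e)) fun r hr e (e' : r = p) => by
      rw [relIndex_top_right, show P.index = Nat.card K * 2 * l from Nat.eq_of_mul_eq_mul_left oq.pos (by
        conv_lhs => rw [← hP, card_mul_index, hg]
        ring)] at e
      exact coprime_iff_forall_prime.1 (cq.coprime_mul_right_right.symm.mul_right c.cop) r hr (e' ▸ hd) e
  obtain ⟨z, -, hz⟩ := exists_orderOf_eq_prime (A := (⊤ : Subgroup G)) hp (by
    rw [card_top, hg]; exact (hd.mul_right _).mul_left _)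
  have z1 : z ≠ 1 := fun e => hp.one_lt.ne (by simpa [e] using hz)
  have hP := (h.cent_q c h2 (mem_rts.2 ⟨z1, orderOf_dvd_iff_pow_eq_one.1 (hz ▸ hd)⟩)).1
  have der : ∀ D : Subgroup G, PiGrp {p} D → D ≠ ⊥ → PiGrp {p} ⁅𝐍(D), 𝐍(D)⁆ := fun D hD D1 r hr e => by
    have hDq : Nat.card D ∣ q := hP ▸ (syl _ hP).card_dvd hD le_top
    have hM : Odd (Nat.card 𝐍(D)) := Nat.not_even_iff_odd.1 fun e => by
      obtain ⟨u, hu, ho⟩ := exists_orderOf_eq_prime Nat.prime_two e.two_dvd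
      obtain ⟨u2, u1⟩ := Inv.orderOf_eq_two_iff.1 ho
      obtain ⟨w, hw, w1⟩ := exists_ne_one_mem' D1
      have ot := h.ot_of_mem (hDq.trans qd) rfl
      have e := h.inverts ot u2 u1 hu w hw
      refine (show beta w ≠ 0 from Finset.card_ne_zero.2 ⟨u, Finset.mem_filter.2 ⟨mem_invs.2 ⟨u2, u1⟩, mem_invs.2 ⟨?_, fun e' => ?_⟩⟩⟩)
        (hb w (mem_rts.2 ⟨w1, orderOf_dvd_iff_pow_eq_one.1 ((orderOf_dvd_card_of_mem hw).trans hDq)⟩))
      · rw [← mul_assoc, ← eq_inv_iff_mul_eq_one, ← e, Inv.inv_eq_self u2]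
      · exact h.not_ot_of_sq (by rw [eq_inv_of_mul_eq_one_right e', ← mul_inv_rev, u2, inv_one]) (ot w hw w1)
    have e' := e.trans (card_subgroup_dvd_card _)
    rw [hg, hr.dvd_mul, hr.dvd_mul (m := q)] at e'
    rcases e' with e' | e' | e'
    · exact absurd e (h.der_coprime hM hr e')
    · exact h.prime_pow c h2 hp hr hd e'
    refine absurd e (not_dvd_der hr (fun h3 => ?_) (fun w hw w1 _ => hc w hw w1) hN hM)
    rw [show L.index = Nat.card K * 2 * q from Nat.eq_of_mul_eq_mul_left (hL ▸ Nat.card_pos : 0 < l) (by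
      conv_lhs => rw [← hL, card_mul_index, hg]
      ring)] at h3
    exact coprime_iff_forall_prime.1 (cq.coprime_mul_left_right.symm.mul_right c.cop.symm) r hr e' h3
  refine ⟨𝐂[z], h.rhyp_of c h2 hP (fun w hw w1 => ?_) ((SylowIn.le_of_norm' (syl _ hP)
    (der _ (syl _ hP).piGrp (ne_bot_of_mem (self_mem_cent1 z) z1)) le_top (der_le _)))⟩
  exact sylow_ti hp der _ _ _ (syl _ (h.cent_q c h2 (mem_rts.2 ⟨w1, orderOf_dvd_iff_pow_eq_one.1
    (hP ▸ orderOf_dvd_card_of_mem hw)⟩)).1) (syl _ hP) (ne_bot_of_mem ⟨self_mem_cent1 w, hw⟩ w1) (Nat.le_add_left _ _)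

end BSW

/-- The Brauer-Suzuki-Wall theorem. -/
theorem BSW.psl {G : Type*} [Group G] [Finite G] [IsSimpleGroup G] {K : Subgroup G} {t s : G} (h : BSW K t s)
    (hG : commutator G = ⊤) : ∃ (F : Type) (_ : Field F) (_ : Fintype F), Odd (Fintype.card F) ∧
      Nonempty (G ≃* Matrix.ProjectiveSpecialLinearGroup (Fin 2) F) := by
  classical
  let := Fintype.ofFinite G
  by_cases h2 : Nat.card K = 2
  · haveI : Fact (Nat.Prime 5) := ⟨by norm_num⟩
    exact ⟨ZMod 5, inferInstance, inferInstance, by simp [ZMod.card]; decide,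
      psl_prime (p := 5) (by simp) (by rw [h.card_four hG h2]; rfl) (ZMod.card 5)⟩
  obtain ⟨q, l, δ, c⟩ := h.exists_cnt h2
  obtain ⟨Q, hQ⟩ := h.exists_rhyp c h2
  exact hQ.exists_equiv0 hG

end CA.Zas
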