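/-
The Brauer-Suzuki-Wall theorem, part 5: dihedral Sylow 2-subgroups.
-/
import Cfsg.Agent.Lib.Zas.BSW4

set_option autoImplicit false
set_option linter.unusedSectionVars false

open Cfsg Subgroup CA

namespace CA.Zas

section
open DihedralGroup
variable {n : ℕ}

theorem dih_inv (hn : 2 ≤ n) {R : Subgroup (DihedralGroup n)} (hc : IsCyclic R) (hi : R.index = 2) {s : DihedralGroup n}
    (hs : s ∉ R) : s * s = 1 ∧ ∀ x ∈ R, s * x * s⁻¹ = x⁻¹ := by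
  haveI : NeZero n := ⟨by omega⟩
  obtain ⟨ρ, rfl⟩ := (R.isCyclic_iff_exists_zpowers_eq_top).1 hc
  have h1 := (zpowers ρ).card_mul_index
  rw [hi, DihedralGroup.nat_card, Nat.card_zpowers] at h1
  rcases ρ with i | i
  · have h2 : zpowers (r i) = zpowers (r (1 : ZMod n)) := eq_of_le_of_card_eq (zpowers_le.2 ⟨i.val, by simp⟩) (by
      rw [Nat.card_zpowers, Nat.card_zpowers, orderOf_r_one]; omega)
    rw [h2] at hs ⊢
    rcases s with j | j
    · exact absurd ⟨j.val, by simp⟩ hs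
    · refine ⟨sr_mul_self j, ?_⟩
      rintro _ ⟨k, rfl⟩
      simp
  · obtain rfl : n = 2 := by rw [orderOf_sr] at h1; omega
    exact ⟨(by decide : ∀ s : DihedralGroup 2, s * s = 1) s,
      fun x _ => (by decide : ∀ s x : DihedralGroup 2, s * x * s⁻¹ = x⁻¹) s x⟩

theorem dih_exists (hn : 2 ≤ n) {τ : DihedralGroup n} (h1 : τ ≠ 1) (hc : ∀ x, x * τ = τ * x) :
    ∃ R : Subgroup (DihedralGroup n), IsCyclic R ∧ R.index = 2 ∧ τ ∈ R := by
  haveI : NeZero n := ⟨by omega⟩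
  have key : ∀ ρ : DihedralGroup n, orderOf ρ = n → (zpowers ρ).index = 2 := fun ρ e => by
    have h1 := (zpowers ρ).card_mul_index
    rw [DihedralGroup.nat_card, Nat.card_zpowers, e, mul_comm] at h1
    exact Nat.eq_of_mul_eq_mul_right (by omega) h1
  rcases τ with i | i
  · exact ⟨_, inferInstance, key _ orderOf_r_one, i.val, by simp⟩
  · have h2 : ((2 : ℕ) : ZMod n) = 0 := by
      have : i - 1 = i + 1 := by simpa using hc (r 1)
      push_cast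
      linear_combination -this
    exact ⟨_, inferInstance, key _ ((orderOf_sr i).trans (le_antisymm hn (Nat.le_of_dvd two_pos
      ((ZMod.natCast_eq_zero_iff _ _).1 h2)))), mem_zpowers _⟩

end

variable {G : Type*} [Group G] [Finite G] {K O P R : Subgroup G} {t s a b : G} {n : ℕ}

theorem uniq_of_cyclic (hc : IsCyclic R) (ha : a ∈ R) (hb : b ∈ R) (a2 : a * a = 1) (b2 : b * b = 1) (a1 : a ≠ 1)
    (b1 : b ≠ 1) : a = b := by
  classical
  let := Fintype.ofFinite R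
  by_contra hne
  refine (IsCyclic.card_pow_eq_one_le (α := R) two_pos).not_gt (Finset.two_lt_card_iff.2 ⟨1, ⟨a, ha⟩, ⟨b, hb⟩, ?_⟩)
  simp [Subtype.ext_iff, sq, a2, b2, a1.symm, b1.symm, hne]

theorem dih_inv' (hn : 2 ≤ n) (e : P ≃* DihedralGroup n) (hR : R ≤ P) (hc : IsCyclic R) (hi : R.relIndex P = 2) (hP : s ∈ P)
    (hs : s ∉ R) : s * s = 1 ∧ ∀ x ∈ R, s * x * s⁻¹ = x⁻¹ := by
  obtain ⟨h1, h2⟩ := dih_inv hn (R := (R.subgroupOf P).map e.toMonoidHom) (s := e ⟨s, hP⟩)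
    (isCyclic_of_surjective _ ((subgroupOfEquivOfLe hR).symm.trans (e.subgroupMap _)).surjective)
    ((index_map_equiv _ e).trans hi) fun h => hs (by simpa [mem_subgroupOf] using h)
  refine ⟨congrArg Subtype.val (e.injective (a₁ := ⟨s, hP⟩ * ⟨s, hP⟩) (a₂ := 1) (by rwa [map_mul, map_one])), fun x hx => ?_⟩
  exact congrArg Subtype.val (e.injective (a₁ := ⟨s, hP⟩ * ⟨x, hR hx⟩ * ⟨s, hP⟩⁻¹) (a₂ := ⟨x, hR hx⟩⁻¹)
    (by rw [map_mul, map_mul, map_inv, map_inv]; exact h2 _ ⟨_, hx, rfl⟩))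

theorem dih_exists' (hn : 2 ≤ n) (e : P ≃* DihedralGroup n) (ht : t ∈ P) (h1 : t ≠ 1) (hc : ∀ x ∈ P, x * t = t * x) :
    ∃ R ≤ P, IsCyclic R ∧ R.relIndex P = 2 ∧ t ∈ R := by
  obtain ⟨R, h2, h3, h4⟩ := dih_exists hn (τ := e ⟨t, ht⟩) (by simpa [Subtype.ext_iff] using h1) fun x => by
    obtain ⟨x, rfl⟩ := e.surjective x
    rw [← map_mul, ← map_mul]
    exact congrArg e (Subtype.ext (hc x x.2))
  refine ⟨(R.comap e.toMonoidHom).map P.subtype, map_subtype_le _, ?_, ?_, _, h4, rfl⟩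
  · rw [PG.isCyclic_map_iff P.subtype_injective, ← PG.isCyclic_map_iff (f := e.toMonoidHom) e.injective,
      map_comap_eq_self_of_surjective e.surjective]
    exact h2
  · rw [relIndex, ← comap_subtype, comap_map_eq_self_of_injective P.subtype_injective,
      index_comap_of_surjective _ e.surjective, h3]

theorem cls_of_cyclic (hG : commutator G = ⊤) (hP : SylowIn 2 P ⊤) (hR : R ≤ P) (hc : IsCyclic R) (hi : R.relIndex P = 2)
    (ht : t ∈ R) (t2 : t * t = 1) (t1 : t ≠ 1) (u : G) (u2 : u * u = 1) (u1 : u ≠ 1) : IsConj t u := by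
  have h1 := fix_four hG R ((pow_two u).trans u2)
  have h2 := hP.not_dvd Nat.prime_two
  rw [← relIndex_mul_index hR, hi, Nat.ModEq] at h1
  rw [relIndex_top_right] at h2
  obtain ⟨g, hg⟩ := exists_of_fix_pos (H := R) (x := u) (by omega)
  exact isConj_iff.2 ⟨g, by
    rw [← uniq_of_cyclic hc hg ht (by simpa using Inv.conj_mul_self u2 g⁻¹) t2 (fun e => u1 ((conj_eq_one_iff (a := g⁻¹)).1 (by rwa [inv_inv]))) t1]
    group⟩

theorem bsw_of (hG : commutator G = ⊤) (hP : SylowIn 2 P ⊤) (hn : 2 ≤ n) (e : P ≃* DihedralGroup n) (t2 : t * t = 1) (t1 : t ≠ 1)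
    (hC : P ≤ 𝐂[t]) (hO : IsPiHallOf {2}ᶜ O 𝐂[t]) (hN : 𝐂[t] ≤ 𝐍(O)) (hR : R ≤ P) (hc : IsCyclic R) (hi : R.relIndex P = 2)
    (ht : t ∈ R) (hRO : R ≤ 𝐂(O)) (hb : ∀ s ∈ P, s ∉ R → ∀ y ∈ O, s * y * s⁻¹ = y⁻¹) (hO' : ∀ y ∈ O, y ≠ 1 → 𝐂[y] ≤ 𝐂[t]) :
    ∃ s, BSW (O ⊔ R) t s := by
  obtain ⟨s, hs, hs'⟩ := SetLike.exists_of_lt (lt_of_le_of_ne hR fun e => by simp [e] at hi)
  obtain ⟨s2, inv⟩ := dih_inv' hn e hR hc hi hs hs'
  have mem : ∀ {x}, x ∈ O ⊔ R ↔ ∃ a ∈ O, ∃ b ∈ R, a * b = x := mem_sup_of_norm_right ((hR.trans hC).trans hN)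
  have cm : ∀ a ∈ O, ∀ b ∈ R, a * b = b * a := fun a ha b hb => hRO hb a ha
  have bot : ∀ a ∈ O, a ∈ P → a = 1 := fun a h1 h2 => mem_bot.1 (hO.piGrp.inf_eq_bot' hP.piGrp ▸ ⟨h1, h2⟩)
  have inv' : ∀ x ∈ O ⊔ R, s * x * s⁻¹ = x⁻¹ := fun x hx => by
    obtain ⟨a, ha, b, hb', rfl⟩ := mem.1 hx
    rw [← conj_mul, hb s hs hs' a ha, inv b hb', cm a ha b hb', mul_inv_rev]
  have uq : ∀ x ∈ O ⊔ R, x * x = 1 → x ≠ 1 → x = t := fun x hx x2 x1 => by
    obtain ⟨a, ha, b, hb', rfl⟩ := mem.1 hx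
    have h1 : a * a * (b * b) = 1 := by rw [← x2, mul_assoc, mul_assoc, ← mul_assoc b, ← cm a ha b hb', mul_assoc]
    obtain rfl : a = 1 := by_contra fun a1 => hO.piGrp.piElt ha 2 Nat.prime_two (Inv.orderOf_eq_two (bot _ (mul_mem ha ha)
      (eq_inv_of_mul_eq_one_left h1 ▸ hR (inv_mem (mul_mem hb' hb')))) a1).symm.dvd rfl
    exact uniq_of_cyclic hc (by simpa using hb') ht x2 t2 x1 t1
  have cent : ∀ g ∈ 𝐂[t], g ∈ O ⊔ R ∨ g * s ∈ O ⊔ R := fun g hg => by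
    rw [← IsPiHallOf.compl_sup (hP.of_le hC le_top) hO, mem_sup_of_norm_left (hC.trans hN)] at hg
    obtain ⟨p, hp, a, ha, rfl⟩ := hg
    by_cases h1 : p ∈ R
    · exact .inl (mul_mem (mem_sup_right h1) (mem_sup_left ha))
    have h2 : p * s ∈ R := (mul_mem_iff_of_index_two hi (a := ⟨p, hp⟩) (b := ⟨s, hs⟩)).2 (iff_of_false h1 hs')
    rw [show p * a * s = p * s * (s⁻¹ * a * s⁻¹⁻¹) by group, Inv.inv_eq_self s2, hb s hs hs' a ha]
    exact .inr (mul_mem (mem_sup_right h2) (mem_sup_left (inv_mem ha)))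
  have le : O ⊔ R ≤ 𝐂[t] := sup_le hO.le (hR.trans hC)
  refine ⟨s, t2, t1, mem_sup_right ht, s2, fun h => ?_, inv', uq, fun x hx x1 g hg => cent g ?_,
    cls_of_cyclic hG hP hR hc hi ht t2 t1⟩
  · obtain ⟨a, ha, b, hb', e⟩ := mem.1 h
    rw [bot a ha (eq_mul_inv_of_mul_eq e ▸ mul_mem hs (inv_mem (hR hb'))), one_mul] at e
    exact hs' (e ▸ hb')
  refine mem_cent1_iff.2 (mul_inv_eq_iff_eq_mul.1 (uq _ ?_ (Inv.conj_mul_self t2 g) fun e => t1 (conj_eq_one_iff.1 e)))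
  obtain ⟨p, hp, hd⟩ := Nat.exists_prime_and_dvd (mt orderOf_eq_one_iff.1 x1)
  have ho := orderOf_pow_orderOf_div (orderOf_pos x).ne' hd
  have h1 := pow_mem hx (orderOf x / p)
  have h2 := pow_mem hg (orderOf x / p)
  rw [conj_pow] at h2
  set y := x ^ (orderOf x / p)
  have y1 : y ≠ 1 := fun e => hp.one_lt.ne (by simpa [e] using ho)
  by_cases h3 : p = 2
  · rwa [← uq y h1 (Inv.mul_self_of_orderOf (ho.trans h3)) y1]
  have h4 : PiElt {2}ᶜ (g * y * g⁻¹) := (piElt_of_orderOf_prime hp ((orderOf_conj' g y).trans ho)).2 h3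
  have h5 : g * t * g⁻¹ ∈ 𝐂[g * y * g⁻¹] := by
    rw [← cj_centralizer_singleton, conj_mem_cj, mem_cent1_iff, mem_cent1_iff.1 (le h1)]
  refine (cent _ (hO' _ (hO.mem_of_normal hN (le h2) h4) (fun e => y1 (conj_eq_one_iff.1 e)) h5)).resolve_right fun h6 => ?_
  set v := g * t * g⁻¹
  set z := g * y * g⁻¹
  have h7 := comm_of_inv inv' h6 h2
  rw [mul_assoc v, ← mul_assoc z, ← mem_cent1_iff.1 h5, mul_assoc v, mul_right_inj, ← mul_inv_eq_iff_eq_mul, inv' z h2] at h7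
  exact h4 2 Nat.prime_two (Inv.orderOf_eq_two (mul_eq_one_iff_eq_inv.2 h7.symm) fun e =>
    y1 (conj_eq_one_iff.1 e)).symm.dvd rfl

end CA.Zas
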