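/-
There are no simple groups of order 720, 756, 1008, 1040 or 1080.
-/
import Cfsg.Agent.Lib.Zas.Small

set_option autoImplicit false
set_option linter.unusedSectionVars false

open Cfsg Subgroup CA Equiv Matrix

namespace CA.Zas

variable {G : Type*} [Group G] [Finite G] [IsSimpleGroup G] {H K L M P Q R X Y : Subgroup G} {x y z w g : G} {p a : ℕ}

theorem conj_sq_eq_one {G : Type*} [Group G] {x : G} {n : ℕ} (h : x ^ n = 1) (g : G) : (g⁻¹ * x * g) ^ n = 1 := by
  simpa [h] using conj_pow (a := g⁻¹) (b := x) (i := n)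

theorem conj_ne_one {G : Type*} [Group G] {x : G} (h : x ≠ 1) (g : G) : g⁻¹ * x * g ≠ 1 := fun e =>
  h (conj_eq_one_iff.1 (by simpa using e : g⁻¹ * x * g⁻¹⁻¹ = 1))

/-- A subgroup of order `p` of a larger Sylow subgroup is centralized by a subgroup of order `p ^ 2`. -/
theorem sq_dvd_card_cent (hp : p.Prime) (hX : Nat.card X = p) (h : p ^ 2 ∣ Nat.card G) : p ^ 2 ∣ Nat.card 𝐂(X) := by
  haveI := Fact.mk hp
  obtain ⟨P, hP, hXP⟩ := exists_sylowIn_ge (piGrp_of_card_pow hp (hX.trans (pow_one p).symm)) (le_top : X ≤ ⊤)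
  have h1 := lt_inf_normalizer_pgroup (hP.isPGroup hp) (hXP.lt_of_ne fun e => by
    rw [hp.pow_dvd_iff_le_factorization Nat.card_pos.ne', ← card_top] at h
    have := hP.card_eq_pow hp
    rw [← e, hX] at this
    exact absurd (Nat.pow_right_injective hp.two_le ((pow_one p).trans this)) (by omega))
  have h2 : PiGrp {p} (P ⊓ 𝐍(X)) := hP.piGrp.inf_left _
  obtain ⟨k, hk⟩ := (piGrp_singleton_iff_card hp).1 h2
  have h3 : p ^ 1 < p ^ k := by rw [pow_one, ← hk]; exact hX ▸ card_lt_of_lt' h1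
  exact (pow_dvd_pow p ((Nat.pow_lt_pow_iff_right hp.one_lt).1 h3)).trans (hk ▸ card_dvd_of_le'
    (cents_symm (le_cent_of_card_eq_prime (h2.isPGroup hp) inf_le_right hX)))

theorem cent_index (hG : commutator G = ⊤) (hx : x ≠ 1) {n : ℕ} (hn : Nat.card G = n) {m : ℕ} (hm : m ∣ Nat.card 𝐂[x])
    {l : List ℕ} (h : anyLt (fun k => n % (m * k) == 0 && idx n (n / (m * k)) && npp (n / (m * k)) && !l.contains k)
      (n + 1) = false) : ∃ k ∈ l, Nat.card 𝐂[x] = m * k := by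
  obtain ⟨k, hk⟩ := hm
  refine ⟨k, by_contra fun hl => ?_, hk⟩
  have h1 := (𝐂[x]).card_mul_index
  have h0 := card_pos' 𝐂[x]
  have h2 : n / (m * k) = (𝐂[x]).index := by rw [← hn, ← h1, ← hk, Nat.mul_div_cancel_left _ h0]
  have h3 : m * k ∣ n := by rw [← hn, ← hk]; exact card_subgroup_dvd_card _
  refine Bool.not_eq_true _ ▸ h <| anyLt_iff.2 ⟨k, Nat.lt_succ_of_le (Nat.le_of_dvd (hn ▸ Nat.card_pos)
    ((Dvd.intro_left _ rfl).trans h3)), ?_⟩
  simp only [Bool.and_eq_true, beq_iff_eq, ← Nat.dvd_iff_mod_eq_zero, h2, idx_iff]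
  exact ⟨⟨⟨h3, hn ▸ dvd_factorial hG (cent1_ne_top hG hx)⟩, npp_of fun l hl => not_dvd_pow hG hx hl _⟩, by simpa using hl⟩

theorem cent_relIndex (hG : commutator G = ⊤) (hp : p.Prime) (hP : SylowIn p P ⊤) (hc : Nat.card P = p) :
    ∃ e, e ≠ 1 ∧ e ∣ p - 1 ∧ p * (P.relIndex 𝐂(P) * e) * 𝐍(P).index = Nat.card G ∧ P ≤ 𝐂(P) := by
  have hPC : P ≤ 𝐂(P) := abelian_iff.1 (abelian_of_cyclic (isCyclic_of_prime_card' (hc ▸ hp)))
  refine ⟨_, fun h => not_norm_le_cent hG hP (ne_bot_of_prime_card (hc ▸ hp)) (relIndex_eq_one.1 h),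
    relIndex_cent_dvd_pred_of_prime hp hc le_rfl, ?_, hPC⟩
  rw [relIndex_mul_relIndex _ _ _ hPC (centralizer_le_normalizer _), ← hc, card_mul_relIndex le_normalizer,
    card_mul_index]

theorem not_756 (hn : Nat.card G = 756) : False := by
  haveI := Fact.mk Nat.prime_three
  have hG := perfect_of_card (G := G) (by rw [hn]; norm_num)
  have key : ∀ Y : Subgroup G, PiGrp {3} Y → 3 ^ 2 ∣ Nat.card Y → PiGrp {3} 𝐍(Y) := fun Y hY h9 => by
    obtain ⟨P, hP, hYP⟩ := exists_sylowIn_ge hY (le_top : Y ≤ ⊤)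
    obtain ⟨P', hP', hc⟩ := exists_sylow_card (G := G) (a := 3) Nat.prime_three (by rw [hn]; norm_num)
      (by rw [hn]; norm_num)
    rw [hP'.card_eq_card hP] at hc
    have hd : 𝐍(P).index = 28 := by
      simpa using index_mem hG Nat.prime_three hP hc three_pos hn (l := [28]) (by decide +kernel)
    have h1 := 𝐍(P).card_mul_index
    have hN : P = 𝐍(P) := eq_of_le_of_card_eq le_normalizer (by rw [hd] at h1; omega)
    have h2 : P ≤ 𝐍(Y) := by
      have h3 := card_mul_relIndex hYP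
      obtain ⟨k, hk⟩ := h9
      rcases (Nat.dvd_prime Nat.prime_three).1 (show Y.relIndex P ∣ 3 from ⟨k, by rw [hk, hc] at h3; linarith⟩) with e | e
      · exact (relIndex_eq_one.1 e).trans le_normalizer
      · exact norm_of_relIndex_eq_prime (hP.isPGroup Nat.prime_three) hYP e
    have h3 := sylow_count Nat.prime_three (hP.of_le h2 le_top)
    have h4 := dvd_factorial hG (norm_ne_top (X := Y) (fun e => by simp [e] at h9) fun e => by
      have := card_le_of_le' (e.ge.trans hYP)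
      rw [card_top] at this
      omega)
    have h5 := relIndex_mul_index h2
    rw [← hN] at h3 hd
    rw [hd] at h5
    have h6 := le_of_dvd_factorial (hn ▸ h4) (k := 8) (by decide)
    have h7 : P.relIndex 𝐍(Y) * 8 ≤ 28 := h5 ▸ Nat.mul_le_mul_left _ h6
    exact hP.piGrp.of_le (relIndex_eq_one.1 (by unfold Nat.ModEq at h3; omega))
  obtain ⟨X, Q, q, hX, h1, -, hq3, hQ, h2, h3⟩ := frobenius_perfect hG Nat.prime_three (by rw [hn]; norm_num)
  refine h3 ?_
  obtain ⟨k, hk⟩ := (piGrp_singleton_iff_card Nat.prime_three).1 hX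
  by_cases h4 : 2 ≤ k
  · rw [((key X hX (hk ▸ pow_dvd_pow 3 h4)).of_le h2).eq_bot (hQ.compl_singleton fun e => hq3 e.symm)]
    exact bot_le
  have h5 : Nat.card X = 3 := by
    have : k ≠ 0 := fun e => h1 (card_eq_one.1 (by simpa [e] using hk))
    rw [hk, show k = 1 by omega, pow_one]
  obtain ⟨Y, hY⟩ := exists_sylowIn 3 𝐂(X)
  have h6 := key Y hY.piGrp (by
    rw [hY.card_eq_pow Nat.prime_three]
    exact pow_dvd_pow 3 ((Nat.prime_three.pow_dvd_iff_le_factorization (card_ne_zero' _)).1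
      (sq_dvd_card_cent Nat.prime_three h5 (by rw [hn]; norm_num))))
  rw [← frattini_arg ⟨centralizer_le_normalizer _, normalizer_le_normalizer_centralizer X⟩ hY] at h2
  exact h2.trans (sup_le le_rfl (cents_symm (le_cent_of_card_eq_prime ((h6.inf_right _).isPGroup Nat.prime_three)
    inf_le_left h5)))

theorem not_1008 (hn : Nat.card G = 1008) : False := by
  have hG := perfect_of_card (G := G) (by rw [hn]; norm_num)
  have hp : Nat.Prime 7 := by norm_num
  obtain ⟨P, hP, hc⟩ := exists_sylow_card (G := G) (a := 1) hp (by rw [hn]; norm_num) (by rw [hn]; norm_num)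
  have hd : 𝐍(P).index = 36 := by simpa using index_mem hG hp hP hc one_pos hn (l := [36]) (by decide +kernel)
  obtain ⟨e, e1, e2, e3, e4⟩ := cent_relIndex hG hp hP hc
  rw [hd, hn] at e3
  have e5 := Nat.le_of_dvd (by norm_num) e2
  obtain ⟨t, ht, h1, h2⟩ := exists_cent_elt Nat.prime_two e4 (by interval_cases e <;> omega)
  have h3 := eight_dvd hG (by rw [hn]; norm_num) (orderOf_eq_prime h2 h1)
  have h4 : P ≤ 𝐂[t] := mem_cent_iff_le_cent1.1 ht
  have h5 := hc ▸ card_dvd_of_le' h4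
  obtain ⟨k, hk, h6⟩ := cent_index hG h1 hn (m := 56) (l := [1]) (by omega) (by decide +kernel)
  have h7 := sylow_count hp (hP.of_le h4 le_top)
  have h8 := card_inf_mul_relIndex 𝐍(P) 𝐂[t]
  have h9 := hc ▸ card_dvd_of_le' (le_inf le_normalizer h4)
  have h10 := orderOf_eq_prime h2 h1 ▸ orderOf_dvd_card_of_mem
    (show t ∈ 𝐍(P) ⊓ 𝐂[t] from ⟨centralizer_le_normalizer _ ht, self_mem_cent1 t⟩)
  have h11 := card_le_of_le' (inf_le_left : 𝐍(P) ⊓ 𝐂[t] ≤ _)
  have h12 := 𝐍(P).card_mul_index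
  have h13 := card_pos' (𝐍(P) ⊓ 𝐂[t])
  rw [List.mem_singleton.1 hk] at h6
  rw [hd] at h12
  unfold Nat.ModEq at h7
  obtain e | e : Nat.card ↥(𝐍(P) ⊓ 𝐂[t]) = 14 ∨ Nat.card ↥(𝐍(P) ⊓ 𝐂[t]) = 28 := by omega
  all_goals rw [e] at h8; omega

theorem not_1040 (hn : Nat.card G = 1040) : False := by
  haveI := Fact.mk Nat.prime_two
  haveI := Fact.mk Nat.prime_five
  have hG := perfect_of_card (G := G) (by rw [hn]; norm_num)
  have hp := Nat.prime_five
  obtain ⟨P, hP, hc⟩ := exists_sylow_card (G := G) (a := 1) hp (by rw [hn]; norm_num) (by rw [hn]; norm_num)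
  have hd : 𝐍(P).index = 26 := by simpa using index_mem hG hp hP hc one_pos hn (l := [26]) (by decide +kernel)
  obtain ⟨e, e1, e2, e3, e4⟩ := cent_relIndex hG hp hP hc
  rw [hd, hn] at e3
  have e5 := Nat.le_of_dvd (by norm_num) e2
  obtain ⟨t, ht, h1, h2⟩ := exists_cent_elt Nat.prime_two e4 (by interval_cases e <;> omega)
  obtain ⟨X, Q, q, n, k, hX, hq, hq2, hQ, h3, h4, h5, h6, h7, h8⟩ := frobenius_dvd hG Nat.prime_two (by rw [hn]; norm_num)
  rw [hn] at h5
  have h9 : n ≤ 4 := not_lt.1 fun h => absurd ((pow_dvd_pow 2 h).trans ((Dvd.intro _ rfl).trans h5)) (by norm_num)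
  have h10 : q ∣ 1040 := (Dvd.intro_left _ rfl).trans h5
  have h11 : k = 4 ∧ q = 5 := by
    have := Nat.dvd_gcd h8 h10
    have h12 : k ≤ 4 := by omega
    interval_cases k
    iterate 3 exact absurd (Nat.dvd_one.1 this) hq.one_lt.ne'
    exact ⟨rfl, (Nat.prime_dvd_prime_iff_eq hq hp).1 this⟩
  obtain ⟨rfl, rfl⟩ := h11
  obtain rfl : n = 4 := by omega
  have hX' := piGrp_of_card_pow Nat.prime_two hX
  have key : ∀ Y ≤ X, Nat.card Y % 5 = 1 → Y = ⊥ ∨ Y = X := fun Y hY h => by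
    obtain ⟨j, hj, e⟩ := (Nat.dvd_prime_pow Nat.prime_two).1 (hX ▸ card_dvd_of_le' hY)
    interval_cases j
    · exact .inl (card_eq_one.1 e)
    iterate 3 omega
    exact .inr (eq_of_le_of_card_eq hY (e.trans hX.symm))
  have h12 := (key (X ⊓ 𝐂(Q)) inf_le_left (by
    rw [← card_modEq_card_inf_cent (hQ.isPGroup hp) h3, hX]; rfl)).resolve_right fun e => h4 (cents_symm (e.ge.trans inf_le_right))
  have h13 := (key 𝐙(X) inf_le_left (by
    rw [card_modEq_card_inf_cent (hQ.isPGroup hp) (norms_center h3),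
      le_bot_iff.1 ((inf_le_inf_right _ inf_le_left).trans h12.le), card_bot])).resolve_left
    (center_ne_bot_pgroup (hX'.isPGroup Nat.prime_two) fun e => by simp [e] at hX)
  obtain ⟨S, hS, hc2⟩ := exists_sylow_card (G := G) (a := 4) Nat.prime_two (by rw [hn]; norm_num) (by rw [hn]; norm_num)
  obtain ⟨g, -, hg⟩ := SylowIn.exists_le_cj (hS.of_card_eq le_top (hX.trans hc2.symm))
    (piGrp_zpowers.2 (piElt_of_pow_eq_one ((piNum_prime (π := {2}) Nat.prime_two).2 rfl) h2)) le_top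
  have h14 : cj g X ≤ 𝐂[t] := mem_cent_iff_le_cent1.1 (cj_centralizer g X ▸ cj_mono g (h13.ge.trans inf_le_right)
    (hg (mem_zpowers t)))
  have h15 := card_dvd_of_le' h14
  have h16 := hc ▸ card_dvd_of_le' (mem_cent_iff_le_cent1.1 ht)
  rw [card_cj, hX] at h15
  obtain ⟨k, hk, -⟩ := cent_index hG h1 hn (m := 80) (l := []) (by omega) (by decide +kernel)
  simp at hk

theorem not_1080 (hn : Nat.card G = 1080) : False := by
  have hG := perfect_of_card (G := G) (by rw [hn]; norm_num)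
  have hp := Nat.prime_five
  obtain ⟨P, hP, hc⟩ := exists_sylow_card (G := G) (a := 1) hp (by rw [hn]; norm_num) (by rw [hn]; norm_num)
  have hd : ∀ P : Subgroup G, SylowIn 5 P ⊤ → 𝐍(P).index = 36 := fun Q hQ => by
    simpa using index_mem hG hp hQ ((hQ.card_eq_card hP).trans hc) one_pos hn (l := [36]) (by decide +kernel)
  have key : ∀ O : Subgroup G, Nat.card O ≠ 45 := fun O hO => by
    obtain ⟨Q, hQ⟩ := exists_sylowIn 5 O
    have h1 := hO ▸ O.card_mul_index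
    have hQ' : SylowIn 5 Q ⊤ := hQ.of_not_dvd_relIndex le_top hp (by rw [relIndex_top_right]; omega)
    have h2 := sylow_count hp hQ
    have h3 := relIndex_dvd_of_le_left O (le_normalizer (H := Q))
    have h4 := card_mul_relIndex hQ.le
    rw [hQ'.card_eq_card hP, hc, hO] at h4
    rw [show Q.relIndex O = 9 by omega] at h3
    have h5 := Nat.le_of_dvd (by norm_num) h3
    unfold Nat.ModEq at h2
    have h6 := card_le_of_le' (relIndex_eq_one.1 (show 𝐍(Q).relIndex O = 1 by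
      generalize 𝐍(Q).relIndex O = s at *
      interval_cases s <;> omega))
    have h7 := 𝐍(Q).card_mul_index
    rw [hd Q hQ'] at h7
    omega
  obtain ⟨e, e1, e2, e3, e4⟩ := cent_relIndex hG hp hP hc
  rw [hd P hP, hn] at e3
  have e5 := Nat.le_of_dvd (by norm_num) e2
  haveI := Fact.mk Nat.prime_three
  obtain ⟨t, ht, h1, h2⟩ := exists_cent_elt Nat.prime_three e4 (by interval_cases e <;> omega)
  have h3 := sq_dvd_card_cent (X := zpowers t) Nat.prime_three (by rw [Nat.card_zpowers, orderOf_eq_prime h2 h1])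
    (by rw [hn]; norm_num)
  have h4 := hc ▸ card_dvd_of_le' (mem_cent_iff_le_cent1.1 ht)
  rw [cent_zpowers] at h3
  obtain ⟨k, hk, h5⟩ := cent_index hG h1 hn (m := 45) (l := [1, 2]) (by omega) (by decide +kernel)
  fin_cases hk
  · exact key _ h5
  · haveI := Fact.mk Nat.prime_two
    obtain ⟨T, hT⟩ := exists_sylowIn 2 𝐂[t]
    have e : piPart {2} 90 = 2 ∧ piPart {2}ᶜ 90 = 45 := by
      have a1 : PiNum {2} 2 := (piNum_prime Nat.prime_two).2 rfl
      have a2 : PiNum {2}ᶜ 45 := (piNum_compl_singleton Nat.prime_two).2 (by norm_num)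
      exact ⟨piPart_eq_of_mul a1 a2 (by norm_num) rfl, piPart_eq_of_mul' a1 a2 (by norm_num) rfl⟩
    have h6 := hT.normalPCompl_of_cyclic_min (isCyclic_of_prime_card' (by rw [hT.card_eq, h5, show 45 * 2 = 90 from rfl, e.1]; norm_num))
      fun q hq _ => hq.two_le
    exact key _ (by rw [IsPiHallOf.card_eq h6, h5]; exact e.2)

section
variable (hG : commutator G = ⊤) (hn : Nat.card G = 720) (hz : z ^ 2 = 1) (h1 : z ≠ 1) (hC : Nat.card 𝐂[z] = 16)
  (hL : Nat.card L = 8) (hzL : z ∈ L) (hu : ∀ y ∈ L, y ^ 2 = 1 → y ≠ 1 → y = z)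
include hG hn hz h1 hC hL hzL hu

theorem fix_720 : fix L z = 2 ∧ L.index = 90 := by
  have h2 := fix_mul_card_cent h1 hz hzL hu
  have h3 := L.card_mul_index
  rw [hL] at h2 h3
  omega

theorem not_eight (hw : w ∈ L) (h4 : w ^ 4 = z) : False := by
  obtain ⟨h2, h3⟩ := fix_720 hG hn hz h1 hC hL hzL hu
  obtain ⟨a, b, c, e1, e2, e3, e4⟩ := fix_parity hG L (x := w) (by rw [show 8 = 4 * 2 from rfl, pow_mul, h4, hz])
  have := fix_pos hw
  rw [h4] at e4
  omega

theorem mem_of_sq (hn' : 𝐂[z] ≤ 𝐍(L)) (h4 : w ^ 2 = z) : w ∈ L := by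
  obtain ⟨h2, h3⟩ := fix_720 hG hn hz h1 hC hL hzL hu
  have h5 : w ^ 4 = 1 := by rw [show 4 = 2 * 2 from rfl, pow_mul, h4, hz]
  obtain ⟨a, b, c, e1, e2, e3, e4⟩ := fix_parity hG L (x := w) (by rw [show 8 = 4 * 2 from rfl, pow_mul, h5, one_pow])
  rw [h4] at e3
  rw [h5, fix_one] at e4
  obtain ⟨g, hg⟩ := exists_of_fix_pos (H := L) (x := w) (by omega)
  have h6 := hu _ (pow_mem hg 2) (by rw [← pow_mul]; exact conj_sq_eq_one h5 g) (by
    rw [show (g⁻¹ * w * g) ^ 2 = g⁻¹ * w ^ 2 * g by simp [pow_two, mul_assoc], h4]; exact conj_ne_one h1 g)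
  rw [show (g⁻¹ * w * g) ^ 2 = g⁻¹ * w ^ 2 * g by simp [pow_two, mul_assoc], h4] at h6
  have := conj_mem_of_mem_normalizer (hn' (mem_cent1_iff.2 (by rw [← h6, ← mul_assoc, ← mul_assoc, h6]; simp) : g ∈ _)) hg
  simpa [mul_assoc] using this

end

theorem inverts_of_fpf {G : Type*} [Group G] {P : Subgroup G} {t u : G} (hab : IsMulCommutative P) (ht : t ∈ 𝐍(P))
    (h : t ^ 2 = 1) (hf : ∀ w ∈ P, t * w = w * t → w = 1) (hu : u ∈ P) : t * u * t⁻¹ = u⁻¹ := by
  have hu' := conj_mem_of_mem_normalizer ht hu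
  refine eq_inv_of_mul_eq_one_right (hf _ (mul_mem hu hu') ?_)
  conv_rhs => rw [abelian_iff'.1 hab u hu _ hu']
  calc _ = t * u * t⁻¹ * t ^ 2 * u * t⁻¹ := by group
    _ = t * u * t⁻¹ * u * (t ^ 2 * t⁻¹) := by rw [h]; group
    _ = _ := by group

theorem not_720_ten (hG : commutator G = ⊤) (hn : Nat.card G = 720) (hP : SylowIn 3 P ⊤)
    (hc : Nat.card P = 3 ^ 2) (hd : 𝐍(P).index = 10) : False := by
  haveI := Fact.mk Nat.prime_three
  haveI := Fact.mk Nat.prime_two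
  have hC := fun x => cent_ten (x := x) hG (.inr hn) hP hc hd
  have hodd : ∀ t ∈ P, t ^ 2 = 1 → t = 1 := fun t ht h => by_contra fun h1 =>
    absurd (orderOf_eq_prime h h1 ▸ hc ▸ orderOf_dvd_card_of_mem ht) (by norm_num)
  have hinv : ∀ t ∈ 𝐍(P), t ^ 2 = 1 → t ≠ 1 → ∀ u ∈ P, t * u * t⁻¹ = u⁻¹ := fun t ht h h1 u hu =>
    inverts_of_fpf (abelian_of_card_eq_prime_sq hc) ht h (fun w hw e => by_contra fun h2 =>
      h1 (hodd t ((hC w hw h2).le (mem_cent1_iff.2 e)) h)) hu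
  obtain ⟨K, hK⟩ := exists_sylowIn 2 𝐍(P)
  obtain ⟨S, hS, hKS⟩ := exists_sylowIn_ge hK.piGrp le_top
  have a1 : ∀ k, PiNum {2} (2 ^ k) := piNum_singleton_pow Nat.prime_two
  have hK8 : Nat.card K = 8 := by
    have := 𝐍(P).card_mul_index
    rw [hK.card_eq, show Nat.card 𝐍(P) = 72 by rw [hd] at this; omega]
    exact piPart_eq_of_mul (a1 3) (b := 9) ((piNum_compl_singleton Nat.prime_two).2 (by norm_num)) (by norm_num) rfl
  have hS16 : Nat.card S = 16 := by
    rw [hS.card_eq, card_top, hn]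
    exact piPart_eq_of_mul (a1 4) (b := 45) ((piNum_compl_singleton Nat.prime_two).2 (by norm_num)) (by norm_num) rfl
  obtain ⟨z, hzK, ho⟩ := exists_orderOf_eq_prime (A := K) Nat.prime_two (by omega)
  have hz : z ^ 2 = 1 := ho ▸ pow_orderOf_eq_one z
  have h1 : z ≠ 1 := fun e => by simp [e] at ho
  obtain ⟨u, huP, hu1⟩ := exists_ne_one_mem' (one_lt_card_iff_ne_bot'.1 (show 1 < Nat.card P by omega))
  have hu : ∀ y ∈ K, y ^ 2 = 1 → y ≠ 1 → y = z := fun y hy h2 h3 => by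
    have e : z⁻¹ * y ∈ 𝐂[u] := mem_cent1_iff.2 (by
      calc _ = z⁻¹ * (y * u * y⁻¹) * y := by group
        _ = _ := by rw [hinv y (hK.le hy) h2 h3 u huP, ← hinv z (hK.le hzK) hz h1 u huP]; group)
    rw [hC u huP hu1] at e
    exact (inv_mul_eq_one.1 (mem_bot.1 ((hP.piGrp.coprime_of_ne hK.piGrp (by norm_num) |> inf_eq_bot_of_card_coprime).le
      ⟨e, K.mul_mem (K.inv_mem hzK) hy⟩))).symm
  have hi : K.relIndex S = 2 := relIndex_eq_of_card_eq_mul hKS (by omega)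
  have hSK := norm_of_relIndex_eq_prime (hS.isPGroup Nat.prime_two) hKS hi
  have hSC : S ≤ 𝐂[z] := fun s hs => mem_cent1_iff.2 (by
    rw [← inv_mul_eq_iff_eq_mul.1 (mul_assoc s⁻¹ z s ▸ hu _ (conj_inv_mem_of_mem_normalizer (hSK hs) hzK)
      (conj_sq_eq_one hz s) (conj_ne_one h1 s))])
  obtain ⟨k, hk, hCz⟩ := cent_index hG h1 hn (m := 16) (l := [1, 3]) (hS16 ▸ card_dvd_of_le' hSC) (by decide +kernel)
  fin_cases hk
  swap
  · obtain ⟨v, hv, hov⟩ := exists_orderOf_eq_prime (A := 𝐂[z]) Nat.prime_three (by omega)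
    obtain ⟨g, -, hg⟩ := hP.exists_conj_mem (mem_top v) ((piElt_of_orderOf_prime Nat.prime_three hov).2 rfl)
    have e := cj_centralizer_singleton g v ▸ hC _ hg (fun e => by simp [conj_eq_one_iff.1 e] at hov)
    exact h1 (conj_eq_one_iff.1 (hodd _ (e.le (conj_mem_cj.2 (mem_cent1_comm.1 hv))) (by simp [hz])))
  have hSe : S = 𝐂[z] := eq_of_le_of_card_eq hSC (by omega)
  have hsq : ∀ w ∈ S, w ^ 2 ∈ K := fun w hw => hi ▸ pow_relIndex_mem_of_norm hSK hw
  have h8 : ∀ w ∈ S, w ^ 8 = 1 → w ^ 4 = 1 := fun w hw h => by_contra fun h4 => by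
    have e := hu _ (pow_mem (hsq w hw) 2) (by rw [← pow_mul, ← pow_mul]; exact h) (by rwa [← pow_mul])
    rw [← pow_mul] at e
    have ho8 : orderOf w = 2 ^ (2 + 1) := orderOf_eq_prime_pow h4 h
    refine not_eight hG hn hz h1 hCz (L := zpowers w) (by rw [Nat.card_zpowers, ho8]; rfl) (e ▸ npow_mem_zpowers w _)
      (fun y hy h2 h3 => ?_) (mem_zpowers w) e
    classical
    obtain ⟨j, hj, rfl⟩ := Finset.mem_image.1 (mem_zpowers_iff_mem_range_orderOf.1 hy)
    rw [← pow_mul, ← orderOf_dvd_iff_pow_eq_one, ho8] at h2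
    rw [Finset.mem_range, ho8] at hj
    obtain rfl | rfl : j = 0 ∨ j = 4 := by omega
    · simp at h3
    · exact e
  have h4 : ∀ w ∈ S, (w ^ 2) ^ 2 = 1 := fun w hw => by
    rw [← pow_mul]
    refine h8 w hw ((pow_mul w 2 4).trans (h8 _ (pow_mem hw 2) ?_))
    rw [← pow_mul, ← orderOf_dvd_iff_pow_eq_one]
    exact (orderOf_dvd_card_of_mem hw).trans hS16.dvd
  have h2 : ∀ w ∈ S, w ∉ K → w ^ 2 = 1 := fun w hw h => by_contra fun h3 =>
    h (mem_of_sq hG hn hz h1 hCz hK8 hzK hu (hSe ▸ hSK) (hu _ (hsq w hw) (h4 w hw) h3))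
  obtain ⟨s, hs, hsK⟩ := SetLike.not_le_iff_exists.1 fun h : S ≤ K => by have := card_le_of_le' h; omega
  have h5 : ∀ k ∈ K, s * k * s⁻¹ = k⁻¹ := fun k hk => by
    have e := h2 _ (mul_mem hs (hKS hk)) fun h => hsK ((mul_mem_cancel_right hk).1 h)
    calc _ = (s * k) ^ 2 * k⁻¹ * (s ^ 2)⁻¹ := by simp [pow_two, mul_assoc]
      _ = _ := by rw [e, h2 s hs hsK]; group
  have h6 : ∀ a ∈ K, ∀ b ∈ K, a * b = b * a := fun a ha b hb => inv_injective (by
    rw [← h5 _ (mul_mem ha hb), _root_.mul_inv_rev, ← h5 a ha, ← h5 b hb]; group)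
  have h7 : ∀ a ∈ K, a ∉ zpowers z → a ^ 2 = z := fun a ha h => hu _ (pow_mem ha 2) (h4 a (hKS ha)) fun e =>
    h (by rw [hu a ha e fun e => h (e ▸ one_mem _)]; exact mem_zpowers z)
  obtain ⟨a, ha, haz⟩ := SetLike.not_le_iff_exists.1 fun h : K ≤ zpowers z => by
    have := card_le_of_le' h
    rw [Nat.card_zpowers] at this
    omega
  obtain ⟨b, hb, hba⟩ := SetLike.not_le_iff_exists.1 fun h : K ≤ zpowers a => by
    have := card_le_of_le' h
    have e := orderOf_le_of_pow_eq_one (by norm_num) ((pow_mul a 2 2).trans (h4 a (hKS ha)))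
    rw [Nat.card_zpowers] at this
    omega
  have hza : zpowers z ≤ zpowers a := zpowers_le.2 (h7 a ha haz ▸ npow_mem_zpowers a 2)
  refine hba ((mul_mem_cancel_left (mem_zpowers a)).1 (hza (by_contra fun h => h1 ?_)))
  rw [← h7 _ (mul_mem ha hb) h, Commute.mul_pow (h6 a ha b hb), h7 a ha haz, h7 b hb fun h => hba (hza h), ← pow_two, hz]

theorem not_720_forty (hG : commutator G = ⊤) (hn : Nat.card G = 720) (hP : SylowIn 3 P ⊤)
    (hc : Nat.card P = 3 ^ 2) (hd : 𝐍(P).index = 40) : False := by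
  haveI := Fact.mk Nat.prime_three
  haveI := Fact.mk Nat.prime_two
  have hab := abelian_of_card_eq_prime_sq hc
  have h1 := 𝐍(P).card_mul_index
  rw [hd] at h1
  obtain ⟨w, hw, ho⟩ := exists_orderOf_eq_prime (A := 𝐍(P)) Nat.prime_two (by omega)
  have hwP : w ∉ P := fun h => absurd (ho ▸ hc ▸ orderOf_dvd_card_of_mem h) (by norm_num)
  have hN : P ⊔ zpowers w = 𝐍(P) := CovBy.eq_sup_zpowers (covBy_of_card_eq_mul (p := 2) le_normalizer (by omega)) hw hwP
  have hinv : ∀ u ∈ P, w * u * w⁻¹ = u⁻¹ := fun u => inverts_of_fpf hab hw (ho ▸ pow_orderOf_eq_one w) fun v hv e => by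
    have := (hP.dprod_of_abelian hab).inf_eq
    rw [der_top, hG, inf_top_eq, top_inf_eq, ← hN, cent_sup, cent_zpowers] at this
    exact mem_bot.1 (this.le ⟨hv, hv, abelian_iff.1 hab hv, mem_cent1_iff.2 e.symm⟩)
  obtain ⟨g, hg, hD⟩ := exists_inf_index Nat.prime_three hP (by rw [hd]; decide)
  obtain ⟨d, hdD, hd1⟩ := exists_ne_one_mem' (one_lt_card_iff_ne_bot'.1 (show 1 < Nat.card ↥(P ⊓ cj g P) by omega))
  have h2 : P ≤ 𝐂[d] := mem_cent_iff_le_cent1.1 (abelian_iff.1 hab hdD.1)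
  obtain ⟨e1, e2, e3⟩ := two_sylow Nat.prime_three hP hg h2
    (mem_cent_iff_le_cent1.1 (abelian_iff.1 ((abelian_cj g).2 hab) hdD.2))
  have h3 : 𝐂[d] ≤ 𝐍(zpowers d) := norms_zpowers_of_cent1 le_rfl
  have hwM : w ∈ 𝐍(zpowers d) := mem_normalizer_of_cj_le (by
    rw [cj_zpowers, hinv d hdD.1, zpowers_le]; exact inv_mem (mem_zpowers d))
  have h4 := card_lt_of_lt' (h3.lt_of_ne fun e => by
    have e' := hinv d hdD.1
    rw [mem_cent1_iff.1 (e.ge hwM), mul_inv_cancel_right, eq_inv_iff_mul_eq_one, ← pow_two] at e'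
    exact absurd (orderOf_eq_prime e' hd1 ▸ hc ▸ orderOf_dvd_card_of_mem hdD.1) (by norm_num))
  obtain ⟨j, hj⟩ := card_dvd_of_le' h3
  have h5 := le_of_dvd_factorial (hn ▸ dvd_factorial hG (norm_ne_top (X := zpowers d) (by simpa using hd1) fun e => by
    have := card_le_of_le' (e.ge.trans (zpowers_le.2 hdD.1))
    rw [card_top] at this
    omega)) (k := 8) (by decide)
  have h6 := 𝐍(zpowers d).card_mul_index
  have h7 := card_mul_relIndex h2
  have h8 := Nat.le_of_dvd (relIndex_pos' _ _) e1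
  have h9 : 2 ≤ j := by
    by_contra h
    have : j ≤ 1 := by omega
    interval_cases j <;> omega
  rw [hj, ← h7, hc, hn] at h6
  have h10 : 3 ^ 2 * P.relIndex 𝐂[d] * 2 * 8 ≤ 720 := h6 ▸ by gcongr
  have h11 : P.relIndex 𝐂[d] = 4 := by
    generalize P.relIndex 𝐂[d] = k at *
    generalize 𝐍(P).relIndex 𝐂[d] = s at *
    obtain rfl : s = 4 := by omega
    omega
  rw [h11] at h6 h7
  have h12 : 3 ^ 2 * 4 * j * 8 ≤ 720 := h6 ▸ by gcongr
  obtain rfl : j = 2 := by omega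
  refine cent_odd_ten hG (H := 𝐍(zpowers d)) (by omega) (h3 (self_mem_cent1 d)) (hP.piGrp.piElt hdD.1)
    (fun g hg => ?_) (by omega)
  obtain ⟨m, hm, h13⟩ := SylowIn.exists_conj_mem (hP.of_le (h2.trans h3) le_top) (mem_cj.1 hg)
    (piElt_conj'.2 (hP.piGrp.piElt hdD.1))
  obtain ⟨n, hn', h14⟩ := hP.exists_norm_conj (mem_top (m * g⁻¹)) (abelian_iff.1 hab hdD.1)
    (abelian_iff.1 hab (by simpa [mul_assoc] using h13))
  have h15 : n ∈ 𝐍(zpowers d) := (hN.ge.trans (sup_le (h2.trans h3) (zpowers_le.2 hwM))) hn'.2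
  have h16 : n⁻¹ * (m * g⁻¹) ∈ 𝐂[d] := mem_cent1_iff.2 (by
    calc _ = n⁻¹ * (m * g⁻¹ * d * (m * g⁻¹)⁻¹) * (m * g⁻¹) := by group
      _ = _ := by rw [← h14]; group)
  exact inv_mem_iff.1 ((mul_mem_cancel_left hm).1 ((mul_mem_cancel_left (inv_mem h15)).1 (h3 h16)))

theorem not_720 (hn : Nat.card G = 720) : False := by
  have hG := perfect_of_card (G := G) (by rw [hn]; norm_num)
  obtain ⟨P, hP, hc⟩ := exists_sylow_card (G := G) (a := 2) Nat.prime_three (by rw [hn]; norm_num) (by rw [hn]; norm_num)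
  have hd := index_mem hG Nat.prime_three hP hc two_pos hn (l := [10, 40]) (by decide +kernel)
  simp only [List.mem_cons, List.not_mem_nil, or_false] at hd
  exact hd.elim (not_720_ten hG hn hP hc) (not_720_forty hG hn hP hc)

end CA.Zas
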